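import Cfsg.Agent.Lib.ReflectionsSpinor.GraphClassOdd
import Cfsg.Agent.Lib.ClassicalLinear.SympCard
import Cfsg.Agent.Lib.Forms.SympBridge
import Cfsg.Agent.S0287
import Cfsg.Agent.S0288

/-!
# The symplectic and orthogonal types are told apart by the order
-/

set_option autoImplicit false
set_option linter.unusedSectionVars false

open Matrix

namespace CfsgLib.ReflectionsSpinor

universe u

variable {F : Type u} [Field F] [Fintype F] {ι : Type} [Fintype ι] [DecidableEq ι]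

theorem card_scalars [Nonempty ι] : Nat.card (Cfsg.Geo.scalars ι F) = Nat.card F - 1 := by
  rw [Cfsg.Geo.scalars, ← Nat.card_congr (MonoidHom.ofInjective ?_).toEquiv, Nat.card_units]
  intro a b h
  obtain ⟨i⟩ := ‹Nonempty ι›
  have := congrArg (fun z : GL ι F => (z : Matrix ι ι F) i i) h
  exact Units.ext (by simpa [Matrix.scalar_apply] using this)

theorem card_projQuot_mul [Nonempty ι] (H : Subgroup (GL ι F)) (hH : Cfsg.Geo.scalars ι F ≤ H) :
    Nat.card (Cfsg.projQuot H) * (Nat.card F - 1) = Nat.card H := by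
  rw [← card_scalars (F := F) (ι := ι), ← Nat.card_congr (Subgroup.subgroupOfEquivOfLe hH).toEquiv]
  exact (Subgroup.card_eq_card_quotient_mul_card_subgroup _).symm

theorem scalars_le_quadSim (Q : (ι → F) → F) (hQ : ∀ (c : F) v, Q (c • v) = c * c * Q v) :
    Cfsg.Geo.scalars ι F ≤ Cfsg.Geo.quadSimilarityGroup (F := F) Q := fun g hg => by
  obtain ⟨c, hc⟩ := (Cfsg.Geo.mem_scalars_iff g).1 hg
  exact ⟨c * c, fun v => by rw [hc, Matrix.smul_mulVec, Matrix.one_mulVec, hQ, Units.val_mul]⟩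

theorem card_quadSim_dvd (Q : (ι → F) → F) (v₀ : ι → F) (h₀ : Q v₀ ≠ 0) :
    Nat.card (Cfsg.Geo.quadSimilarityGroup (F := F) Q) ∣
      (Nat.card F - 1) * Nat.card (Cfsg.isometryGroup F Q) := by
  choose μ hμ using fun g : Cfsg.Geo.quadSimilarityGroup (F := F) Q => g.2
  let μH : ↥(Cfsg.Geo.quadSimilarityGroup (F := F) Q) →* Fˣ :=
    MonoidHom.mk' μ fun g h => Units.ext (mul_right_cancel₀ h₀ (by
      rw [← hμ, Subgroup.coe_mul, Units.val_mul, ← Matrix.mulVec_mulVec, hμ, hμ, Units.val_mul, mul_assoc]))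
  have hiso : ∀ g : GL ι F, g ∈ Cfsg.isometryGroup F Q ↔ ∀ v, Q ((g : Matrix ι ι F) *ᵥ v) = Q v :=
    fun g => ⟨fun h v => h v v, fun h u _ => h u⟩
  have hmem : ∀ g : GL ι F, g ∈ Cfsg.isometryGroup F Q → g ∈ Cfsg.Geo.quadSimilarityGroup (F := F) Q :=
    fun g hg => ⟨1, fun v => ((hiso g).1 hg v).trans (by rw [Units.val_one, one_mul])⟩
  have hker : Nat.card μH.ker = Nat.card (Cfsg.isometryGroup F Q) := by
    refine Nat.card_congr ⟨fun g => ⟨g.1.1, (hiso _).2 fun v => ?_⟩, fun g => ⟨⟨g.1, hmem _ g.2⟩, ?_⟩,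
      fun g => Subtype.ext (Subtype.ext rfl), fun g => Subtype.ext rfl⟩
    · rw [hμ g.1 v, show μ g.1 = 1 from g.2, Units.val_one, one_mul]
    · refine MonoidHom.mem_ker.2 (Units.ext (mul_right_cancel₀ h₀ ?_))
      exact (hμ ⟨g.1, hmem _ g.2⟩ v₀).symm.trans (((hiso _).1 g.2 v₀).trans (one_mul _).symm)
  rw [← hker, ← Subgroup.index_mul_card μH.ker, Subgroup.index_ker, ← Nat.card_units]
  exact mul_dvd_mul_right (Subgroup.card_subgroup_dvd_card _) _

variable {p : ℕ} [Fact p.Prime] {f : ℕ}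

theorem not_dvd_pow_sub_one (hF : Fintype.card F = p ^ f) (hf : 1 ≤ f) {k : ℕ} (hk : 1 ≤ k) :
    ¬p ∣ Fintype.card F ^ k - 1 := by
  intro h
  rw [hF, ← pow_mul] at h
  have h1 : p ∣ p ^ (f * k) := dvd_pow_self p (Nat.mul_ne_zero (by omega) (by omega))
  have h2 : 1 ≤ p ^ (f * k) := Nat.one_le_pow _ _ (Fact.out : p.Prime).pos
  exact (Fact.out : p.Prime).one_lt.ne' (Nat.dvd_one.1 ((Nat.dvd_add_right h).1 (by rwa [Nat.sub_add_cancel h2])))

theorem not_dvd_pow_add_one (hF : Fintype.card F = p ^ f) (hf : 1 ≤ f) {k : ℕ} (hk : 1 ≤ k) :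
    ¬p ∣ Fintype.card F ^ k + 1 := by
  intro h
  rw [hF, ← pow_mul] at h
  have h1 : p ∣ p ^ (f * k) := dvd_pow_self p (Nat.mul_ne_zero (by omega) (by omega))
  exact (Fact.out : p.Prime).one_lt.ne' (Nat.dvd_one.1 ((Nat.dvd_add_right h1).1 h))

/-- The symplectic order is too large for the orthogonal one. -/
theorem orth_order_lt (hF : Fintype.card F = p ^ f) (hf : 1 ≤ f) (hp : p ≠ 2) {m : ℕ} (hm : 1 ≤ m)
    (X : ℕ) (hX : ¬p ∣ X)
    (h : Fintype.card F ^ m ^ 2 * ∏ i ∈ Finset.range m, (Fintype.card F ^ (2 * (i + 1)) - 1) ∣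
      (Fintype.card F - 1) * (2 * Fintype.card F ^ (m * (m - 1)) * X *
        ∏ i ∈ Finset.range (m - 1), (Fintype.card F ^ (2 * (i + 1)) - 1))) : False := by
  set q := Fintype.card F with hq
  obtain ⟨k, rfl⟩ : ∃ k, m = k + 1 := ⟨m - 1, by omega⟩
  have h1 : q ^ (k + 1) ^ 2 ∣ (q - 1) * (2 * q ^ ((k + 1) * k) * X *
      ∏ i ∈ Finset.range k, (q ^ (2 * (i + 1)) - 1)) := (dvd_mul_right _ _).trans h
  have h2 : q ^ ((k + 1) * k) * q ^ (k + 1) ∣ q ^ ((k + 1) * k) * ((q - 1) * 2 * X *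
      ∏ i ∈ Finset.range k, (q ^ (2 * (i + 1)) - 1)) := by
    refine (dvd_of_eq ?_).trans (h1.trans (dvd_of_eq ?_))
    · rw [← pow_add]; ring_nf
    · ring
  have h3 := (Nat.mul_dvd_mul_iff_left (pow_pos Fintype.card_pos _)).1 h2
  have hpq : p ∣ q ^ (k + 1) := by
    rw [hF, ← pow_mul]; exact dvd_pow_self p (Nat.mul_ne_zero (by omega) (by omega))
  have hp' : p.Prime := Fact.out
  rcases hp'.dvd_mul.1 (hpq.trans h3) with h4 | h4
  · rcases hp'.dvd_mul.1 h4 with h5 | h5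
    · rcases hp'.dvd_mul.1 h5 with h6 | h6
      · exact not_dvd_pow_sub_one hF hf le_rfl (by rwa [pow_one])
      · exact hp ((Nat.prime_dvd_prime_iff_eq hp' Nat.prime_two).1 h6)
    · exact hX h5
  · obtain ⟨i, -, hi⟩ := (Prime.dvd_finsetProd_iff hp'.prime _).1 h4
    exact not_dvd_pow_sub_one hF hf (by omega) hi

theorem card_sp_dvd (m : ℕ) [Nonempty (Fin m ⊕ Fin m)] :
    Nat.card (Matrix.symplecticGroup (Fin m) F) ∣
      Nat.card (Cfsg.PGSp m F) * (Nat.card F - 1) := by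
  rw [Cfsg.PGSp, card_projQuot_mul _ (by
    rw [Cfsg.GSp, similarityGroup_eq_simA (Cfsg.sympForm m F) _ fun u v => rfl]; exact scalars_le_simA _)]
  refine Subgroup.card_dvd_of_injective ((CfsgLib.Forms.spToGL m F).codRestrict _ fun s => ⟨1, fun u v => ?_⟩)
    fun a b h => CfsgLib.Forms.spToGL_injective (congrArg Subtype.val h)
  rw [Units.val_one, one_mul]
  exact CfsgLib.Omega.sympForm_mulVec_of_mem s.2 u v

theorem not_PGO_equiv_PGSp (hF : Fintype.card F = p ^ f) (hf : 1 ≤ f) (hp : p ≠ 2) {m : ℕ} (hm : 1 ≤ m)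
    {X : ℕ} (hX : ¬p ∣ X) (Q : (ι → F) → F) [Nonempty ι] (hQ : ∀ (c : F) v, Q (c • v) = c * c * Q v)
    (v₀ : ι → F) (h₀ : Q v₀ ≠ 0)
    (hcard : Nat.card (Cfsg.isometryGroup F Q) = 2 * Fintype.card F ^ (m * (m - 1)) * X *
      ∏ i ∈ Finset.range (m - 1), (Fintype.card F ^ (2 * (i + 1)) - 1)) :
    ¬Nonempty (Cfsg.PGO F Q ≃* Cfsg.PGSp m F) := by
  rintro ⟨e⟩
  haveI : Nonempty (Fin m ⊕ Fin m) := ⟨.inl ⟨0, by omega⟩⟩
  have h := card_sp_dvd (F := F) m
  rw [← Nat.card_congr e.toEquiv, Cfsg.PGO, card_projQuot_mul _ (scalars_le_quadSim Q hQ)] at h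
  have h1 := h.trans (card_quadSim_dvd Q v₀ h₀)
  rw [CfsgLib.ClassicalLinear.card_sp, hcard, Nat.card_eq_fintype_card] at h1
  exact orth_order_lt hF hf hp hm X hX h1

theorem two_ne_zero_of_card (hF : Fintype.card F = p ^ f) (hf : 1 ≤ f) (hp : p ≠ 2) : (2 : F) ≠ 0 := by
  intro h
  have hchar : CharP F p := by
    obtain ⟨r, hr⟩ := CharP.exists F
    obtain ⟨e, hr', he⟩ := FiniteField.card F r
    have : r = p := by
      have hd : r ∣ p ^ f := by rw [← hF, he]; exact dvd_pow_self r e.pos.ne'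
      exact (Nat.prime_dvd_prime_iff_eq hr' Fact.out).1 (hr'.dvd_of_dvd_pow hd)
    exact this ▸ hr
  have := (CharP.cast_eq_zero_iff F p 2).1 (by exact_mod_cast h)
  exact hp ((Nat.prime_dvd_prime_iff_eq Fact.out Nat.prime_two).1 this)

/-- In odd characteristic and even dimension, a symmetric matrix is not of symplectic type. -/
theorem PSL.not_centralizer_symm_PGSp {n m : ℕ} (hF : Fintype.card F = p ^ f) (hf : 1 ≤ f) (hp : p ≠ 2)
    (hm : 2 ≤ m) (hnm : n = 2 * m) (A : GL (Fin n) F)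
    (hA : (A : Matrix (Fin n) (Fin n) F)ᵀ = (A : Matrix (Fin n) (Fin n) F)) :
    ¬Nonempty (↥(Cfsg.inndiagPSL n F ⊓ Subgroup.centralizer {PSL.gr A}) ≃* Cfsg.PGSp m F) := by
  rintro ⟨E0⟩
  have h2 := two_ne_zero_of_card hF hf hp
  obtain ⟨k, hk⟩ : ∃ k, m = k + 1 := ⟨m - 1, by omega⟩
  obtain rfl : k = m - 1 := by omega
  have hn2 : 2 ≤ n := by omega
  obtain ⟨α, hα⟩ := exists_nonsquare h2
  by_cases hsq : IsSquare ((A : Matrix (Fin n) (Fin n) F).det * (-1) ^ m)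
  · let e : Fin m ⊕ Fin m ≃ Fin n := finSumFinEquiv.trans (finCongr (by omega))
    obtain ⟨E⟩ := PSL.nonempty_centralizer_gr_equiv_of_scalCong hn2 A _ e
      (scalCong_plus h2 (by omega) hnm e A hA hsq)
    rw [← quadSim_plus h2 m] at E
    haveI : Nonempty (Fin m ⊕ Fin m) := ⟨.inl ⟨0, by omega⟩⟩
    refine not_PGO_equiv_PGSp hF hf hp (by omega) (not_dvd_pow_sub_one hF hf (k := m) (by omega))
      (Cfsg.quadFormPlus m F) (fun c v => ?_)
      (Pi.single (.inl ⟨0, by omega⟩) 1 + Pi.single (.inr ⟨0, by omega⟩) 1) ?_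
      (Cfsg.Agent.S0287.result rfl m (by omega)) ⟨E.symm.trans E0⟩
    · simp only [Cfsg.quadFormPlus, Pi.smul_apply, smul_eq_mul, Finset.mul_sum]
      exact Finset.sum_congr rfl fun i _ => by ring
    · simp [Cfsg.quadFormPlus, Pi.single_apply]
  · let e : (Fin (m - 1) ⊕ Fin (m - 1)) ⊕ Fin 2 ≃ Fin n :=
      ((Equiv.sumCongr finSumFinEquiv (Equiv.refl _)).trans finSumFinEquiv).trans (finCongr (by omega))
    obtain ⟨E⟩ := PSL.nonempty_centralizer_gr_equiv_of_scalCong hn2 A _ e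
      (scalCong_minus h2 hk hnm hα e A hA hsq)
    rw [← quadSim_minus h2] at E
    refine not_PGO_equiv_PGSp hF hf hp (by omega) (not_dvd_pow_add_one hF hf (k := m) (by omega))
      (Cfsg.quadFormMinus (m - 1) F 0 (-α)) (fun c v => ?_) (Pi.single (.inr 0) 1) ?_
      (Cfsg.Agent.S0288.result rfl m (by omega) 0 (-α) (minus_aniso hα)) ⟨E.symm.trans E0⟩
    · simp only [Cfsg.quadFormMinus, Pi.smul_apply, smul_eq_mul, mul_add, Finset.mul_sum]
      congr 1
      · exact Finset.sum_congr rfl fun i _ => by ring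
      · ring
    · simp [Cfsg.quadFormMinus, Pi.single_apply]

end CfsgLib.ReflectionsSpinor
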