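import Mathlib.Tactic
import Mathlib.Data.Matrix.Mul
import Mathlib.Algebra.BigOperators.Group.Finset.Basic
import Mathlib.LinearAlgebra.Matrix.Notation

set_option autoImplicit false

namespace CfsgLib.ReflectionsSpinor

open Matrix

/-- If `v ⬝ A v = v ⬝ B v` for all vectors over `R`, it holds over every ring receiving `R`. -/
theorem dotProduct_mulVec_map_eq {ι : Type*} [Fintype ι] [DecidableEq ι] {R S : Type*} [CommRing R] [CommRing S]
    (f : R →+* S) (A B : Matrix ι ι R) (h : ∀ v : ι → R, v ⬝ᵥ (A *ᵥ v) = v ⬝ᵥ (B *ᵥ v)) (v : ι → S) :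
    v ⬝ᵥ (A.map f *ᵥ v) = v ⬝ᵥ (B.map f *ᵥ v) := by
  have hd : ∀ i, A i i = B i i := fun i => by
    have := h (Pi.single i 1)
    simpa [Matrix.mulVec_single] using this
  have ho : ∀ i j, A i j + A j i = B i j + B j i := fun i j => by
    have := h (Pi.single i 1 + Pi.single j 1)
    simp only [Matrix.mulVec_add, add_dotProduct, dotProduct_add, Matrix.mulVec_single, single_dotProduct,
      Pi.smul_apply, Matrix.col_apply, MulOpposite.op_one, one_smul, one_mul] at this
    linear_combination this - hd i - hd j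
  suffices H : ∑ p : ι × ι, v p.1 * (f (A p.1 p.2) - f (B p.1 p.2)) * v p.2 = 0 by
    rw [Fintype.sum_prod_type] at H
    simp only [mul_sub, sub_mul, Finset.sum_sub_distrib, sub_eq_zero] at H
    simpa [dotProduct, Matrix.mulVec, Matrix.map_apply, Finset.mul_sum, mul_assoc] using H
  refine Finset.sum_involution (fun p _ => (p.2, p.1)) ?_ ?_ (fun _ _ => Finset.mem_univ _) (fun _ _ => rfl)
  · intro p _
    have := congrArg f (ho p.1 p.2)
    simp only [map_add] at this
    linear_combination v p.1 * v p.2 * this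
  · intro p _ hne heq
    have h1 : p.2 = p.1 := congrArg Prod.fst heq
    exact hne (by rw [h1, hd]; simp)

end CfsgLib.ReflectionsSpinor
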