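import Cfsg.Agent.Lib.ReflectionsSpinor.GraphOdd

/-!
# The standard representatives of involutory graph automorphisms in odd characteristic
-/

set_option autoImplicit false
set_option linter.unusedSectionVars false

open Matrix

namespace CfsgLib.ReflectionsSpinor

universe u

variable {F : Type u} [Field F] [Finite F] {n m : ℕ}

local notation "M" => Matrix (Fin n) (Fin n) F

/-- An invertible matrix as a member of `GL`. -/
noncomputable abbrev toGLn {ι : Type} [Fintype ι] [DecidableEq ι] (e : ι ≃ Fin n) (B : Matrix ι ι F)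
    (hB : B.det ≠ 0) : GL (Fin n) F :=
  Matrix.GeneralLinearGroup.mk'' (Matrix.reindex e e B)
    (isUnit_iff_ne_zero.2 (by rwa [Matrix.det_reindex_self]))

theorem four_ne_zero' (h2 : (2 : F) ≠ 0) : (4 : F) ≠ 0 := by
  rw [show (4 : F) = 2 * 2 by norm_num]; exact mul_ne_zero h2 h2

theorem det_hyp_ne_zero (m : ℕ) : (CfsgLib.Classes.hypMatrix m F).det ≠ 0 := by
  rw [CfsgLib.Classes.det_hypMatrix]; exact pow_ne_zero _ (neg_ne_zero.2 one_ne_zero)

theorem det_minus_ne_zero (h2 : (2 : F) ≠ 0) (k : ℕ) {α : F} (hα : ¬IsSquare α) :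
    (CfsgLib.Classes.minusMatrix k 0 (-α)).det ≠ 0 := by
  rw [CfsgLib.Classes.det_minusMatrix]
  refine mul_ne_zero (pow_ne_zero _ (neg_ne_zero.2 one_ne_zero)) fun h => hα ?_
  have : (4 : F) * α = 0 := by linear_combination -h
  rw [(mul_eq_zero.1 this).resolve_left (four_ne_zero' h2)]
  exact IsSquare.zero

theorem minus_aniso {α : F} (hα : ¬IsSquare α) (z₁ z₂ : F) (h : z₁ ^ 2 + 0 * z₁ * z₂ + -α * z₂ ^ 2 = 0) :
    z₁ = 0 ∧ z₂ = 0 := by
  by_cases hz : z₂ = 0
  · refine ⟨?_, hz⟩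
    subst hz
    exact pow_eq_zero_iff two_ne_zero |>.1 (by linear_combination h)
  · refine absurd ⟨z₁ / z₂, ?_⟩ hα
    field_simp
    linear_combination -h

/-- The class of a symmetric matrix in even dimension is decided by its discriminant. -/
theorem scalCong_plus (h2 : (2 : F) ≠ 0) (hm : 1 ≤ m) (hnm : n = 2 * m) (e : Fin m ⊕ Fin m ≃ Fin n)
    (A : GL (Fin n) F) (hA : (A : M)ᵀ = (A : M)) (h : IsSquare ((A : M).det * (-1) ^ m)) :
    ScalCong (A : M) (Matrix.reindex e e (CfsgLib.Classes.hypMatrix m F)) := by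
  obtain ⟨P, hP⟩ := exists_congr_of_isSquare h2 (by omega) A (toGLn e _ (det_hyp_ne_zero m)) hA
    (by show (Matrix.reindex e e _)ᵀ = Matrix.reindex e e _
        rw [Matrix.transpose_reindex, transpose_hypMatrix])
    (by show IsSquare ((A : M).det * (Matrix.reindex e e _).det)
        rwa [Matrix.det_reindex_self, CfsgLib.Classes.det_hypMatrix])
  exact ⟨P, 1, hP.trans (one_smul F (A : M)).symm⟩

theorem scalCong_minus (h2 : (2 : F) ≠ 0) {k : ℕ} (hm : m = k + 1) (hnm : n = 2 * m) {α : F} (hα : ¬IsSquare α)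
    (e : (Fin k ⊕ Fin k) ⊕ Fin 2 ≃ Fin n) (A : GL (Fin n) F) (hA : (A : M)ᵀ = (A : M))
    (h : ¬IsSquare ((A : M).det * (-1) ^ m)) :
    ScalCong (A : M) (Matrix.reindex e e (CfsgLib.Classes.minusMatrix k 0 (-α))) := by
  haveI : Fintype F := Fintype.ofFinite F
  have hα0 : α ≠ 0 := fun h => hα (h ▸ IsSquare.zero)
  obtain ⟨P, hP⟩ := exists_congr_of_isSquare h2 (by omega) A (toGLn e _ (det_minus_ne_zero h2 k hα)) hA
    (by show (Matrix.reindex e e _)ᵀ = Matrix.reindex e e _
        rw [Matrix.transpose_reindex, transpose_minusMatrix])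
    (by show IsSquare ((A : M).det * (Matrix.reindex e e _).det)
        have hdet : (A : M).det ≠ 0 := ((Matrix.isUnit_iff_isUnit_det _).1 A.isUnit).ne_zero
        have hs : IsSquare (((A : M).det * (-1) ^ m) * α) :=
          (CfsgLib.Classes.isSquare_mul_iff h2 (mul_ne_zero hdet (pow_ne_zero _ (neg_ne_zero.2 one_ne_zero)))
            hα0).2 (iff_of_false h hα)
        obtain ⟨r, hr⟩ := hs
        rw [Matrix.det_reindex_self, CfsgLib.Classes.det_minusMatrix]
        refine ⟨2 * r, ?_⟩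
        rw [hm, pow_succ] at hr
        linear_combination 4 * hr)
  exact ⟨P, 1, hP.trans (one_smul F (A : M)).symm⟩

theorem not_scalCong_plus_minus (h2 : (2 : F) ≠ 0) {k : ℕ} (hm : m = k + 1) (hnm : n = 2 * m) {α : F}
    (hα : ¬IsSquare α) (e : Fin m ⊕ Fin m ≃ Fin n) (e' : (Fin k ⊕ Fin k) ⊕ Fin 2 ≃ Fin n) :
    ¬ScalCong (Matrix.reindex e e (CfsgLib.Classes.hypMatrix m F))
      (Matrix.reindex e' e' (CfsgLib.Classes.minusMatrix k 0 (-α))) := by
  intro h
  have h1 := isSquare_det_of_scalCong ⟨m, by rw [Fintype.card_fin]; omega⟩ h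
  rw [Matrix.det_reindex_self, Matrix.det_reindex_self, CfsgLib.Classes.det_hypMatrix,
    CfsgLib.Classes.det_minusMatrix] at h1
  obtain ⟨r, hr⟩ := h1
  refine hα ⟨r / 2, ?_⟩
  have hsq : ((-1 : F) ^ k) * (-1) ^ k = 1 := by rw [← mul_pow, neg_one_mul, neg_neg, one_pow]
  rw [hm, pow_succ] at hr
  field_simp
  linear_combination hr - 4 * α * hsq

end CfsgLib.ReflectionsSpinor
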