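import Cfsg.Agent.Lib.ReflectionsSpinor.GraphSymp
import Cfsg.Agent.Lib.Forms.SympBridge
import Cfsg.Agent.Lib.Classes.QuadDisc

/-!
# Symmetric matrices up to congruence in characteristic two
-/

set_option autoImplicit false
set_option linter.unusedSectionVars false

open Matrix

namespace CfsgLib.ReflectionsSpinor

universe u

variable {F : Type u} [Field F] {ι : Type} [Fintype ι] [DecidableEq ι]

/-! ### Recognising projective similarity groups -/

theorem nonempty_projQuot_equiv {S : Type*} [Group S] (K : Subgroup (GL ι F)) (ψ : S →* GL ι F)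
    (hmem : ∀ s, ψ s ∈ K) (hinj : ∀ s, ψ s ∈ Cfsg.Geo.scalars ι F → s = 1)
    (hsurj : ∀ k ∈ K, ∃ s, (ψ s)⁻¹ * k ∈ Cfsg.Geo.scalars ι F) :
    Nonempty (Cfsg.projQuot K ≃* S) := by
  haveI : ((Cfsg.Geo.scalars ι F).subgroupOf K).Normal := inferInstance
  let Φ : S →* Cfsg.projQuot K := (QuotientGroup.mk' _).comp (ψ.codRestrict K hmem)
  refine ⟨(MulEquiv.ofBijective Φ ⟨(injective_iff_map_eq_one Φ).2 fun s hs => hinj s ?_, fun q => ?_⟩).symm⟩
  · exact ((QuotientGroup.eq_one_iff (N := (Cfsg.Geo.scalars ι F).subgroupOf K) _).1 hs)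
  · obtain ⟨⟨k, hk⟩, rfl⟩ := QuotientGroup.mk'_surjective _ q
    obtain ⟨s, hs⟩ := hsurj k hk
    exact ⟨s, (QuotientGroup.eq).2 hs⟩

variable [CharP F 2] [Finite F]

theorem exists_sqrt (a : F) : ∃ s : F, s * s = a := by
  obtain ⟨s, hs⟩ := FiniteField.isSquare_of_char_two (F := F) (ringChar.eq F 2) a
  exact ⟨s, hs.symm⟩

theorem sq_inj' {a b : F} (h : a * a = b * b) : a = b :=
  frobenius_inj F 2 (by simpa [frobenius_def, sq] using h)

theorem neg_eq_self_matrix {κ : Type} (A : Matrix ι κ F) : -A = A :=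
  Matrix.ext fun i j => CharTwo.neg_eq (A i j)

theorem symm_toBilin_isAlt (A : Matrix ι ι F) (hA : Aᵀ = A) (hd : ∀ i, A i i = 0) :
    (Matrix.toBilin' A).IsAlt := by
  set B := Matrix.toBilin' A with hB
  have hsymm : ∀ x y, B x y = B y x := by
    intro x y
    rw [hB, Matrix.toBilin'_apply', Matrix.toBilin'_apply', Matrix.dotProduct_mulVec, ← Matrix.mulVec_transpose,
      hA, dotProduct_comm]
  have hsingle : ∀ (i : ι) (c : F), B (Pi.single i c) (Pi.single i c) = 0 := fun i c => by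
    rw [hB, Matrix.toBilin'_apply']
    simp [hd]
  intro v
  rw [show v = ∑ i, Pi.single i (v i) from (Finset.univ_sum_single v).symm]
  induction (Finset.univ : Finset ι) using Finset.induction_on with
  | empty => simp
  | insert i s hi ih =>
    rw [Finset.sum_insert hi, map_add, map_add, LinearMap.add_apply, LinearMap.add_apply, hsingle, ih,
      hsymm (∑ j ∈ s, Pi.single j (v j)), zero_add, add_zero]
    exact CharTwo.add_self_eq_zero _

/-- The diagonal of a symmetric form in characteristic two is the square of a linear functional. -/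
theorem dot_self_eq_sq (A : Matrix ι ι F) (hA : Aᵀ = A) (a : ι → F) (ha : ∀ i, a i * a i = A i i)
    (v : ι → F) : v ⬝ᵥ A *ᵥ v = (a ⬝ᵥ v) * (a ⬝ᵥ v) := by
  have h := symm_toBilin_isAlt (A + Matrix.vecMulVec a a)
    (by rw [Matrix.transpose_add, hA, Matrix.transpose_vecMulVec])
    (fun i => by rw [Matrix.add_apply, Matrix.vecMulVec_apply, ha]; exact CharTwo.add_self_eq_zero _) v
  rw [Matrix.toBilin'_apply', Matrix.add_mulVec, Matrix.vecMulVec_mulVec, dotProduct_add, op_smul_eq_smul,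
    dotProduct_smul, smul_eq_mul, CharTwo.add_eq_zero, dotProduct_comm v a] at h
  exact h

theorem even_card_of_alt (A : Matrix ι ι F) (hA : Aᵀ = A) (hd : ∀ i, A i i = 0) (hdet : A.det ≠ 0) :
    Even (Fintype.card ι) := by
  obtain ⟨k, b, -⟩ := CfsgLib.Forms.exists_symplectic_basis (Matrix.toBilin' A)
    (LinearMap.BilinForm.nondegenerate_toBilin'_of_det_ne_zero' _ hdet) (symm_toBilin_isAlt A hA hd)
  refine ⟨k, ?_⟩
  rw [← Module.finrank_fintype_fun_eq_card (R := F), Module.finrank_eq_card_basis b, Fintype.card_sum,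
    Fintype.card_fin]

/-- A similarity in characteristic two is a scalar times an isometry. -/
theorem exists_isometry_of_mem_simA {A : Matrix ι ι F} {h : GL ι F} (hh : h ∈ simA A) :
    ∃ g : GL ι F, g⁻¹ * h ∈ Cfsg.Geo.scalars ι F ∧ (g : Matrix ι ι F)ᵀ * A * (g : Matrix ι ι F) = A := by
  obtain ⟨c, hc⟩ := hh
  obtain ⟨r, hr⟩ := exists_sqrt (c : F)
  have hr0 : r ≠ 0 := fun h0 => c.ne_zero (by rw [← hr, h0, zero_mul])
  let z : GL ι F := Units.map (Matrix.scalar ι).toMonoidHom (Units.mk0 r hr0)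
  have hzc : (z : Matrix ι ι F) = r • 1 := (Matrix.smul_one_eq_diagonal r).symm
  have hz : z ∈ Cfsg.Geo.scalars ι F := ⟨_, rfl⟩
  refine ⟨h * z⁻¹, ?_, ?_⟩
  · rw [_root_.mul_inv_rev, inv_inv, mul_assoc, inv_mul_cancel, mul_one]; exact hz
  · have hzi : ((z⁻¹ : GL ι F) : Matrix ι ι F) = r⁻¹ • 1 := by
      rw [show z⁻¹ = Units.map (Matrix.scalar ι).toMonoidHom (Units.mk0 r hr0)⁻¹ from (map_inv _ _).symm]
      exact (Matrix.smul_one_eq_diagonal _).symm
    rw [Units.val_mul, hzi, Matrix.mul_smul, Matrix.mul_one, Matrix.transpose_smul, Matrix.smul_mul,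
      Matrix.smul_mul, Matrix.mul_smul, hc, smul_smul, smul_smul, ← hr]
    rw [show r⁻¹ * r⁻¹ * (r * r) = 1 by field_simp, one_smul]

/-! ### The standard forms -/

variable {m : ℕ}

theorem J_transpose_self : (Matrix.J (Fin m) F)ᵀ = Matrix.J (Fin m) F := by
  rw [Matrix.J_transpose]; exact neg_eq_self_matrix _

theorem J_eq_hyp : Matrix.J (Fin m) F = CfsgLib.Classes.hypMatrix m F := by
  rw [Matrix.J, CfsgLib.Classes.hypMatrix, neg_eq_self_matrix]

theorem sympForm_comm (u v : Fin m ⊕ Fin m → F) : Cfsg.sympForm m F u v = Cfsg.sympForm m F v u := by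
  show u ⬝ᵥ Matrix.J (Fin m) F *ᵥ v = v ⬝ᵥ Matrix.J (Fin m) F *ᵥ u
  conv_rhs => rw [Matrix.dotProduct_mulVec, ← Matrix.mulVec_transpose, J_transpose_self, dotProduct_comm]

theorem sympForm_self (v : Fin m ⊕ Fin m → F) : Cfsg.sympForm m F v v = 0 := by
  rw [← CfsgLib.Omega.sympBilin_apply]; exact CfsgLib.Omega.sympBilin_self v

/-- The standard symmetric, non-alternating matrix in even dimension attached to a vector. -/
def evenMatrix (e₀ : Fin m ⊕ Fin m → F) : Matrix (Fin m ⊕ Fin m) (Fin m ⊕ Fin m) F :=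
  Matrix.J (Fin m) F + Matrix.vecMulVec (Matrix.J (Fin m) F *ᵥ e₀) (Matrix.J (Fin m) F *ᵥ e₀)

theorem evenMatrix_form (e₀ u v : Fin m ⊕ Fin m → F) :
    u ⬝ᵥ evenMatrix e₀ *ᵥ v =
      Cfsg.sympForm m F u v + Cfsg.sympForm m F u e₀ * Cfsg.sympForm m F v e₀ := by
  rw [evenMatrix, Matrix.add_mulVec, dotProduct_add, Matrix.vecMulVec_mulVec, op_smul_eq_smul, dotProduct_smul,
    smul_eq_mul, dotProduct_comm _ v, mul_comm]
  rfl

theorem transpose_evenMatrix (e₀ : Fin m ⊕ Fin m → F) : (evenMatrix e₀)ᵀ = evenMatrix e₀ := by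
  rw [evenMatrix, Matrix.transpose_add, J_transpose_self, Matrix.transpose_vecMulVec]

theorem det_evenMatrix_ne_zero (e₀ : Fin m ⊕ Fin m → F) : (evenMatrix e₀).det ≠ 0 := by
  intro h0
  obtain ⟨v, hv, hker⟩ := Matrix.exists_mulVec_eq_zero_iff.2 h0
  have h1 : ∀ u, Cfsg.sympForm m F u v + Cfsg.sympForm m F u e₀ * Cfsg.sympForm m F v e₀ = 0 := fun u => by
    rw [← evenMatrix_form, hker, dotProduct_zero]
  have h2 := h1 e₀
  rw [sympForm_self, zero_mul, add_zero, sympForm_comm] at h2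
  refine hv (CfsgLib.Omega.sympBilin_nondegenerate v fun u => ?_)
  rw [CfsgLib.Omega.sympBilin_apply, sympForm_comm]
  have := h1 u
  rwa [h2, mul_zero, add_zero] at this

/-- The standard symmetric matrix in odd dimension. -/
def oddStd (m : ℕ) (F : Type u) [Field F] : Matrix (Unit ⊕ (Fin m ⊕ Fin m)) (Unit ⊕ (Fin m ⊕ Fin m)) F :=
  Matrix.fromBlocks 1 0 0 (Matrix.J (Fin m) F)

theorem oddStd_form (u v : Unit ⊕ (Fin m ⊕ Fin m) → F) :
    u ⬝ᵥ oddStd m F *ᵥ v = u (.inl ()) * v (.inl ()) + Cfsg.sympForm m F (u ∘ Sum.inr) (v ∘ Sum.inr) := by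
  rw [oddStd, Matrix.fromBlocks_mulVec, Matrix.zero_mulVec, Matrix.zero_mulVec, Matrix.one_mulVec, add_zero,
    zero_add, dotProduct, Fintype.sum_sum_type]
  simp [Cfsg.sympForm, dotProduct]

/-! ### The normal form -/

section Normal

variable {n : ℕ}

local notation "M" => Matrix (Fin n) (Fin n) F

theorem oddStd_of_phi (A : GL (Fin n) F) (hA : (A : M)ᵀ = (A : M)) (a j : Fin n → F)
    (ha : ∀ i, a i * a i = (A : M) i i) (hj : (A : M) *ᵥ j = a) (hj1 : a ⬝ᵥ j = 1) :
    ∃ (k : ℕ) (E : (Fin n → F) ≃ₗ[F] (Unit ⊕ (Fin k ⊕ Fin k) → F)), n = 2 * k + 1 ∧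
      ∀ u v, (E u) ⬝ᵥ oddStd k F *ᵥ (E v) = u ⬝ᵥ (A : M) *ᵥ v := by
  let φ : (Fin n → F) →ₗ[F] F :=
    { toFun := fun v => a ⬝ᵥ v
      map_add' := fun x y => dotProduct_add _ _ _
      map_smul' := fun c x => dotProduct_smul _ _ _ }
  have hφ : ∀ v, φ v = a ⬝ᵥ v := fun _ => rfl
  let B : LinearMap.BilinForm F (Fin n → F) := Matrix.toBilin' (A : M)
  have hBsymm : ∀ x y, B x y = B y x := fun x y => by
    rw [show B x y = _ from Matrix.toBilin'_apply' _ _ _, show B y x = _ from Matrix.toBilin'_apply' _ _ _,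
      Matrix.dotProduct_mulVec, ← Matrix.mulVec_transpose, hA, dotProduct_comm]
  have hBj : ∀ x, B x j = φ x := fun x => by
    rw [show B x j = _ from Matrix.toBilin'_apply' _ _ _, hj, hφ, dotProduct_comm]
  have hBnd : B.Nondegenerate := LinearMap.BilinForm.nondegenerate_toBilin'_of_det_ne_zero' _
    ((Matrix.isUnit_iff_isUnit_det _).1 A.isUnit).ne_zero
  have hphij : φ j = 1 := hj1
  let π : (Fin n → F) ≃ₗ[F] F × LinearMap.ker φ :=
    { toFun := fun v => (φ v, ⟨v + φ v • j, by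
        rw [LinearMap.mem_ker, map_add, map_smul, hphij, smul_eq_mul, mul_one, CharTwo.add_self_eq_zero]⟩)
      map_add' := fun x y => Prod.ext (map_add φ x y) (Subtype.ext (by
        show x + y + φ (x + y) • j = x + φ x • j + (y + φ y • j)
        rw [map_add]; module))
      map_smul' := fun c x => Prod.ext (map_smul φ c x) (Subtype.ext (by
        show c • x + φ (c • x) • j = c • (x + φ x • j)
        rw [map_smul, smul_eq_mul]; module))
      invFun := fun p => (p.2 : Fin n → F) + p.1 • j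
      left_inv := fun v => by
        show v + φ v • j + φ v • j = v
        rw [add_assoc, ← add_smul, CharTwo.add_self_eq_zero, zero_smul, add_zero]
      right_inv := fun p => by
        have h2 : φ ((p.2 : Fin n → F) + p.1 • j) = p.1 := by
          rw [map_add, map_smul, hphij, LinearMap.mem_ker.1 p.2.2, zero_add, smul_eq_mul, mul_one]
        refine Prod.ext h2 (Subtype.ext ?_)
        show (p.2 : Fin n → F) + p.1 • j + φ ((p.2 : Fin n → F) + p.1 • j) • j = p.2
        rw [h2, add_assoc, ← add_smul, CharTwo.add_self_eq_zero, zero_smul, add_zero] }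
  let BW : LinearMap.BilinForm F (LinearMap.ker φ) := B.compl₁₂ (Submodule.subtype _) (Submodule.subtype _)
  have hsq : ∀ v, B v v = φ v * φ v := fun v => by
    rw [show B v v = _ from Matrix.toBilin'_apply' _ _ _, hφ]; exact dot_self_eq_sq _ hA a ha v
  have hsplit : ∀ u v, B u v = φ u * φ v + BW (π u).2 (π v).2 := fun u v => by
    show B u v = φ u * φ v + B (u + φ u • j) (v + φ v • j)
    simp only [map_add, map_smul, LinearMap.add_apply, LinearMap.smul_apply, smul_eq_mul, hBj, hsq j, hphij,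
      hBsymm j v]
    linear_combination -(2 : F)⁻¹ * 0 - (CharTwo.two_eq_zero (R := F)) * (φ u * φ v + φ u * φ v)
  have hW : BW.IsAlt := fun w => by
    show B w w = 0
    rw [hsq, LinearMap.mem_ker.1 w.2, mul_zero]
  have hWnd : BW.Nondegenerate := by
    refine ⟨fun w hw => ?_, fun w hw => ?_⟩ <;>
      refine Subtype.ext (hBnd.1 _ fun x => ?_)
    · have hw0 : φ (w : Fin n → F) = 0 := LinearMap.mem_ker.1 w.2
      have h := hsplit (w : Fin n → F) x
      rw [hw0, zero_mul, zero_add] at h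
      rw [h, show (π (w : Fin n → F)).2 = w from Subtype.ext (by
        show (w : Fin n → F) + φ w • j = w
        rw [hw0, zero_smul, add_zero])]
      exact hw _
    · have hw0 : φ (w : Fin n → F) = 0 := LinearMap.mem_ker.1 w.2
      have h := hsplit x (w : Fin n → F)
      rw [hw0, mul_zero, zero_add] at h
      rw [hBsymm, h, show (π (w : Fin n → F)).2 = w from Subtype.ext (by
        show (w : Fin n → F) + φ w • j = w
        rw [hw0, zero_smul, add_zero])]
      exact hw _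
  obtain ⟨k, b, -⟩ := CfsgLib.Forms.exists_symplectic_basis BW hWnd hW
  have hdW : Module.finrank F (LinearMap.ker φ) = k + k := by
    rw [Module.finrank_eq_card_basis b, Fintype.card_sum, Fintype.card_fin]
  obtain ⟨e, he⟩ := CfsgLib.Forms.alt_isometric BW hWnd hW (CfsgLib.Omega.sympBilin k F)
    (CfsgLib.Forms.sympBilin_nondeg k F) (CfsgLib.Forms.sympBilin_isAlt k F)
    (by rw [hdW, Module.finrank_fintype_fun_eq_card, Fintype.card_sum, Fintype.card_fin])
  refine ⟨k, π.trans (((LinearEquiv.funUnique Unit F F).symm.prodCongr e).trans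
    (LinearEquiv.sumArrowLequivProdArrow Unit (Fin k ⊕ Fin k) F F).symm), ?_, fun u v => ?_⟩
  · have h := π.finrank_eq
    rw [Module.finrank_fin_fun, Module.finrank_prod, Module.finrank_self, hdW] at h
    omega
  · rw [oddStd_form, ← CfsgLib.Omega.sympBilin_apply]
    show φ u * φ v + CfsgLib.Omega.sympBilin k F (e (π u).2) (e (π v).2) = _
    rw [he, ← hsplit]
    exact Matrix.toBilin'_apply' _ _ _

/-- In even dimension a symmetric non-alternating matrix is congruent to `evenMatrix e₀`. -/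
theorem scalCong_even (hm : n = 2 * m) (e : Fin m ⊕ Fin m ≃ Fin n) (i₀ : Fin m) (A : GL (Fin n) F)
    (hA : (A : M)ᵀ = (A : M)) (hd : ∃ i, (A : M) i i ≠ 0) :
    ScalCong (A : M) (Matrix.reindex e e (evenMatrix (Pi.single (.inl i₀) (1 : F)))) := by
  choose a ha using fun i => exists_sqrt ((A : M) i i)
  let j : Fin n → F := ((A⁻¹ : GL (Fin n) F) : M) *ᵥ a
  have hj : (A : M) *ᵥ j = a := by rw [Matrix.mulVec_mulVec, Units.mul_inv, Matrix.one_mulVec]
  have hjj : a ⬝ᵥ j = (a ⬝ᵥ j) * (a ⬝ᵥ j) := by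
    rw [← dot_self_eq_sq _ hA a ha j, hj, dotProduct_comm]
  have hj0 : a ⬝ᵥ j = 0 := by
    by_contra hne
    have hj1 : a ⬝ᵥ j = 1 := mul_right_cancel₀ hne (by rw [one_mul]; exact hjj.symm)
    obtain ⟨k, -, hk, -⟩ := oddStd_of_phi A hA a j ha hj hj1
    omega
  let A' : M := (A : M) + Matrix.vecMulVec a a
  have hA' : A'ᵀ = A' := by rw [Matrix.transpose_add, hA, Matrix.transpose_vecMulVec]
  have hd' : ∀ i, A' i i = 0 := fun i => by
    show ((A : M) + Matrix.vecMulVec a a) i i = 0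
    rw [Matrix.add_apply, Matrix.vecMulVec_apply, ha]; exact CharTwo.add_self_eq_zero _
  have hdet : A'.det ≠ 0 := by
    intro h0
    obtain ⟨v, hv, hker⟩ := Matrix.exists_mulVec_eq_zero_iff.2 h0
    rw [Matrix.add_mulVec, Matrix.vecMulVec_mulVec, op_smul_eq_smul] at hker
    have h1 := congrArg (((A⁻¹ : GL (Fin n) F) : M) *ᵥ ·) hker
    simp only [Matrix.mulVec_add, Matrix.mulVec_smul, Matrix.mulVec_mulVec, Units.inv_mul, Matrix.one_mulVec,
      Matrix.mulVec_zero] at h1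
    have h2 := congrArg (a ⬝ᵥ ·) h1
    simp only [dotProduct_add, dotProduct_smul, dotProduct_zero] at h2
    rw [show a ⬝ᵥ ((A⁻¹ : GL (Fin n) F) : M) *ᵥ a = 0 from hj0, smul_zero, add_zero] at h2
    rw [h2, zero_smul, add_zero] at h1
    exact hv h1
  let B' : LinearMap.BilinForm F (Fin n → F) := Matrix.toBilin' A'
  obtain ⟨E, hE⟩ := CfsgLib.Forms.alt_isometric B'
    (LinearMap.BilinForm.nondegenerate_toBilin'_of_det_ne_zero' _ hdet) (symm_toBilin_isAlt A' hA' hd')
    (CfsgLib.Omega.sympBilin m F) (CfsgLib.Forms.sympBilin_nondeg m F) (CfsgLib.Forms.sympBilin_isAlt m F)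
    (by rw [Module.finrank_fin_fun, Module.finrank_fintype_fun_eq_card, Fintype.card_sum, Fintype.card_fin]; omega)
  have hB'j : ∀ v, B' v j = a ⬝ᵥ v := fun v => by
    rw [show B' v j = _ from Matrix.toBilin'_apply' _ _ _, Matrix.add_mulVec, Matrix.vecMulVec_mulVec,
      op_smul_eq_smul, hj0, zero_smul, add_zero, hj, dotProduct_comm]
  set x := E j with hx
  have hxne : x ≠ 0 := by
    intro h0
    have hj00 : j = 0 := E.injective (by rw [← hx, h0, map_zero])
    obtain ⟨i, hi⟩ := hd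
    rw [hj00, Matrix.mulVec_zero] at hj
    rw [← ha, ← hj, Pi.zero_apply, mul_zero] at hi
    exact hi rfl
  obtain ⟨y, hy⟩ : ∃ y, Cfsg.sympForm m F x y = 1 := by
    obtain ⟨y₀, hy₀⟩ : ∃ y, CfsgLib.Omega.sympBilin m F x y ≠ 0 := by
      by_contra hno
      push_neg at hno
      exact hxne (CfsgLib.Omega.sympBilin_nondegenerate x hno)
    refine ⟨(CfsgLib.Omega.sympBilin m F x y₀)⁻¹ • y₀, ?_⟩
    rw [← CfsgLib.Omega.sympBilin_apply, map_smul, smul_eq_mul, inv_mul_cancel₀ hy₀]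
  set e₀ : Fin m ⊕ Fin m → F := Pi.single (.inl i₀) 1
  obtain ⟨g, hg, -⟩ := CfsgLib.Forms.exists_sp_map_pair x y e₀ (Pi.single (.inr i₀) 1) hy (by
    rw [sympForm_comm]
    simp [e₀, CfsgLib.Omega.sympForm_eq_sum, Pi.single_apply])
  let L : (Fin n → F) ≃ₗ[F] (Fin m ⊕ Fin m → F) := E.trans
    { toFun := fun v => (g : Matrix _ _ F) *ᵥ v
      map_add' := fun u v => Matrix.mulVec_add _ _ _
      map_smul' := fun c v => Matrix.mulVec_smul _ _ _
      invFun := fun v => ((g⁻¹ : Matrix.symplecticGroup (Fin m) F) : Matrix _ _ F) *ᵥ v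
      left_inv := fun v => by
        show _ *ᵥ (_ *ᵥ v) = v
        rw [Matrix.mulVec_mulVec, ← Submonoid.coe_mul, inv_mul_cancel, OneMemClass.coe_one, Matrix.one_mulVec]
      right_inv := fun v => by
        show _ *ᵥ (_ *ᵥ v) = v
        rw [Matrix.mulVec_mulVec, ← Submonoid.coe_mul, mul_inv_cancel, OneMemClass.coe_one, Matrix.one_mulVec] }
  refine scalCong_of_linearEquiv _ _ e L 1 fun u v => ?_
  have hL : ∀ u v, Cfsg.sympForm m F (L u) (L v) = B' u v := fun u v => by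
    show Cfsg.sympForm m F ((g : Matrix _ _ F) *ᵥ E u) ((g : Matrix _ _ F) *ᵥ E v) = _
    rw [CfsgLib.Omega.sympForm_mulVec_of_mem g.2, ← CfsgLib.Omega.sympBilin_apply]
    exact hE u v
  have hLj : L j = e₀ := hg
  rw [evenMatrix_form, hL, ← hLj, hL, hL, hB'j, hB'j, show B' u v = _ from Matrix.toBilin'_apply' _ _ _,
    Matrix.add_mulVec, dotProduct_add, Matrix.vecMulVec_mulVec, op_smul_eq_smul, dotProduct_smul, smul_eq_mul,
    Units.val_one, one_mul, dotProduct_comm u a]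
  linear_combination (CharTwo.two_eq_zero (R := F)) * ((a ⬝ᵥ u) * (a ⬝ᵥ v))

/-- In odd dimension every symmetric matrix is congruent to `oddStd`. -/
theorem scalCong_odd (hm : n = 2 * m + 1) (e : Unit ⊕ (Fin m ⊕ Fin m) ≃ Fin n) (A : GL (Fin n) F)
    (hA : (A : M)ᵀ = (A : M)) : ScalCong (A : M) (Matrix.reindex e e (oddStd m F)) := by
  choose a ha using fun i => exists_sqrt ((A : M) i i)
  let j : Fin n → F := ((A⁻¹ : GL (Fin n) F) : M) *ᵥ a
  have hj : (A : M) *ᵥ j = a := by rw [Matrix.mulVec_mulVec, Units.mul_inv, Matrix.one_mulVec]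
  have hjj : a ⬝ᵥ j = (a ⬝ᵥ j) * (a ⬝ᵥ j) := by
    rw [← dot_self_eq_sq _ hA a ha j, hj, dotProduct_comm]
  have hj1 : a ⬝ᵥ j = 1 := by
    by_contra hne
    have hj0 : a ⬝ᵥ j = 0 := by
      by_contra h
      exact hne (mul_right_cancel₀ h (by rw [one_mul]; exact hjj.symm))
    have hdet : ((A : M) + Matrix.vecMulVec a a).det ≠ 0 := by
      intro h0
      obtain ⟨v, hv, hker⟩ := Matrix.exists_mulVec_eq_zero_iff.2 h0
      rw [Matrix.add_mulVec, Matrix.vecMulVec_mulVec, op_smul_eq_smul] at hker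
      have h1 := congrArg (((A⁻¹ : GL (Fin n) F) : M) *ᵥ ·) hker
      simp only [Matrix.mulVec_add, Matrix.mulVec_smul, Matrix.mulVec_mulVec, Units.inv_mul, Matrix.one_mulVec,
        Matrix.mulVec_zero] at h1
      have h2 := congrArg (a ⬝ᵥ ·) h1
      simp only [dotProduct_add, dotProduct_smul, dotProduct_zero] at h2
      rw [show a ⬝ᵥ ((A⁻¹ : GL (Fin n) F) : M) *ᵥ a = 0 from hj0, smul_zero, add_zero] at h2
      rw [h2, zero_smul, add_zero] at h1
      exact hv h1
    have h := even_card_of_alt _ (by rw [Matrix.transpose_add, hA, Matrix.transpose_vecMulVec])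
      (fun i => by rw [Matrix.add_apply, Matrix.vecMulVec_apply, ha]; exact CharTwo.add_self_eq_zero _) hdet
    obtain ⟨r, hr⟩ := h
    rw [Fintype.card_fin] at hr
    omega
  obtain ⟨k, E, hk, hE⟩ := oddStd_of_phi A hA a j ha hj hj1
  obtain rfl : k = m := by omega
  exact scalCong_of_linearEquiv _ _ e E 1 fun u v => by rw [Units.val_one, one_mul]; exact hE u v

end Normal

/-! ### The centralisers -/

theorem nonempty_projQuot_J_equiv :
    Nonempty (Cfsg.projQuot (simA (Matrix.J (Fin m) F)) ≃* Matrix.symplecticGroup (Fin m) F) := by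
  refine nonempty_projQuot_equiv _ (CfsgLib.Forms.spToGL m F)
    (fun s => ⟨1, by rw [Units.val_one, one_smul]; exact SymplecticGroup.mem_iff'.1 s.2⟩) (fun s hs => ?_)
    (fun k hk => ?_)
  · obtain ⟨c, hc⟩ := (Cfsg.Geo.mem_scalars_iff _).1 hs
    refine Subtype.ext ?_
    have hc' : (s : Matrix (Fin m ⊕ Fin m) (Fin m ⊕ Fin m) F) = (c : F) • 1 := hc
    have hJ := SymplecticGroup.mem_iff'.1 s.2
    rw [hc', Matrix.transpose_smul, Matrix.transpose_one, Matrix.smul_mul, Matrix.one_mul, Matrix.mul_smul,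
      Matrix.mul_one, smul_smul] at hJ
    rcases isEmpty_or_nonempty (Fin m) with hm | ⟨⟨i⟩⟩
    · exact Subsingleton.elim _ _
    · have h1 := congrFun (congrFun hJ (.inr i)) (.inl i)
      simp [Matrix.J] at h1
      rw [hc', show (c : F) = 1 from sq_inj' (by rw [one_mul]; exact h1), one_smul]
      rfl
  · obtain ⟨g, hg, hgJ⟩ := exists_isometry_of_mem_simA hk
    refine ⟨⟨g, SymplecticGroup.mem_iff'.2 hgJ⟩, ?_⟩
    rw [show CfsgLib.Forms.spToGL m F ⟨g, _⟩ = g from Units.ext rfl]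
    exact hg

/-- The transvection at `e₀`. -/
noncomputable def stdTransvection (e₀ : Fin m ⊕ Fin m → F) : Matrix.symplecticGroup (Fin m) F :=
  ⟨Cfsg.sympTransvection m e₀ 1, CfsgLib.Forms.sympTransvection_mem e₀ 1⟩

theorem mem_centralizer_stdTransvection {e₀ : Fin m ⊕ Fin m → F} (he : e₀ ≠ 0)
    (s : Matrix.symplecticGroup (Fin m) F) :
    s ∈ Subgroup.centralizer {stdTransvection e₀} ↔
      (s : Matrix (Fin m ⊕ Fin m) (Fin m ⊕ Fin m) F) *ᵥ e₀ = e₀ := by
  set S := (s : Matrix (Fin m ⊕ Fin m) (Fin m ⊕ Fin m) F) with hS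
  have key : ∀ x, S *ᵥ (Cfsg.sympTransvection m e₀ 1 *ᵥ x) =
      S *ᵥ x + Cfsg.sympForm m F x e₀ • (S *ᵥ e₀) := fun x => by
    rw [CfsgLib.Forms.sympTransvection_mulVec, Matrix.mulVec_add, Matrix.mulVec_smul, one_mul]
  have key' : ∀ x, Cfsg.sympTransvection m e₀ 1 *ᵥ (S *ᵥ x) =
      S *ᵥ x + Cfsg.sympForm m F (S *ᵥ x) e₀ • e₀ := fun x => by
    rw [CfsgLib.Forms.sympTransvection_mulVec, one_mul]
  rw [Subgroup.mem_centralizer_singleton_iff]
  constructor
  · intro h
    have hM : S * Cfsg.sympTransvection m e₀ 1 = Cfsg.sympTransvection m e₀ 1 * S := congrArg Subtype.val h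
    obtain ⟨y, hy⟩ : ∃ y, Cfsg.sympForm m F y e₀ ≠ 0 := by
      by_contra hno
      push_neg at hno
      exact he (CfsgLib.Omega.sympBilin_nondegenerate e₀ fun w => by
        rw [CfsgLib.Omega.sympBilin_apply, sympForm_comm]; exact hno w)
    have h1 : ∀ x, Cfsg.sympForm m F x e₀ • (S *ᵥ e₀) = Cfsg.sympForm m F (S *ᵥ x) e₀ • e₀ := fun x => by
      have := congrArg (· *ᵥ x) hM
      simp only [← Matrix.mulVec_mulVec] at this
      rw [key, key'] at this
      exact add_left_cancel this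
    set c := Cfsg.sympForm m F (S *ᵥ y) e₀ / Cfsg.sympForm m F y e₀ with hc
    have h2 : S *ᵥ e₀ = c • e₀ := by
      rw [hc, div_eq_inv_mul, mul_smul, ← h1, inv_smul_smul₀ hy]
    have h3 := CfsgLib.Omega.sympForm_mulVec_of_mem s.2 y e₀
    rw [h2, show Cfsg.sympForm m F (S *ᵥ y) (c • e₀) = c * Cfsg.sympForm m F (S *ᵥ y) e₀ by
      rw [← CfsgLib.Omega.sympBilin_apply, map_smul, smul_eq_mul, CfsgLib.Omega.sympBilin_apply]] at h3
    have h4 : c * c = 1 * 1 := by
      rw [one_mul]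
      nth_rw 2 [hc]
      rw [← mul_div_assoc, h3, div_self hy]
    rw [h2, sq_inj' h4, one_smul]
  · intro h
    refine Subtype.ext (Matrix.ext_of_mulVec_single fun i => ?_)
    show (S * Cfsg.sympTransvection m e₀ 1) *ᵥ _ = (Cfsg.sympTransvection m e₀ 1 * S) *ᵥ _
    rw [← Matrix.mulVec_mulVec, ← Matrix.mulVec_mulVec, key, key', h]
    conv_rhs => rw [show Cfsg.sympForm m F (S *ᵥ Pi.single i 1) e₀ =
      Cfsg.sympForm m F (S *ᵥ Pi.single i 1) (S *ᵥ e₀) by rw [h], CfsgLib.Omega.sympForm_mulVec_of_mem s.2]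

theorem nonempty_projQuot_even_equiv {e₀ : Fin m ⊕ Fin m → F} (he : e₀ ≠ 0) :
    Nonempty (Cfsg.projQuot (simA (evenMatrix e₀)) ≃*
      ↥(Subgroup.centralizer {stdTransvection e₀})) := by
  refine nonempty_projQuot_equiv _ ((CfsgLib.Forms.spToGL m F).comp (Subgroup.centralizer {stdTransvection e₀}).subtype)
    (fun s => ⟨1, matrix_ext_bilin fun u v => ?_⟩) (fun s hs => ?_) (fun k hk => ?_)
  · have hfix := (mem_centralizer_stdTransvection he s.1).1 s.2
    rw [Units.val_one, one_smul, ← dot_congr_mulVec]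
    show ((s.1 : Matrix _ _ F) *ᵥ u) ⬝ᵥ evenMatrix e₀ *ᵥ ((s.1 : Matrix _ _ F) *ᵥ v) = _
    rw [evenMatrix_form, evenMatrix_form]
    have hF := CfsgLib.Omega.sympForm_mulVec_of_mem s.1.2
    rw [show Cfsg.sympForm m F ((s.1 : Matrix _ _ F) *ᵥ u) e₀ = Cfsg.sympForm m F u e₀ by
        have h := hF u e₀
        rwa [hfix] at h,
      show Cfsg.sympForm m F ((s.1 : Matrix _ _ F) *ᵥ v) e₀ = Cfsg.sympForm m F v e₀ by
        have h := hF v e₀
        rwa [hfix] at h, hF]
  · obtain ⟨c, hc⟩ := (Cfsg.Geo.mem_scalars_iff _).1 hs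
    have hc' : (s.1 : Matrix (Fin m ⊕ Fin m) (Fin m ⊕ Fin m) F) = (c : F) • 1 := hc
    have hfix := (mem_centralizer_stdTransvection he s.1).1 s.2
    rw [hc', Matrix.smul_mulVec, Matrix.one_mulVec] at hfix
    obtain ⟨i, hi⟩ := Function.ne_iff.1 he
    have h1 := congrFun hfix i
    rw [Pi.smul_apply, smul_eq_mul] at h1
    have hc1 : (c : F) = 1 := mul_right_cancel₀ hi (by rw [one_mul]; exact h1)
    exact Subtype.ext (Subtype.ext (by rw [hc', hc1, one_smul]; rfl))
  · obtain ⟨g, hg, hgA⟩ := exists_isometry_of_mem_simA hk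
    set G := (g : Matrix (Fin m ⊕ Fin m) (Fin m ⊕ Fin m) F) with hG
    have hB : ∀ u v, (G *ᵥ u) ⬝ᵥ evenMatrix e₀ *ᵥ (G *ᵥ v) = u ⬝ᵥ evenMatrix e₀ *ᵥ v := fun u v => by
      rw [dot_congr_mulVec, hgA]
    have hphi : ∀ v, Cfsg.sympForm m F (G *ᵥ v) e₀ = Cfsg.sympForm m F v e₀ := fun v => sq_inj' (by
      have := hB v v
      rw [evenMatrix_form, evenMatrix_form, sympForm_self, sympForm_self, zero_add, zero_add] at this
      exact this)
    have hJ : ∀ u v, Cfsg.sympForm m F (G *ᵥ u) (G *ᵥ v) = Cfsg.sympForm m F u v := fun u v => by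
      have := hB u v
      rw [evenMatrix_form, evenMatrix_form, hphi, hphi] at this
      exact add_right_cancel this
    have hfix : G *ᵥ e₀ = e₀ := by
      refine sub_eq_zero.1 (CfsgLib.Omega.sympBilin_nondegenerate _ fun w => ?_)
      have hGw : w = G *ᵥ (((g⁻¹ : GL (Fin m ⊕ Fin m) F) : Matrix _ _ F) *ᵥ w) := by
        rw [Matrix.mulVec_mulVec, hG, Units.mul_inv, Matrix.one_mulVec]
      rw [map_sub, LinearMap.sub_apply, CfsgLib.Omega.sympBilin_apply, CfsgLib.Omega.sympBilin_apply, hGw, hJ,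
        sympForm_comm e₀ (G *ᵥ _), hphi, sympForm_comm, sub_self]
    let s : Matrix.symplecticGroup (Fin m) F := ⟨G, CfsgLib.Forms.mem_symplecticGroup_iff_form.2 hJ⟩
    refine ⟨⟨s, (mem_centralizer_stdTransvection he s).2 hfix⟩, ?_⟩
    rw [show ((CfsgLib.Forms.spToGL m F).comp (Subgroup.centralizer {stdTransvection e₀}).subtype)
      ⟨s, _⟩ = g from Units.ext rfl]
    exact hg

theorem nonempty_projQuot_oddStd_equiv :
    Nonempty (Cfsg.projQuot (simA (oddStd m F)) ≃* Matrix.symplecticGroup (Fin m) F) := by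
  let ψ : Matrix.symplecticGroup (Fin m) F →* GL (Unit ⊕ (Fin m ⊕ Fin m)) F :=
    MonoidHom.toHomUnits
      { toFun := fun D => Matrix.fromBlocks 1 0 0 (D : Matrix (Fin m ⊕ Fin m) (Fin m ⊕ Fin m) F)
        map_one' := by simp
        map_mul' := fun D D' => by simp [Matrix.fromBlocks_multiply] }
  have hψ : ∀ D : Matrix.symplecticGroup (Fin m) F,
      ((ψ D : GL (Unit ⊕ (Fin m ⊕ Fin m)) F) : Matrix (Unit ⊕ (Fin m ⊕ Fin m)) (Unit ⊕ (Fin m ⊕ Fin m)) F) =
      Matrix.fromBlocks 1 0 0 (D : Matrix (Fin m ⊕ Fin m) (Fin m ⊕ Fin m) F) := fun D =>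
    MonoidHom.coe_toHomUnits _ D
  refine nonempty_projQuot_equiv _ ψ (fun D => ⟨1, ?_⟩) (fun D hD => ?_) (fun k hk => ?_)
  · rw [Units.val_one, one_smul, hψ, oddStd, Matrix.fromBlocks_transpose, Matrix.fromBlocks_multiply,
      Matrix.fromBlocks_multiply]
    simp [SymplecticGroup.mem_iff'.1 D.2]
  · obtain ⟨c, hc⟩ := (Cfsg.Geo.mem_scalars_iff _).1 hD
    rw [hψ, ← Matrix.fromBlocks_one, Matrix.fromBlocks_smul] at hc
    obtain ⟨h11, -, -, h22⟩ := Matrix.fromBlocks_inj.1 hc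
    have hc1 : (c : F) = 1 := by
      have := congrFun (congrFun h11 ()) ()
      simpa using this.symm
    exact Subtype.ext (by rw [h22, hc1, one_smul]; rfl)
  · obtain ⟨g, hg, hgA⟩ := exists_isometry_of_mem_simA hk
    set G := (g : Matrix (Unit ⊕ (Fin m ⊕ Fin m)) (Unit ⊕ (Fin m ⊕ Fin m)) F) with hG
    have hB : ∀ u v, (G *ᵥ u) ⬝ᵥ oddStd m F *ᵥ (G *ᵥ v) = u ⬝ᵥ oddStd m F *ᵥ v := fun u v => by
      rw [dot_congr_mulVec, hgA]
    have hphi : ∀ v, (G *ᵥ v) (.inl ()) = v (.inl ()) := fun v => sq_inj' (by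
      have := hB v v
      rw [oddStd_form, oddStd_form, sympForm_self, sympForm_self, add_zero, add_zero] at this
      exact this)
    set j : Unit ⊕ (Fin m ⊕ Fin m) → F := Pi.single (.inl ()) 1 with hj
    have hjr : j ∘ Sum.inr = (0 : Fin m ⊕ Fin m → F) := funext fun i => by simp [hj]
    have hfix : G *ᵥ j = j := by
      have hz : (G *ᵥ j) ∘ Sum.inr = 0 := by
        refine CfsgLib.Omega.sympBilin_nondegenerate _ fun w => ?_
        let x : Unit ⊕ (Fin m ⊕ Fin m) → F := ((g⁻¹ : GL (Unit ⊕ (Fin m ⊕ Fin m)) F) : Matrix (Unit ⊕ (Fin m ⊕ Fin m)) (Unit ⊕ (Fin m ⊕ Fin m)) F) *ᵥ Sum.elim (fun _ => 0) w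
        have hx : G *ᵥ x = Sum.elim (fun _ => 0) w := by
          rw [Matrix.mulVec_mulVec, hG, Units.mul_inv, Matrix.one_mulVec]
        have hx0 : x (.inl ()) = 0 := by rw [← hphi x, hx]; rfl
        have := hB j x
        rw [oddStd_form, oddStd_form, hjr, hx, hphi, hx0, Sum.elim_inl, mul_zero, zero_add,
          Sum.elim_comp_inr, zero_add] at this
        rw [CfsgLib.Omega.sympBilin_apply, this, ← CfsgLib.Omega.sympBilin_apply]
        simp
      funext i
      rcases i with i | i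
      · exact hphi j
      · rw [show (G *ᵥ j) (.inr i) = ((G *ᵥ j) ∘ Sum.inr) i from rfl, hz]; simp [hj]
    have h11 : G.toBlocks₁₁ = 1 := by
      ext a b
      have := congrFun hfix (.inl a)
      rw [hj, Matrix.mulVec_single_one] at this
      simpa [Matrix.toBlocks₁₁] using this
    have h21 : G.toBlocks₂₁ = 0 := by
      ext a b
      have := congrFun hfix (.inr a)
      rw [hj, Matrix.mulVec_single_one] at this
      simpa [Matrix.toBlocks₂₁] using this
    have h12 : G.toBlocks₁₂ = 0 := by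
      ext a b
      have := hphi (Pi.single (.inr b) 1)
      rw [Matrix.mulVec_single_one] at this
      simpa [Matrix.toBlocks₁₂] using this
    have hform : G = Matrix.fromBlocks 1 0 0 G.toBlocks₂₂ := by
      conv_lhs => rw [← Matrix.fromBlocks_toBlocks G, h11, h21, h12]
    have hD : G.toBlocks₂₂ ∈ Matrix.symplecticGroup (Fin m) F := by
      refine SymplecticGroup.mem_iff'.2 ?_
      rw [hform, oddStd, Matrix.fromBlocks_transpose, Matrix.fromBlocks_multiply,
        Matrix.fromBlocks_multiply] at hgA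
      have := (Matrix.fromBlocks_inj.1 hgA).2.2.2
      simpa using this
    refine ⟨⟨_, hD⟩, ?_⟩
    rw [show ψ ⟨_, hD⟩ = g from Units.ext ((hψ _).trans hform.symm)]
    exact hg

/-- In characteristic two the projective conformal group of the odd-dimensional form is symplectic. -/
theorem nonempty_PGO_odd_equiv :
    Nonempty (Cfsg.PGO F (Cfsg.quadFormOdd m F) ≃* Matrix.symplecticGroup (Fin m) F) := by
  set q := Cfsg.quadFormPlus m F with hq
  have hqpolar : ∀ x y, q (x + y) = q x + q y + Cfsg.sympForm m F x y := fun x y => by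
    have := CfsgLib.Classes.polar_quadFormPlus (F := F) m x y
    rw [← J_eq_hyp] at this
    rw [show Cfsg.sympForm m F x y = QuadraticMap.polar q x y from this.symm, QuadraticMap.polar]
    ring
  have hqsmul : ∀ (c : F) x, q (c • x) = c * c * q x := fun c x => by
    simp only [q, Cfsg.quadFormPlus, Pi.smul_apply, smul_eq_mul, Finset.mul_sum]
    exact Finset.sum_congr rfl fun i _ => by ring
  -- the lifted row of a symplectic matrix
  have hrow : ∀ D : Matrix.symplecticGroup (Fin m) F, ∃ r : Fin m ⊕ Fin m → F, ∀ x,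
      (r ⬝ᵥ x) * (r ⬝ᵥ x) = q x + q ((D : Matrix _ _ F) *ᵥ x) := by
    intro D
    set f : (Fin m ⊕ Fin m → F) → F := fun x => q x + q ((D : Matrix _ _ F) *ᵥ x) with hf
    have hadd : ∀ x y, f (x + y) = f x + f y := fun x y => by
      simp only [hf, Matrix.mulVec_add, hqpolar, CfsgLib.Omega.sympForm_mulVec_of_mem D.2]
      linear_combination (CharTwo.two_eq_zero (R := F)) * Cfsg.sympForm m F x y
    choose r hr using fun i => exists_sqrt (f (Pi.single i 1))
    refine ⟨r, fun x => ?_⟩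
    show _ = f x
    have h0 : f 0 = 0 := by simpa using hadd 0 0
    have hsum : ∀ s : Finset (Fin m ⊕ Fin m),
        f (∑ i ∈ s, Pi.single i (x i)) = ∑ i ∈ s, f (Pi.single i (x i)) := by
      intro s
      induction s using Finset.induction_on with
      | empty => simpa using h0
      | insert i s hi ih => rw [Finset.sum_insert hi, hadd, ih, Finset.sum_insert hi]
    rw [← Finset.univ_sum_single x, hsum, Finset.univ_sum_single, dotProduct, CharTwo.sum_mul_self]
    refine Finset.sum_congr rfl fun i _ => ?_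
    rw [show Pi.single i (x i) = x i • (Pi.single i 1 : Fin m ⊕ Fin m → F) by simp [← Pi.single_smul]]
    show _ = q (x i • _) + q (_ *ᵥ (x i • _))
    rw [Matrix.mulVec_smul, hqsmul, hqsmul, ← mul_add, mul_mul_mul_comm, hr, mul_comm]
  choose r hr using hrow
  have hrmul : ∀ D D' : Matrix.symplecticGroup (Fin m) F, ∀ x,
      r (D * D') ⬝ᵥ x = r D' ⬝ᵥ x + r D ⬝ᵥ ((D' : Matrix _ _ F) *ᵥ x) := fun D D' x => sq_inj' (by
    rw [hr, CharTwo.add_mul_self, hr, hr, Submonoid.coe_mul, ← Matrix.mulVec_mulVec]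
    linear_combination -(CharTwo.two_eq_zero (R := F)) * q ((D' : Matrix _ _ F) *ᵥ x))
  let ψ : Matrix.symplecticGroup (Fin m) F →* GL (Unit ⊕ (Fin m ⊕ Fin m)) F :=
    MonoidHom.toHomUnits
      { toFun := fun D => Matrix.fromBlocks 1 (Matrix.of fun _ => r D) 0
          (D : Matrix (Fin m ⊕ Fin m) (Fin m ⊕ Fin m) F)
        map_one' := by
          have h1 : r 1 = 0 := funext fun i => sq_inj' (by
            have := hr 1 (Pi.single i 1)
            rw [dotProduct_single, mul_one, OneMemClass.coe_one, Matrix.one_mulVec,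
              CharTwo.add_self_eq_zero] at this
            rw [this, Pi.zero_apply, mul_zero])
          rw [h1, OneMemClass.coe_one, show (Matrix.of fun _ => (0 : Fin m ⊕ Fin m → F)) = (0 : Matrix Unit _ F)
            from Matrix.ext fun _ _ => rfl, Matrix.fromBlocks_one]
        map_mul' := fun D D' => by
          rw [Matrix.fromBlocks_multiply]
          simp only [Matrix.one_mul, Matrix.zero_mul, Matrix.mul_zero, add_zero, zero_add, Submonoid.coe_mul]
          congr 1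
          ext a b
          have := hrmul D D' (Pi.single b 1)
          rw [dotProduct_single, mul_one, dotProduct_single, mul_one, Matrix.mulVec_single_one] at this
          rw [Matrix.of_apply, this]
          rfl }
  have hψ : ∀ D : Matrix.symplecticGroup (Fin m) F,
      ((ψ D : GL (Unit ⊕ (Fin m ⊕ Fin m)) F) : Matrix (Unit ⊕ (Fin m ⊕ Fin m)) (Unit ⊕ (Fin m ⊕ Fin m)) F) =
      Matrix.fromBlocks 1 (Matrix.of fun _ => r D) 0 (D : Matrix (Fin m ⊕ Fin m) (Fin m ⊕ Fin m) F) :=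
    fun D => MonoidHom.coe_toHomUnits _ D
  have hQ : ∀ v : Unit ⊕ (Fin m ⊕ Fin m) → F,
      Cfsg.quadFormOdd m F v = v (.inl ()) * v (.inl ()) + q (v ∘ Sum.inr) := fun v => by
    rw [Cfsg.quadFormOdd, sq]; rfl
  refine nonempty_projQuot_equiv _ ψ (fun D => ⟨1, fun v => ?_⟩) (fun D hD => ?_) (fun k hk => ?_)
  · rw [hψ, Units.val_one, one_mul, hQ, hQ, Matrix.fromBlocks_mulVec]
    simp only [Sum.elim_inl, Sum.elim_comp_inr, Matrix.one_mulVec, Matrix.zero_mulVec, zero_add, Pi.add_apply,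
      Function.comp_apply]
    rw [show ((Matrix.of fun _ : Unit => r D) *ᵥ (v ∘ Sum.inr)) () = r D ⬝ᵥ (v ∘ Sum.inr) from rfl,
      CharTwo.add_mul_self, hr]
    linear_combination (CharTwo.two_eq_zero (R := F)) * q ((D : Matrix _ _ F) *ᵥ (v ∘ Sum.inr))
  · obtain ⟨c, hc⟩ := (Cfsg.Geo.mem_scalars_iff _).1 hD
    rw [hψ, ← Matrix.fromBlocks_one, Matrix.fromBlocks_smul] at hc
    obtain ⟨h11, -, -, h22⟩ := Matrix.fromBlocks_inj.1 hc
    have hc1 : (c : F) = 1 := by
      have := congrFun (congrFun h11 ()) ()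
      simpa using this.symm
    exact Subtype.ext (by rw [h22, hc1, one_smul]; rfl)
  · obtain ⟨c, hc⟩ := hk
    obtain ⟨s, hs⟩ := exists_sqrt (c : F)
    have hs0 : s ≠ 0 := fun h0 => c.ne_zero (by rw [← hs, h0, zero_mul])
    set G : Matrix (Unit ⊕ (Fin m ⊕ Fin m)) (Unit ⊕ (Fin m ⊕ Fin m)) F :=
      s⁻¹ • (k : Matrix _ _ F) with hG
    have hGQ : ∀ v, Cfsg.quadFormOdd m F (G *ᵥ v) = Cfsg.quadFormOdd m F v := fun v => by
      rw [hG, Matrix.smul_mulVec, hQ, Pi.smul_apply, smul_eq_mul]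
      rw [show ∀ w : Unit ⊕ (Fin m ⊕ Fin m) → F, (s⁻¹ • w) ∘ Sum.inr = s⁻¹ • (w ∘ Sum.inr) from fun _ => rfl,
        hqsmul, mul_mul_mul_comm, ← mul_add, ← hQ, hc, ← hs, ← mul_assoc]
      field_simp
    have hform : ∀ u v, Cfsg.sympForm m F ((G *ᵥ u) ∘ Sum.inr) ((G *ᵥ v) ∘ Sum.inr) =
        Cfsg.sympForm m F (u ∘ Sum.inr) (v ∘ Sum.inr) := fun u v => by
      have h1 := hGQ (u + v)
      rw [Matrix.mulVec_add, hQ, hQ (u + v)] at h1
      simp only [Pi.add_apply, CharTwo.add_mul_self] at h1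
      rw [show (G *ᵥ u + G *ᵥ v) ∘ Sum.inr = (G *ᵥ u) ∘ Sum.inr + (G *ᵥ v) ∘ Sum.inr from rfl,
        show (u + v) ∘ Sum.inr = u ∘ Sum.inr + v ∘ Sum.inr from rfl, hqpolar, hqpolar] at h1
      have hu := hGQ u
      have hv := hGQ v
      rw [hQ, hQ] at hu hv
      linear_combination h1 - hu - hv
    set j : Unit ⊕ (Fin m ⊕ Fin m) → F := Pi.single (.inl ()) 1 with hj
    have hjr : j ∘ Sum.inr = (0 : Fin m ⊕ Fin m → F) := funext fun i => by simp [hj]
    have hGinv : ∀ v, ∃ u, G *ᵥ u = v := fun v => ⟨s • (((k⁻¹ : GL (Unit ⊕ (Fin m ⊕ Fin m)) F) : Matrix (Unit ⊕ (Fin m ⊕ Fin m)) (Unit ⊕ (Fin m ⊕ Fin m)) F) *ᵥ v), by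
      rw [hG, Matrix.smul_mulVec, Matrix.mulVec_smul, Matrix.mulVec_mulVec, Units.mul_inv, Matrix.one_mulVec,
        inv_smul_smul₀ hs0]⟩
    have hz : (G *ᵥ j) ∘ Sum.inr = 0 := by
      refine CfsgLib.Omega.sympBilin_nondegenerate _ fun w => ?_
      obtain ⟨x, hx⟩ := hGinv (Sum.elim (fun _ => 0) w)
      have := hform j x
      rw [hx, hjr, Sum.elim_comp_inr] at this
      rw [CfsgLib.Omega.sympBilin_apply, this, ← CfsgLib.Omega.sympBilin_apply]
      simp
    have h11 : G.toBlocks₁₁ = 1 := by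
      have h := hGQ j
      rw [hQ, hQ, hz, hjr, show q 0 = 0 by simp [q, Cfsg.quadFormPlus], add_zero, add_zero] at h
      ext a b
      have := sq_inj' h
      rw [hj, Matrix.mulVec_single_one] at this
      simpa [Matrix.toBlocks₁₁] using this
    have h21 : G.toBlocks₂₁ = 0 := by
      ext a b
      have := congrFun hz a
      rw [hj, Matrix.mulVec_single_one] at this
      simpa [Matrix.toBlocks₂₁] using this
    have hG' : G = Matrix.fromBlocks 1 G.toBlocks₁₂ 0 G.toBlocks₂₂ := by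
      conv_lhs => rw [← Matrix.fromBlocks_toBlocks G, h11, h21]
    have hr2 : ∀ v, (G *ᵥ v) ∘ Sum.inr = G.toBlocks₂₂ *ᵥ (v ∘ Sum.inr) := fun v => by
      conv_lhs => rw [hG']
      rw [Matrix.fromBlocks_mulVec, Sum.elim_comp_inr, Matrix.zero_mulVec, zero_add]
    have hD : G.toBlocks₂₂ ∈ Matrix.symplecticGroup (Fin m) F := by
      refine CfsgLib.Forms.mem_symplecticGroup_iff_form.2 fun x y => ?_
      have := hform (Sum.elim (fun _ => 0) x) (Sum.elim (fun _ => 0) y)
      rwa [hr2, hr2, Sum.elim_comp_inr, Sum.elim_comp_inr] at this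
    have h12 : G.toBlocks₁₂ = Matrix.of fun _ => r ⟨_, hD⟩ := by
      ext a b
      refine sq_inj' ?_
      have h := hGQ (Sum.elim (fun _ => 0) (Pi.single b 1))
      rw [hQ, hQ, hr2, Sum.elim_comp_inr, Sum.elim_inl, mul_zero, zero_add] at h
      conv_lhs at h => rw [hG', Matrix.fromBlocks_mulVec, Sum.elim_inl, Sum.elim_comp_inl, Sum.elim_comp_inr]
      have h2 := hr ⟨_, hD⟩ (Pi.single b 1)
      rw [dotProduct_single, mul_one] at h2
      show G.toBlocks₁₂ a b * G.toBlocks₁₂ a b = r ⟨_, hD⟩ b * r ⟨_, hD⟩ b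
      rw [h2]
      simp [Matrix.one_mulVec] at h
      rw [show (⟨G.toBlocks₂₂, hD⟩ : Matrix.symplecticGroup (Fin m) F).1 *ᵥ Pi.single b 1 = G.toBlocks₂₂.col b
        from Matrix.mulVec_single_one _ _]
      linear_combination h - (CharTwo.two_eq_zero (R := F)) * q (G.toBlocks₂₂.col b)
    refine ⟨⟨_, hD⟩, (Cfsg.Geo.mem_scalars_iff _).2 ⟨Units.mk0 s hs0, ?_⟩⟩
    have hGk : (k : Matrix (Unit ⊕ (Fin m ⊕ Fin m)) (Unit ⊕ (Fin m ⊕ Fin m)) F) =
        ((ψ ⟨_, hD⟩ : GL (Unit ⊕ (Fin m ⊕ Fin m)) F) : Matrix (Unit ⊕ (Fin m ⊕ Fin m)) (Unit ⊕ (Fin m ⊕ Fin m)) F) *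
          (s • 1) := by
      rw [hψ, ← h12, ← hG', hG, Matrix.mul_smul, Matrix.mul_one, smul_inv_smul₀ hs0]
    rw [Units.val_mul, hGk, ← Matrix.mul_assoc, Units.inv_mul, Matrix.one_mul]
    rfl

end CfsgLib.ReflectionsSpinor
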