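import Cfsg.Agent.Lib.ReflectionsSpinor.POmegaTorusSign
import Cfsg.Agent.Lib.ReflectionsSpinor.POmegaQuotThms
import Cfsg.Agent.Lib.Classes.SemisimpleIsometry
import Cfsg.Agent.Lib.Forms.Symplectic
import Mathlib.LinearAlgebra.SymplecticGroup

/-!
# Fusion of semisimple classes of odd prime order in even-dimensional orthogonal groups

The centraliser of an isometry `h` of odd order prime to the characteristic contains an element of
determinant one and spinor sign `-1`, and a similarity with non-square multiplier and trivial sign.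
Hence the classes of the induced automorphism under `PΩ`, `PSO` and `Inndiag` coincide, and so do
those under `PO` and `PGO`.
-/

set_option autoImplicit false
set_option linter.unusedSectionVars false

open Matrix CfsgLib.OrthGen

namespace CfsgLib.ReflectionsSpinor.POmegaFusion

open POmegaAut POmegaQuot POmegaTorus

section Det

variable {F V : Type*} [Field F] [AddCommGroup V] [Module F V] [FiniteDimensional F V]

/-- The determinant of a symplectic similitude. -/
theorem det_similitude (B : LinearMap.BilinForm F V) (hB : B.Nondegenerate) (hA : B.IsAlt)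
    (s : Module.End F V) {μ : F} (hμ : μ ≠ 0) (hs : ∀ u v, B (s u) (s v) = μ * B u v) :
    LinearMap.det s = μ ^ (Module.finrank F V / 2) := by
  classical
  obtain ⟨m, b, h1, h2, h3⟩ := Forms.exists_symplectic_basis B hB hA
  have hdim : Module.finrank F V / 2 = m := by
    rw [Module.finrank_eq_card_basis b]
    simp only [Fintype.card_sum, Fintype.card_fin]
    omega
  rw [hdim, ← LinearMap.det_toMatrix b]
  set A := LinearMap.toMatrix b b s with hAdef
  have hM : LinearMap.BilinForm.toMatrix b B = -Matrix.J (Fin m) F := by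
    ext i j
    rw [LinearMap.BilinForm.toMatrix_apply]
    rcases i with i | i <;> rcases j with j | j
    · rw [h2]; simp [Matrix.J]
    · rw [h1]; simp [Matrix.J, Matrix.one_apply]
    · rw [← LinearMap.IsAlt.neg hA, h1]; simp [Matrix.J, Matrix.one_apply, eq_comm]
    · rw [h3]; simp [Matrix.J]
  have hAJ : Aᵀ * Matrix.J (Fin m) F * A = μ • Matrix.J (Fin m) F := by
    have e : B.comp s s = μ • B := LinearMap.ext₂ fun u v => hs u v
    have e' := congrArg (LinearMap.BilinForm.toMatrix b) e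
    rw [LinearMap.BilinForm.toMatrix_comp b b, map_smul, hM, Matrix.mul_neg, Matrix.neg_mul,
      smul_neg, neg_inj] at e'
    exact e'
  set D : Matrix (Fin m ⊕ Fin m) (Fin m ⊕ Fin m) F := Matrix.fromBlocks (μ⁻¹ • 1) 0 0 1 with hD
  have hDJ : Dᵀ * Matrix.J (Fin m) F * D = μ⁻¹ • Matrix.J (Fin m) F := by
    simp [hD, Matrix.J, Matrix.fromBlocks_transpose, Matrix.fromBlocks_multiply,
      Matrix.fromBlocks_smul]
  have hmem : A * D ∈ Matrix.symplecticGroup (Fin m) F := by
    rw [SymplecticGroup.mem_iff', Matrix.transpose_mul]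
    calc Dᵀ * Aᵀ * Matrix.J (Fin m) F * (A * D) = Dᵀ * (Aᵀ * Matrix.J (Fin m) F * A) * D := by
          simp only [Matrix.mul_assoc]
      _ = Matrix.J (Fin m) F := by
          rw [hAJ, Matrix.mul_smul, Matrix.smul_mul, hDJ, smul_smul, mul_inv_cancel₀ hμ, one_smul]
  have hdet := SymplecticGroup.det_eq_one hmem
  rw [Matrix.det_mul, hD, Matrix.det_fromBlocks_zero₂₁, Matrix.det_smul, Matrix.det_one, mul_one,
    mul_one, Fintype.card_fin, inv_pow] at hdet
  exact eq_of_mul_inv_eq_one hdet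

end Det

variable {F : Type*} [Field F] [Finite F] {ι : Type} [Fintype ι] [DecidableEq ι]
  {Q : QuadraticForm F (ι → F)}

set_option quotPrecheck false in
local notation "Sim" => Cfsg.Geo.quadSimilarityGroup (F := F) (⇑Q)

theorem pow_two_mul_act {h : Cfsg.isometryGroup F (⇑Q)} {x : ι → F}
    (hx : act Q h (act Q h x) = x) (j : ℕ) : act Q (h ^ (2 * j)) x = x := by
  induction j with
  | zero => rw [mul_zero, pow_zero, act_one]
  | succ j ih => rw [mul_add, pow_add, act_mul, mul_one, pow_two, act_mul, hx, ih]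

theorem fix_of_fix_sq {h : Cfsg.isometryGroup F (⇑Q)} {r : ℕ} (hodd : Odd r) (hhr : h ^ r = 1)
    {x : ι → F} (hx : act Q h (act Q h x) = x) : act Q h x = x := by
  obtain ⟨k, rfl⟩ := hodd
  have := congrArg (fun g => act Q g x) hhr
  simpa [pow_succ', act_mul, pow_two_mul_act hx, act_one] using this

/-- The skew form `(u, v) ↦ f(hu - h⁻¹u, v)`. -/
noncomputable def skew (h : Cfsg.isometryGroup F (⇑Q)) : LinearMap.BilinForm F (ι → F) :=
  (QuadraticMap.polarBilin Q).compl₁₂ (lin h - lin h⁻¹) LinearMap.id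

theorem skew_apply (h : Cfsg.isometryGroup F (⇑Q)) (u v : ι → F) :
    skew h u v = pf Q (act Q h u - act Q h⁻¹ u) v := rfl

theorem skew_isAlt (h : Cfsg.isometryGroup F (⇑Q)) : (skew h).IsAlt := fun u => by
  rw [skew_apply]
  show QuadraticMap.polar (⇑Q) _ _ = 0
  rw [QuadraticMap.polar_sub_left]
  show pf Q _ u - pf Q _ u = 0
  rw [pf_act_left, pf_comm Q u, sub_self]

theorem skew_sep {h : Cfsg.isometryGroup F (⇑Q)} (hn : (QuadraticMap.polarBilin Q).Nondegenerate)
    {r : ℕ} (hodd : Odd r) (hhr : h ^ r = 1) {u : ι → F} (hu : ∀ v, skew h u v = 0) :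
    act Q h u = u := by
  refine fix_of_fix_sq hodd hhr ?_
  have h0 : act Q h u - act Q h⁻¹ u = 0 := eq_zero_of_pf_eq_zero hn fun v => hu v
  conv_lhs => rw [sub_eq_zero.1 h0]
  rw [act_act_inv]

/-- Without fixed vectors, every similarity commuting with `h` has trivial sign. -/
theorem delta_eq_one (E : Even2 Q) {h : Cfsg.isometryGroup F (⇑Q)} {r : ℕ} (hodd : Odd r)
    (hhr : h ^ r = 1) (hfree : ∀ x, act Q h x = x → x = 0) (c : ↥Sim)
    (hc : c * isoSim h = isoSim h * c) : delta E c = 1 := by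
  rw [delta_eq_one_iff]
  set A : Matrix ι ι F := Units.val c.1 with hA
  have hnd : (skew h).Nondegenerate := by
    refine ⟨fun u hu => hfree u (skew_sep E.nondeg hodd hhr hu), fun v hv => hfree v ?_⟩
    refine skew_sep E.nondeg hodd hhr fun u => ?_
    rw [← LinearMap.IsAlt.neg (skew_isAlt h), hv u, neg_zero]
  have hcomm : ∀ (g : Cfsg.isometryGroup F (⇑Q)), c * isoSim g = isoSim g * c →
      ∀ u, act Q g (A *ᵥ u) = A *ᵥ act Q g u := fun g hg u => by
    have e := congrArg (fun z : ↥Sim => (Units.val z.1 : Matrix ι ι F) *ᵥ u) hg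
    have e' : (A * (Units.val g.1 : Matrix ι ι F)) *ᵥ u = ((Units.val g.1 : Matrix ι ι F) * A) *ᵥ u := e
    rw [← Matrix.mulVec_mulVec, ← Matrix.mulVec_mulVec] at e'
    exact e'.symm
  have hpf : ∀ x y, pf Q (A *ᵥ x) (A *ᵥ y) = (mult E c : F) * pf Q x y := fun x y => by
    simp only [pf, QuadraticMap.polar, ← Matrix.mulVec_add, hA, mult_spec E]
    ring
  have h1 := det_similitude (skew h) hnd (skew_isAlt h) (Matrix.toLin' A) (mult E c).ne_zero
    fun u v => by
      rw [skew_apply, skew_apply, Matrix.toLin'_apply, Matrix.toLin'_apply, hcomm h hc,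
        hcomm h⁻¹ (by rw [map_inv]; exact Commute.inv_right hc), ← Matrix.mulVec_sub, hpf]
  rwa [LinearMap.det_toLin', Module.finrank_pi] at h1

/-- Two fixed vectors with prescribed values, when there is a non-zero fixed vector. -/
theorem exists_fixed_value (E : Even2 Q) {h : Cfsg.isometryGroup F (⇑Q)} {r : ℕ} (hodd : Odd r)
    (hrF : (r : F) ≠ 0) (hhr : h ^ r = 1) {x₀ : ι → F} (hx₀ : act Q h x₀ = x₀) (hne : x₀ ≠ 0)
    (c : F) : ∃ v, act Q h v = v ∧ Q v = c := by
  classical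
  set W : Submodule F (ι → F) := LinearMap.ker (lin h - 1) with hW
  have memW : ∀ x, x ∈ W ↔ act Q h x = x := fun x => sub_eq_zero
  have hpow : ∀ x ∈ W, ∀ j : ℕ, act Q (h ^ j) x = x := fun x hx j => by
    induction j with
    | zero => rw [pow_zero, act_one]
    | succ j ih => rw [pow_succ, act_mul, (memW x).1 hx, ih]
  have hsep : ∀ a ∈ W, (∀ b ∈ W, pf Q a b = 0) → a = 0 := fun a ha h0 =>
    eq_zero_of_pf_eq_zero E.nondeg fun y => by
      have hsum : (∑ j ∈ Finset.range r, act Q (h ^ j) y) ∈ W := by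
        rw [memW]
        show (lin h) _ = _
        rw [map_sum]
        have e : ∀ j, lin h (act Q (h ^ j) y) = act Q (h ^ (j + 1)) y := fun j => by
          rw [pow_succ', act_mul]; rfl
        simp only [e]
        have h1 := Finset.sum_range_succ' (fun j => act Q (h ^ j) y) r
        have h2 := Finset.sum_range_succ (fun j => act Q (h ^ j) y) r
        rw [h2, hhr, pow_zero] at h1
        exact (add_right_cancel h1).symm
      have e := h0 _ hsum
      have e' : ∑ j ∈ Finset.range r, pf Q a (act Q (h ^ j) y) = 0 := by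
        rw [← e]
        exact (map_sum (QuadraticMap.polarBilin Q a) _ _).symm
      have e'' : ∀ j ∈ Finset.range r, pf Q a (act Q (h ^ j) y) = pf Q a y := fun j _ => by
        conv_lhs => rw [← hpow a ha j]
        rw [pf_act]
      rw [Finset.sum_congr rfl e'', Finset.sum_const, Finset.card_range, nsmul_eq_mul] at e'
      exact (mul_eq_zero.1 e').resolve_left hrF
  -- two independent fixed vectors
  have hd : 2 ≤ Module.finrank F W := by
    obtain ⟨m, k, b, h1b, h2b, h3b, hb⟩ := Forms.exists_symplectic_basis_radical (skew h) (skew_isAlt h)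
    have hbW : ∀ j, b (Sum.inr j) ∈ W := fun j =>
      (memW _).2 (skew_sep E.nondeg hodd hhr (hb j))
    have hk : k ≤ Module.finrank F W := by
      have hli : LinearIndependent F (fun j : Fin k => (⟨b (Sum.inr j), hbW j⟩ : W)) :=
        LinearIndependent.of_comp W.subtype (b.linearIndependent.comp _ Sum.inr_injective)
      simpa using hli.fintype_card_le_finrank
    have hcard := Module.finrank_eq_card_basis b
    rw [Module.finrank_pi, Fintype.card_sum, Fintype.card_sum, Fintype.card_fin, Fintype.card_fin] at hcard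
    have hk0 : k ≠ 0 := fun h0 => by
      subst h0
      -- no radical: the skew form is non-degenerate
      obtain ⟨i, hi⟩ : ∃ i, b.repr x₀ i ≠ 0 := by
        by_contra! h0
        exact hne (b.ext_elem fun i => by simp [h0 i])
      have hs : ∀ v, skew h x₀ v = 0 := fun v => by
        rw [skew_apply]
        have hinv : act Q h⁻¹ x₀ = x₀ := by
          conv_lhs => rw [← hx₀, act_inv_act]
        rw [hx₀, hinv, sub_self]
        exact QuadraticMap.polar_zero_left _ _
      apply hi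
      rcases i with (i | i) | i
      · have := hs (b (Sum.inl (Sum.inr i)))
        rw [← b.sum_repr x₀, map_sum, LinearMap.sum_apply, Fintype.sum_sum_type, Fintype.sum_sum_type] at this
        simpa [h1b, h3b] using this
      · have := hs (b (Sum.inl (Sum.inl i)))
        rw [← b.sum_repr x₀, map_sum, LinearMap.sum_apply, Fintype.sum_sum_type, Fintype.sum_sum_type] at this
        simpa [h2b, ← LinearMap.IsAlt.neg (skew_isAlt h) (b (Sum.inl (Sum.inl i))), h1b] using this
      · exact i.elim0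
    obtain ⟨t, ht⟩ := E.even
    omega
  let d := Module.finrank F W
  let e : (Fin d → F) ≃ₗ[F] W := LinearEquiv.ofFinrankEq _ _ (by simp [d])
  let Q₀ : QuadraticForm F (Fin d → F) := Q.comp (W.subtype ∘ₗ e.toLinearMap)
  have hnd₀ : (QuadraticMap.polarBilin Q₀).Nondegenerate := by
    refine Classes.nondegenerate_polarBilin _ fun u hu => e.map_eq_zero_iff.1 (Subtype.ext ?_)
    refine hsep _ (e u).2 fun b hb => ?_
    have h1 := hu (e.symm ⟨b, hb⟩)
    rw [QuadraticMap.polar] at h1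
    rw [pf, QuadraticMap.polar]
    simpa [Q₀] using h1
  obtain ⟨v, hv⟩ := OrthGen.exists_Q_eq E.two hnd₀ (by simpa using hd) c
  exact ⟨(e v : ι → F), (memW _).1 (e v).2, hv⟩

/-- A reflection in a fixed vector commutes with `h`. -/
theorem refl_comm {h : Cfsg.isometryGroup F (⇑Q)} {v : ι → F} (hv : Q v ≠ 0) (hf : act Q h v = v) :
    refl Q hv * h = h * refl Q hv :=
  ext_act fun x => by
    rw [act_mul, act_mul, act_refl, act_refl, act_sub, act_smul, hf,
      show pf Q v (act Q h x) = pf Q v x by conv_lhs => rw [← hf, pf_act]]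

/-- An element of determinant one and spinor sign `-1` centralising `h`. -/
theorem exists_cent_spin (E : Even2 Q) {h : Cfsg.isometryGroup F (⇑Q)} {r : ℕ} (hodd : Odd r)
    (hrF : (r : F) ≠ 0) (hhr : h ^ r = 1) :
    ∃ k : Cfsg.isometryGroup F (⇑Q), k * h = h * k ∧ Classes.detHom Q k = 1 ∧ spinSign Q 1 k = -1 := by
  by_cases hfree : ∀ x, act Q h x = x → x = 0
  · haveI := E.nonempty
    obtain ⟨k, hk, hs⟩ := exists_spin_neg E.two E.nondeg hodd hrF hhr hfree
    refine ⟨k, hk, ?_, hs⟩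
    rw [← delta_isoSim_eq_one_iff E]
    exact delta_eq_one E hodd hhr hfree _ (by rw [← map_mul, hk, map_mul])
  · push_neg at hfree
    obtain ⟨x₀, hx₀, hne⟩ := hfree
    obtain ⟨ε, hε⟩ := exists_nonsquare_of_two (F := F) E.two
    have hε0 : ε ≠ 0 := fun h => hε (h ▸ IsSquare.zero)
    obtain ⟨a, ha, ha1⟩ := exists_fixed_value E hodd hrF hhr hx₀ hne 1
    obtain ⟨b, hb, hbε⟩ := exists_fixed_value E hodd hrF hhr hx₀ hne ε
    have ha0 : Q a ≠ 0 := by rw [ha1]; exact one_ne_zero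
    have hb0 : Q b ≠ 0 := by rw [hbε]; exact hε0
    refine ⟨refl Q ha0 * refl Q hb0, ?_, ?_, ?_⟩
    · rw [mul_assoc, refl_comm hb0 hb, ← mul_assoc, refl_comm ha0 ha, mul_assoc]
    · rw [map_mul, Classes.detHom_refl, Classes.detHom_refl, neg_one_mul, neg_neg]
    · rw [map_mul, (spinSign_refl E.two one_ne_zero ha0).2 (by rw [ha1, div_one]; exact IsSquare.one),
        (spinSign_refl' E.two one_ne_zero hb0).2
          (by rw [hbε, one_div]; exact fun e => hε (isSquare_inv.mp e)), mul_one]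

/-- A similarity with non-square multiplier and trivial sign centralising `h`. -/
theorem exists_cent_sim (E : Even2 Q) {h : Cfsg.isometryGroup F (⇑Q)} {r : ℕ} (hodd : Odd r)
    (hrF : (r : F) ≠ 0) (hhr : h ^ r = 1) {s₀ : ↥Sim} (hs₀ : multSign E s₀ = -1) :
    ∃ s : ↥Sim, s * isoSim h = isoSim h * s ∧ multSign E s = -1 ∧ delta E s = 1 := by
  set h' : Cfsg.isometryGroup F (⇑Q) :=
    ⟨s₀.1 * h.1 * s₀.1⁻¹, by
      have := semi_conj_mem (semi_of_sim s₀.2) h.2
      rwa [gmap_one] at this⟩ with hh'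
  have hconj : isoSim h' = s₀ * isoSim h * s₀⁻¹ := rfl
  have hh'r : h' ^ r = 1 := by
    refine Subtype.ext ?_
    rw [SubmonoidClass.coe_pow, hh', conj_pow, ← SubmonoidClass.coe_pow, hhr]
    simp
  let X : (ι → F) ≃ₗ[F] (ι → F) :=
    LinearEquiv.ofLinear (Matrix.toLin' (Units.val s₀.1 : Matrix ι ι F))
      (Matrix.toLin' (Units.val s₀.1⁻¹ : Matrix ι ι F))
      (by rw [← Matrix.toLin'_mul, Units.mul_inv, Matrix.toLin'_one])
      (by rw [← Matrix.toLin'_mul, Units.inv_mul, Matrix.toLin'_one])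
  have hAr : ∀ g : Cfsg.isometryGroup F (⇑Q), g ^ r = 1 → (lin g) ^ r = 1 := fun g hg =>
    LinearMap.ext fun x => by rw [← act_pow g (lin g) (fun _ => rfl), hg, act_one]; rfl
  obtain ⟨g, hgQ, hg⟩ := Classes.SemiConj.exists_quad_conj E.nondeg hrF hodd (hAr h hhr)
    (hAr h' hh'r) (fun v => Q_act h v) (fun v => Q_act h' v) X (fun v => by
      show (Units.val s₀.1 : Matrix ι ι F) *ᵥ act Q h v =
        (Units.val (s₀.1 * h.1 * s₀.1⁻¹) : Matrix ι ι F) *ᵥ ((Units.val s₀.1 : Matrix ι ι F) *ᵥ v)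
      rw [Matrix.mulVec_mulVec, ← Units.val_mul, inv_mul_cancel_right, Units.val_mul,
        ← Matrix.mulVec_mulVec]
      rfl)
  obtain ⟨u, hu⟩ := exists_iso E.nondeg g.toLinearMap hgQ
  have huh : u * h = h' * u := ext_act fun x => by
    rw [act_mul, act_mul, hu, hu]
    exact hg x
  set s : ↥Sim := (isoSim u)⁻¹ * s₀ with hs
  have hcomm : s * isoSim h = isoSim h * s := by
    have e := congrArg isoSim huh
    rw [map_mul, map_mul, hconj] at e
    rw [hs]
    calc (isoSim u)⁻¹ * s₀ * isoSim h = (isoSim u)⁻¹ * (s₀ * isoSim h * s₀⁻¹) * s₀ := by group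
      _ = (isoSim u)⁻¹ * (isoSim u * isoSim h * (isoSim u)⁻¹) * s₀ := by
          rw [e, mul_inv_cancel_right]
      _ = isoSim h * ((isoSim u)⁻¹ * s₀) := by group
  have hms : multSign E s = -1 := by
    rw [hs, map_mul, map_inv, multSign_isoSim, hs₀]; rfl
  rcases Int.units_eq_one_or (delta E s) with hd | hd
  · exact ⟨s, hcomm, hms, hd⟩
  · have hfix : ∃ x, act Q h x = x ∧ x ≠ 0 := by
      by_contra! hfree
      rw [delta_eq_one E hodd hhr hfree s hcomm] at hd
      exact absurd hd (by decide)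
    obtain ⟨x₀, hx₀, hne⟩ := hfix
    obtain ⟨a, ha, ha1⟩ := exists_fixed_value E hodd hrF hhr hx₀ hne 1
    have ha0 : Q a ≠ 0 := by rw [ha1]; exact one_ne_zero
    refine ⟨s * isoSim (refl Q ha0), ?_, ?_, ?_⟩
    · rw [mul_assoc, ← map_mul, refl_comm ha0 ha, map_mul, ← mul_assoc, hcomm, mul_assoc]
    · rw [map_mul, multSign_isoSim, hms, mul_one]
    · rw [map_mul, delta_refl E ha0, hd]; rfl

/-- Enlarging the conjugating group by centralising elements does not change the class. -/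
theorem isConjUnder_iff {A : Type*} [Group A] {H K : Subgroup A} (hle : H ≤ K) {x : A}
    (hK : ∀ g ∈ K, ∃ t ∈ H, ∃ c : A, Commute c x ∧ g = t * c) (y : A) :
    Cfsg.IsConjUnder H x y ↔ Cfsg.IsConjUnder K x y := by
  refine ⟨fun ⟨t, ht, e⟩ => ⟨t, hle ht, e⟩, fun ⟨g, hg, e⟩ => ?_⟩
  obtain ⟨t, ht, c, hc, rfl⟩ := hK g hg
  refine ⟨t, ht, e.trans ?_⟩
  rw [_root_.mul_inv_rev, show t * c * x * (c⁻¹ * t⁻¹) = t * (c * x * c⁻¹) * t⁻¹ by group, hc.eq,
    mul_inv_cancel_right]

theorem poAut_le_pgoAut : Cfsg.poAut F (⇑Q) ≤ Cfsg.pgoAut F (⇑Q) := by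
  rw [poAut_eq, pgoAut_eq]; exact Subgroup.map_le_range _ _

/-- A similarity inducing an automorphism of odd order is a scalar times an isometry of that order. -/
theorem exists_iso_of_order (E : Even2 Q) {x : MulAut (Cfsg.POmega F (⇑Q))}
    (hx : x ∈ Cfsg.pgoAut F (⇑Q)) {r : ℕ} (hodd : Odd r) (hxr : x ^ r = 1) :
    ∃ h : Cfsg.isometryGroup F (⇑Q), h ^ r = 1 ∧ x = simAut (⇑Q) (isoSim h) := by
  obtain ⟨g, rfl⟩ := mem_pgoAut_iff.1 hx
  rw [← map_pow] at hxr
  have hphi : phi E (g ^ r) = 1 := (phi_eq_one_iff E _).2 ⟨1, one_mem _, by rw [map_one, hxr]⟩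
  have hms : multSign E g = 1 := by
    have h1 : multSign E g ^ r = 1 := by
      rw [← map_pow]; exact congrArg Prod.fst hphi
    obtain ⟨k, rfl⟩ := hodd
    rcases Int.units_eq_one_or (multSign E g) with e | e
    · exact e
    · rw [e, Odd.neg_one_pow ⟨k, rfl⟩] at h1
      exact absurd h1 (by decide)
  obtain ⟨l, h₀, rfl⟩ := exists_eq_scalar_mul E g hms
  have hx' : simAut (⇑Q) (scalarSim l * isoSim h₀) = simAut (⇑Q) (isoSim h₀) := by
    rw [map_mul, simAut_scalar E, one_mul]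
  rw [map_pow, hx', ← map_pow, ← map_pow] at hxr
  rw [hx']
  rcases (simAut_isoSim_eq_iff E (h₀ ^ r) 1).1 (by rw [hxr, map_one, map_one]) with e | e
  · exact ⟨h₀, e.symm, rfl⟩
  · refine ⟨negOne * h₀, ?_, ((simAut_isoSim_eq_iff E h₀ _).2 (Or.inr rfl))⟩
    have hc : Commute (negOne (Q := Q)) h₀ := ext_act fun v => by
      rw [act_mul, act_mul]
      show (-1 : Matrix ι ι F) *ᵥ act Q h₀ v = act Q h₀ ((-1 : Matrix ι ι F) *ᵥ v)
      rw [Matrix.neg_mulVec, Matrix.one_mulVec, Matrix.neg_mulVec, Matrix.one_mulVec,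
        ← neg_one_smul F v, act_smul, neg_one_smul]
    have h2 : negOne (Q := Q) ^ 2 = 1 := ext_act fun v => by
      rw [pow_two, act_mul, act_one]
      show (-1 : Matrix ι ι F) *ᵥ ((-1 : Matrix ι ι F) *ᵥ v) = v
      rw [Matrix.mulVec_mulVec, neg_one_mul, neg_neg, Matrix.one_mulVec]
    rw [hc.mul_pow]
    obtain ⟨k, rfl⟩ := hodd
    rw [pow_succ (negOne (Q := Q)), pow_mul, h2, one_pow, one_mul, ← e]

theorem two_ne_zero_of_charP {K : Type*} [Field K] {p : ℕ} [Fact p.Prime] [CharP K p] (hp : p ≠ 2) :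
    (2 : K) ≠ 0 := fun h => by
  have hd : p ∣ 2 := (CharP.cast_eq_zero_iff K p 2).1 (by exact_mod_cast h)
  exact hp ((Nat.prime_dvd_prime_iff_eq Fact.out Nat.prime_two).1 hd)

theorem cast_ne_zero_of_charP {K : Type*} [Field K] {p : ℕ} [Fact p.Prime] [CharP K p] {r : ℕ}
    (hr : r.Prime) (hrp : r ≠ p) : (r : K) ≠ 0 := fun h =>
  hrp ((Nat.prime_dvd_prime_iff_eq Fact.out hr).1 ((CharP.cast_eq_zero_iff K p r).1 h)).symm

/-- The fusion. -/
theorem fusion (E : Even2 Q) {s₀ : ↥Sim} (hs₀ : multSign E s₀ = -1)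
    {x : MulAut (Cfsg.POmega F (⇑Q))} (hx : x ∈ Cfsg.pgoAut F (⇑Q)) {r : ℕ} (hodd : Odd r)
    (hrF : (r : F) ≠ 0) (hxr : orderOf x = r) :
    (∀ y, (Cfsg.IsConjUnder (Cfsg.Inn (Cfsg.POmega F (⇑Q))) x y ↔
        Cfsg.IsConjUnder (inndiagGroup Q E) x y) ∧
      (Cfsg.IsConjUnder (Cfsg.psoAut F (⇑Q)) x y ↔ Cfsg.IsConjUnder (inndiagGroup Q E) x y)) ∧
    ∀ y, Cfsg.IsConjUnder (Cfsg.poAut F (⇑Q)) x y ↔ Cfsg.IsConjUnder (Cfsg.pgoAut F (⇑Q)) x y := by
  obtain ⟨h, hhr, rfl⟩ := exists_iso_of_order E hx hodd (hxr ▸ pow_orderOf_eq_one x)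
  obtain ⟨k, hk, hkd, hks⟩ := exists_cent_spin E hodd hrF hhr
  obtain ⟨s, hs, hsm, hsd⟩ := exists_cent_sim E hodd hrF hhr hs₀
  have hck : Commute (simAut (⇑Q) (isoSim k)) (simAut (⇑Q) (isoSim h)) :=
    (((show Commute k h from hk).map isoSim).map (simAut (⇑Q)))
  have hcs : Commute (simAut (⇑Q) s) (simAut (⇑Q) (isoSim h)) :=
    (show Commute s (isoSim h) from hs).map (simAut (⇑Q))
  -- factor a similarity over `SO` by one centralising element
  have hfac : ∀ g : ↥Sim, ∃ (g₁ c : ↥Sim), multSign E g₁ = 1 ∧ delta E g₁ = delta E g ∧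
      Commute (simAut (⇑Q) c) (simAut (⇑Q) (isoSim h)) ∧ g = g₁ * c := by
    intro g
    rcases Int.units_eq_one_or (multSign E g) with e | e
    · exact ⟨g, 1, e, rfl, by rw [map_one]; exact Commute.one_left _, (mul_one g).symm⟩
    · exact ⟨g * s⁻¹, s, by rw [map_mul, map_inv, e, hsm]; rfl,
        by rw [map_mul, map_inv, hsd, inv_one, mul_one], hcs, (inv_mul_cancel_right g s).symm⟩
  have hInn : ∀ a ∈ inndiagGroup Q E, ∃ t ∈ Cfsg.Inn (Cfsg.POmega F (⇑Q)),
      ∃ c, Commute c (simAut (⇑Q) (isoSim h)) ∧ a = t * c := by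
    rintro _ ⟨g, hg, rfl⟩
    obtain ⟨g₁, c, hm, hd, hc, rfl⟩ := hfac g
    obtain ⟨w, hw, hwe⟩ := (phi_eq_one_iff E g₁).1 (Prod.ext hm (hd.trans hg))
    obtain ⟨k₀, hk₀, hk₀d⟩ := (mem_SO_iff w.1).1 hw
    obtain rfl : isoSim k₀ = w := Subtype.ext hk₀
    rw [inn_eq]
    rcases Int.units_eq_one_or (spinSign Q 1 k₀) with e | e
    · obtain ⟨o, ho, hoe⟩ := (exists_omega_iff E k₀).2 (Or.inl
        ((Classes.mem_omega_iff E.two E.nondeg E.two_le _).2 ⟨hk₀d, e⟩))
      exact ⟨_, ⟨o, ho, rfl⟩, _, hc, by rw [map_mul, ← hwe, hoe]⟩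
    · obtain ⟨o, ho, hoe⟩ := (exists_omega_iff E (k₀ * k⁻¹)).2 (Or.inl
        ((Classes.mem_omega_iff E.two E.nondeg E.two_le _).2
          ⟨by rw [map_mul, map_inv, hk₀d, hkd, inv_one, mul_one],
           by rw [map_mul, map_inv, e, hks]; rfl⟩))
      exact ⟨_, ⟨o, ho, rfl⟩, _, hck.mul_left hc, by
        rw [hoe, ← mul_assoc, ← map_mul, ← map_mul, ← map_mul isoSim, inv_mul_cancel_right, map_mul, map_mul, hwe]⟩
  refine ⟨fun y => ⟨isConjUnder_iff (inn_le_psoAut.trans (psoAut_le_inndiagGroup E)) hInn y,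
    isConjUnder_iff (psoAut_le_inndiagGroup E) (fun a ha => ?_) y⟩,
    isConjUnder_iff poAut_le_pgoAut fun a ha => ?_⟩
  · obtain ⟨t, ht, c, hc, e⟩ := hInn a ha
    exact ⟨t, inn_le_psoAut ht, c, hc, e⟩
  · obtain ⟨g, rfl⟩ := mem_pgoAut_iff.1 ha
    obtain ⟨g₁, c, hm, -, hc, rfl⟩ := hfac g
    obtain ⟨l, h₁, rfl⟩ := exists_eq_scalar_mul E g₁ hm
    refine ⟨simAut (⇑Q) (isoSim h₁), ?_, _, hc, by rw [map_mul, map_mul, simAut_scalar E, one_mul]⟩
    rw [poAut_eq]
    exact ⟨isoSim h₁, h₁.2, rfl⟩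

/-- `fusion` for a function equal to the values of the form. -/
theorem fusion_of_eq (E : Even2 Q) {s₀ : ↥Sim} (hs₀ : multSign E s₀ = -1) (f : (ι → F) → F)
    (hf : ⇑Q = f) (G : Subgroup (MulAut (Cfsg.POmega F f))) (hG : G ≍ inndiagGroup Q E)
    {x : MulAut (Cfsg.POmega F f)} (hx : x ∈ Cfsg.pgoAut F f) {r : ℕ} (hodd : Odd r)
    (hrF : (r : F) ≠ 0) (hxr : orderOf x = r) :
    (∀ y, (Cfsg.IsConjUnder (Cfsg.Inn (Cfsg.POmega F f)) x y ↔ Cfsg.IsConjUnder G x y) ∧
      (Cfsg.IsConjUnder (Cfsg.psoAut F f) x y ↔ Cfsg.IsConjUnder G x y)) ∧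
    ∀ y, Cfsg.IsConjUnder (Cfsg.poAut F f) x y ↔ Cfsg.IsConjUnder (Cfsg.pgoAut F f) x y := by
  subst hf
  obtain rfl := eq_of_heq hG
  exact fusion E hs₀ hx hodd hrF hxr

end CfsgLib.ReflectionsSpinor.POmegaFusion
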