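import Cfsg.Agent.Lib.ReflectionsSpinor.PSUGraphBasic
import Cfsg.Agent.Lib.ReflectionsSpinor.GraphOdd

/-!
# Centralisers of involutory graph automorphisms of `PSU_n(q)` and splitting of their classes
-/

set_option autoImplicit false
set_option linter.unusedSectionVars false

open Matrix
open CfsgLib.ClassicalForms

namespace CfsgLib.ReflectionsSpinor

universe u v

variable {F : Type u} [Field F]

/-- A similarity of the standard alternating form has determinant the `m`-th power of its multiplier. -/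
theorem det_sim_J {m : ℕ} {κ : Type} [Fintype κ] [DecidableEq κ] (e : Fin m ⊕ Fin m ≃ κ) (P : Matrix κ κ F)
    {d : F} (hd : d ≠ 0)
    (h : Pᵀ * Matrix.reindex e e (Matrix.J (Fin m) F) * P = d • Matrix.reindex e e (Matrix.J (Fin m) F)) :
    P.det = d ^ m := by
  set X : Matrix (Fin m ⊕ Fin m) (Fin m ⊕ Fin m) F := P.submatrix e e with hXdef
  have hX : Xᵀ * Matrix.J (Fin m) F * X = d • Matrix.J (Fin m) F := by
    have h1 := congrArg (fun Y : Matrix κ κ F => Y.submatrix e e) h
    simp only [Matrix.reindex_apply] at h1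
    rw [← Matrix.submatrix_mul_equiv _ _ e e e, ← Matrix.submatrix_mul_equiv _ _ e e e, Matrix.submatrix_smul,
      Pi.smul_apply, Pi.smul_apply, Matrix.submatrix_submatrix, Equiv.symm_comp_self, Matrix.submatrix_id_id,
      ← Matrix.transpose_submatrix] at h1
    exact h1
  let Di : Matrix (Fin m ⊕ Fin m) (Fin m ⊕ Fin m) F := Matrix.fromBlocks (d⁻¹ • 1) 0 0 1
  have hDJ : Diᵀ * Matrix.J (Fin m) F * Di = d⁻¹ • Matrix.J (Fin m) F := by
    simp [Di, Matrix.J, Matrix.fromBlocks_transpose, Matrix.fromBlocks_multiply, Matrix.fromBlocks_smul]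
  have hsp : X * Di ∈ Matrix.symplecticGroup (Fin m) F := by
    refine SymplecticGroup.mem_iff'.2 ?_
    rw [Matrix.transpose_mul, show Diᵀ * Xᵀ * Matrix.J (Fin m) F * (X * Di) =
      Diᵀ * (Xᵀ * Matrix.J (Fin m) F * X) * Di by simp only [Matrix.mul_assoc], hX, Matrix.mul_smul,
      Matrix.smul_mul, hDJ, smul_smul, mul_inv_cancel₀ hd, one_smul]
  have h1 := SymplecticGroup.det_eq_one hsp
  rw [Matrix.det_mul, hXdef, Matrix.det_submatrix_equiv_self, Matrix.det_fromBlocks_zero₂₁, Matrix.det_one,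
    mul_one, Matrix.det_smul, Matrix.det_one, mul_one, Fintype.card_fin, inv_pow] at h1
  exact (mul_inv_eq_one₀ (pow_ne_zero _ hd)).1 h1

/-- The determinant of a similarity of a form congruent to the standard alternating one. -/
theorem det_sim_symp {m : ℕ} {κ : Type} [Fintype κ] [DecidableEq κ] (e : Fin m ⊕ Fin m ≃ κ) {B P : Matrix κ κ F}
    (hB : ScalCong B (Matrix.reindex e e (Matrix.J (Fin m) F))) {d : F} (hd : d ≠ 0) (h : Pᵀ * B * P = d • B) :
    P.det = d ^ m := by
  obtain ⟨Q, c, hQ⟩ := hB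
  set J' := Matrix.reindex e e (Matrix.J (Fin m) F)
  set P' : Matrix κ κ F := (Units.val Q : Matrix κ κ F) * P * Units.val Q⁻¹ with hP'def
  have hdet : P'.det = P.det := by
    rw [hP'def, Matrix.det_mul_right_comm, ← Units.val_mul, mul_inv_cancel, Units.val_one, Matrix.one_mul]
  have hB' : J' = (c : F) • ((Units.val Q⁻¹ : Matrix κ κ F)ᵀ * B * Units.val Q⁻¹) := by
    calc J' = (Units.val Q⁻¹ : Matrix κ κ F)ᵀ * ((Units.val Q : Matrix κ κ F)ᵀ * J' * Units.val Q) *
          Units.val Q⁻¹ := by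
          rw [← Matrix.mul_assoc, ← Matrix.mul_assoc, ← Matrix.transpose_mul, Units.mul_inv,
            Matrix.transpose_one, Matrix.one_mul, Matrix.mul_assoc, Units.mul_inv, Matrix.mul_one]
      _ = _ := by rw [hQ, Matrix.mul_smul, Matrix.smul_mul]
  rw [← hdet]
  refine det_sim_J e P' hd ?_
  show P'ᵀ * J' * P' = d • J'
  calc P'ᵀ * J' * P' = (Units.val Q⁻¹ : Matrix κ κ F)ᵀ * (Pᵀ * ((Units.val Q : Matrix κ κ F)ᵀ * J' *
        Units.val Q) * P) * Units.val Q⁻¹ := by rw [hP'def]; simp only [Matrix.transpose_mul, Matrix.mul_assoc]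
    _ = d • ((c : F) • ((Units.val Q⁻¹ : Matrix κ κ F)ᵀ * B * Units.val Q⁻¹)) := by
      rw [hQ, Matrix.mul_smul, Matrix.smul_mul, h, smul_comm, Matrix.mul_smul, Matrix.smul_mul, Matrix.mul_smul,
        Matrix.smul_mul]
    _ = _ := by rw [← hB']

/-- Every multiplier occurs for a form congruent to the standard alternating one. -/
theorem exists_sim_symp {m : ℕ} {κ : Type} [Fintype κ] [DecidableEq κ] (e : Fin m ⊕ Fin m ≃ κ) {B : Matrix κ κ F}
    (hB : ScalCong B (Matrix.reindex e e (Matrix.J (Fin m) F))) (d : F) :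
    ∃ P : Matrix κ κ F, Pᵀ * B * P = d • B := by
  obtain ⟨Q, c, hQ⟩ := hB
  let D0 : Matrix (Fin m ⊕ Fin m) (Fin m ⊕ Fin m) F := Matrix.fromBlocks (d • 1) 0 0 1
  have hD : D0ᵀ * Matrix.J (Fin m) F * D0 = d • Matrix.J (Fin m) F := by
    simp [D0, Matrix.J, Matrix.fromBlocks_transpose, Matrix.fromBlocks_multiply, Matrix.fromBlocks_smul]
  set J' := Matrix.reindex e e (Matrix.J (Fin m) F) with hJ'
  set D := Matrix.reindex e e D0 with hDdef
  have hD' : Dᵀ * J' * D = d • J' := by
    rw [hDdef, hJ', Matrix.reindex_apply, Matrix.reindex_apply, Matrix.transpose_submatrix,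
      Matrix.submatrix_mul_equiv, Matrix.submatrix_mul_equiv, hD]
    rfl
  refine ⟨(Units.val Q⁻¹ : Matrix κ κ F) * D * Units.val Q, ?_⟩
  have hB' : B = ((c⁻¹ : Fˣ) : F) • ((Units.val Q : Matrix κ κ F)ᵀ * J' * Units.val Q) := by
    rw [hQ, smul_smul, Units.inv_mul, one_smul]
  conv_lhs => rw [hB']
  rw [Matrix.mul_smul, Matrix.smul_mul]
  conv_rhs => rw [hB', smul_comm]
  congr 1
  calc _ = (Units.val Q : Matrix κ κ F)ᵀ * Dᵀ * (((Units.val Q⁻¹ : Matrix κ κ F)ᵀ *
        (Units.val Q : Matrix κ κ F)ᵀ) * J' * ((Units.val Q : Matrix κ κ F) * Units.val Q⁻¹)) * D *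
          Units.val Q := by simp only [Matrix.transpose_mul, Matrix.mul_assoc]
    _ = (Units.val Q : Matrix κ κ F)ᵀ * (Dᵀ * J' * D) * Units.val Q := by
      rw [show (Units.val Q⁻¹ : Matrix κ κ F)ᵀ * (Units.val Q : Matrix κ κ F)ᵀ = 1 by
        rw [← Matrix.transpose_mul, Units.mul_inv, Matrix.transpose_one], Units.mul_inv, Matrix.one_mul,
        Matrix.mul_one]
      simp only [Matrix.mul_assoc]
    _ = _ := by rw [hD', Matrix.mul_smul, Matrix.smul_mul]

/-- Similarities of a symmetric form in even dimension with prescribed multiplier and determinant. -/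
theorem exists_sim_symm [Finite F] (h2 : (2 : F) ≠ 0) {k m : ℕ} (hk : 1 ≤ k) (hkm : k = 2 * m)
    (A : GL (Fin k) F) (hA : (A : Matrix (Fin k) (Fin k) F)ᵀ = (A : Matrix (Fin k) (Fin k) F))
    (t δ : Fˣ) (hδ : δ ^ 2 = t ^ k) :
    ∃ P : GL (Fin k) F, (P : Matrix (Fin k) (Fin k) F)ᵀ * (A : Matrix (Fin k) (Fin k) F) *
        (P : Matrix (Fin k) (Fin k) F) = (t : F) • (A : Matrix (Fin k) (Fin k) F) ∧
      Matrix.GeneralLinearGroup.det P = δ := by
  have hdet : (A : Matrix (Fin k) (Fin k) F).det ≠ 0 := ((Matrix.isUnit_iff_isUnit_det _).1 A.isUnit).ne_zero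
  -- a reflection
  have hrefl : ∃ r : GL (Fin k) F, (r : Matrix (Fin k) (Fin k) F)ᵀ * (A : Matrix (Fin k) (Fin k) F) *
      (r : Matrix (Fin k) (Fin k) F) = (A : Matrix (Fin k) (Fin k) F) ∧
      Matrix.GeneralLinearGroup.det r = -1 := by
    obtain ⟨j, rfl⟩ : ∃ j, k = j + 1 := ⟨k - 1, by omega⟩
    obtain ⟨α, hα⟩ := exists_nonsquare h2
    obtain ⟨P, e, -, hP⟩ := exists_congr_diagonal h2 α hα A hA
    let r0 : GL (Fin (j + 1)) F := PSL.dg (fun i => if i = Fin.last j then -1 else 1) (fun i => by split <;> simp)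
    have hr0 : (r0 : Matrix _ _ F)ᵀ * ((P : Matrix (Fin (j + 1)) (Fin (j + 1)) F)ᵀ * (A : Matrix _ _ F) *
        (P : Matrix (Fin (j + 1)) (Fin (j + 1)) F)) * (r0 : Matrix _ _ F) =
        (P : Matrix (Fin (j + 1)) (Fin (j + 1)) F)ᵀ * (A : Matrix _ _ F) *
          (P : Matrix (Fin (j + 1)) (Fin (j + 1)) F) := by
      rw [hP]
      show (Matrix.diagonal _)ᵀ * Matrix.diagonal _ * Matrix.diagonal _ = _
      rw [Matrix.diagonal_transpose, Matrix.diagonal_mul_diagonal, Matrix.diagonal_mul_diagonal]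
      congr 1
      funext i
      by_cases hi : i = Fin.last j <;> simp [hi]
    refine ⟨P * r0 * P⁻¹, ?_, ?_⟩
    · calc _ = ((P⁻¹ : GL (Fin (j + 1)) F) : Matrix _ _ F)ᵀ * ((r0 : Matrix _ _ F)ᵀ *
            ((P : Matrix _ _ F)ᵀ * (A : Matrix _ _ F) * (P : Matrix _ _ F)) * (r0 : Matrix _ _ F)) *
              ((P⁻¹ : GL (Fin (j + 1)) F) : Matrix _ _ F) := by
            simp only [Units.val_mul, Matrix.transpose_mul, Matrix.mul_assoc]
        _ = _ := by
          rw [hr0, ← Matrix.mul_assoc, ← Matrix.mul_assoc, ← Matrix.transpose_mul, Units.mul_inv,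
            Matrix.transpose_one, Matrix.one_mul, Matrix.mul_assoc, Units.mul_inv, Matrix.mul_one]
    · rw [map_mul, map_mul, map_inv, mul_right_comm, mul_inv_cancel, one_mul]
      refine Units.ext ?_
      show (Matrix.diagonal _).det = -1
      rw [Matrix.det_diagonal, Finset.prod_ite_eq', if_pos (Finset.mem_univ _)]
  let A' : GL (Fin k) F := Units.map (Matrix.scalar (Fin k)).toMonoidHom t * A
  have hA' : (A' : Matrix (Fin k) (Fin k) F) = (t : F) • (A : Matrix (Fin k) (Fin k) F) := by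
    rw [Units.val_mul]
    show Matrix.scalar (Fin k) (t : F) * _ = _
    rw [Matrix.scalar_apply, ← Matrix.smul_one_eq_diagonal, Matrix.smul_mul, Matrix.one_mul]
  obtain ⟨P, hP⟩ := exists_congr_of_isSquare h2 hk A' A (by rw [hA', Matrix.transpose_smul, hA]) hA (by
    rw [hA', Matrix.det_smul, Fintype.card_fin, show (t : F) ^ k = (t : F) ^ (2 * m) by rw [← hkm]]
    exact ⟨(t : F) ^ m * (A : Matrix (Fin k) (Fin k) F).det, by ring⟩)
  have hPt := hP.trans hA'
  have hsq := det_sq_of_mem_simA hdet (c := t) hPt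
  rw [Fintype.card_fin, ← hδ] at hsq
  have h3 : ((Matrix.GeneralLinearGroup.det P : Fˣ) : F) ^ 2 = (δ : F) ^ 2 := congrArg Units.val hsq
  rcases eq_or_eq_neg_of_sq_eq_sq _ _ h3 with h4 | h4
  · exact ⟨P, hPt, Units.ext h4⟩
  · obtain ⟨r, hr, hrd⟩ := hrefl
    refine ⟨P * r, ?_, Units.ext ?_⟩
    · rw [Units.val_mul, Matrix.transpose_mul,
        show (r : Matrix (Fin k) (Fin k) F)ᵀ * (P : Matrix (Fin k) (Fin k) F)ᵀ * (A : Matrix (Fin k) (Fin k) F) *
            ((P : Matrix (Fin k) (Fin k) F) * (r : Matrix (Fin k) (Fin k) F)) =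
          (r : Matrix (Fin k) (Fin k) F)ᵀ * ((P : Matrix (Fin k) (Fin k) F)ᵀ * (A : Matrix (Fin k) (Fin k) F) *
            (P : Matrix (Fin k) (Fin k) F)) * (r : Matrix (Fin k) (Fin k) F) by simp only [Matrix.mul_assoc],
        hPt, Matrix.mul_smul, Matrix.smul_mul, hr]
    · rw [map_mul, hrd, Units.val_mul, h4, Units.val_neg, Units.val_one]
      ring

namespace PSUAut

variable {n q : ℕ} [Fintype F] {F₀ : Type v} [Field F₀]

local notation "M" => Matrix (Fin n) (Fin n) F
local notation "M₀" => Matrix (Fin n) (Fin n) F₀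
local notation "GUn" => Cfsg.GU n F q
local notation "PU" => Cfsg.PSU n F q

variable (c : Conj F q) (i : F₀ →+* F)

/-- The pairs matching an element of `GU` with a similarity of `B`. -/
def pairs (H : GL (Fin n) F) (B : Matrix (Fin n) (Fin n) F₀) : Subgroup (↥GUn × ↥(simA B)) where
  carrier := {p | ∃ a : Fˣ, (Units.val p.1.1 : M) * (Units.val H : M) =
    (a : F) • ((Units.val H : M) * (Units.val p.2.1 : M₀).map i)}
  one_mem' := ⟨1, by simp⟩
  mul_mem' {p p'} := by
    rintro ⟨a, ha⟩ ⟨a', ha'⟩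
    refine ⟨a * a', ?_⟩
    show (Units.val (p.1 * p'.1).1 : M) * _ = _ • (_ * (Units.val (p.2 * p'.2).1 : M₀).map i)
    rw [Subgroup.coe_mul, Subgroup.coe_mul, Units.val_mul, Units.val_mul, Matrix.mul_assoc, ha', Matrix.mul_smul,
      ← Matrix.mul_assoc, ha, Matrix.smul_mul, smul_smul, Units.val_mul, Matrix.map_mul, Matrix.mul_assoc,
      mul_comm (a' : F)]
  inv_mem' {p} := by
    rintro ⟨a, ha⟩
    refine ⟨a⁻¹, ?_⟩
    show (Units.val p.1⁻¹.1 : M) * _ = _ • (_ * (Units.val p.2⁻¹.1 : M₀).map i)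
    rw [Subgroup.coe_inv, Subgroup.coe_inv]
    have h1 : (Units.val p.1.1 : M) * ((Units.val H : M) * (Units.val p.2.1⁻¹ : M₀).map i) =
        (a : F) • (Units.val H : M) := by
      rw [← Matrix.mul_assoc, ha, Matrix.smul_mul, Matrix.mul_assoc, ← Matrix.map_mul, Units.mul_inv,
        Matrix.map_one _ (map_zero _) (map_one _), Matrix.mul_one]
    have h2 := congrArg (fun X : M => ((a⁻¹ : Fˣ) : F) • ((Units.val p.1.1⁻¹ : M) * X)) h1
    simp only [← Matrix.mul_assoc, Units.inv_mul, Matrix.one_mul, Matrix.mul_smul, smul_smul,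
      one_smul] at h2
    exact h2.symm

theorem mem_pairs_iff {H : GL (Fin n) F} {B : Matrix (Fin n) (Fin n) F₀} {p : ↥GUn × ↥(simA B)} :
    p ∈ pairs (q := q) i H B ↔ ∃ a : Fˣ, (Units.val p.1.1 : M) * (Units.val H : M) =
      (a : F) • ((Units.val H : M) * (Units.val p.2.1 : M₀).map i) := Iff.rfl

/-- The inner-diagonal preimage of the centraliser. -/
noncomputable abbrev centPre (g : Cfsg.GU n F q) : Subgroup (Cfsg.GU n F q) :=
  (Cfsg.inndiagPSU n F q ⊓ Subgroup.centralizer {semiAut g (conjE c)}).comap toAutHom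

variable (hF : Fintype.card F = q ^ 2) (hn : 3 ≤ n) (hs : ¬ (n = 3 ∧ q = 2))
  (hi : ∀ x, conjE c (i x) = i x) (hi' : ∀ y, conjE c y = y → ∃ x, i x = y)

include hF hn hs

theorem mem_centPre_iff (g h : ↥GUn) :
    h ∈ centPre c g ↔ ∃ l : F, (Units.val g.1 : M) * (Units.val h.1 : M).map (conjE c) =
      l • ((Units.val h.1 : M) * (Units.val g.1 : M)) := by
  rw [Subgroup.mem_comap, Subgroup.mem_inf, Subgroup.mem_centralizer_singleton_iff, toAutHom_apply,
    and_iff_right (semiAut_mem_inndiag h), ← conj_graph_iff c hF hn hs h g g, eq_mul_inv_iff_mul_eq, eq_comm]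

include hi hi'

theorem exists_pair_of_centPre {g : ↥GUn} {B : GL (Fin n) F₀} {H : GL (Fin n) F} {a₀ μ : Fˣ}
    (hA : (Units.val H : M)ᵀ * (Units.val H : M).map (conjE c) = (a₀ : F) • (Units.val B : M₀).map i)
    (hgH : (Units.val g.1 : M) * (Units.val H : M).map (conjE c) = (μ : F) • (Units.val H : M))
    (h : ↥GUn) (hh : h ∈ centPre c g) :
    ∃ P : ↥(simA (Units.val B : M₀)), (h, P) ∈ pairs i H (Units.val B) := by
  haveI : Nonempty (Fin n) := ⟨⟨0, by omega⟩⟩
  obtain ⟨l, hl⟩ := (mem_centPre_iff c hF hn hs g h).1 hh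
  set τ := conjE c
  set HM : M := Units.val H with hHM
  set hM : M := Units.val h.1
  set K : GL (Fin n) F := H⁻¹ * h.1 * H with hK
  have hK' : HM * (Units.val K : M) = hM * HM := by
    rw [hK, Units.val_mul, Units.val_mul, ← Matrix.mul_assoc, ← Matrix.mul_assoc, hHM, Units.mul_inv,
      Matrix.one_mul]
  have hKτ : (Units.val K : M).map τ = ((μ⁻¹ : Fˣ).val * l * μ) • (Units.val K : M) := by
    have h1 : (Units.val g.1 : M) * (HM * (Units.val K : M)).map τ = (l * μ) • (hM * HM) := by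
      rw [hK', Matrix.map_mul, ← Matrix.mul_assoc, hl, Matrix.smul_mul, Matrix.mul_assoc, hgH, Matrix.mul_smul,
        smul_smul]
    rw [Matrix.map_mul, ← Matrix.mul_assoc, hgH, Matrix.smul_mul, ← hK', ← Matrix.mul_smul,
      ← Matrix.mul_smul] at h1
    have h2 := congrArg ((Units.val H⁻¹ : M) * ·) h1
    simp only [← Matrix.mul_assoc, hHM, Units.inv_mul, Matrix.one_mul] at h2
    rw [mul_assoc, mul_smul, ← h2, smul_smul, Units.inv_mul, one_smul]
  obtain ⟨b, P, hP⟩ := exists_descent τ i hi' K (by omega) _ hKτ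
  have hhH : hM * HM = (b : F) • (HM * (Units.val P : M₀).map i) := by rw [← hK', hP, Matrix.mul_smul]
  have h3 : (a₀ : F) • (Units.val B : M₀).map i =
      ((b : F) * τ b * a₀) • ((Units.val P : M₀)ᵀ * (Units.val B : M₀) * (Units.val P : M₀)).map i := by
    rw [← hA]
    calc HMᵀ * HM.map τ = (hM * HM)ᵀ * (hM * HM).map τ := by
          rw [Matrix.transpose_mul, Matrix.map_mul, show HMᵀ * hMᵀ * (hM.map τ * HM.map τ) =
            HMᵀ * (hMᵀ * hM.map τ) * HM.map τ by simp only [Matrix.mul_assoc], (gu_iff c h.1).1 h.2,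
            Matrix.mul_one]
      _ = _ := by
          rw [hhH, map_smul_matrix, Matrix.map_mul, Matrix.transpose_smul, Matrix.transpose_mul,
            show ((Units.val P : M₀).map i).map τ = (Units.val P : M₀).map i by ext u w; exact hi _,
            Matrix.smul_mul, Matrix.mul_smul, smul_smul,
            show ((Units.val P : M₀).map i)ᵀ * HMᵀ * (HM.map τ * (Units.val P : M₀).map i) =
              ((Units.val P : M₀).map i)ᵀ * (HMᵀ * HM.map τ) * (Units.val P : M₀).map i by
              simp only [Matrix.mul_assoc], hA, Matrix.mul_smul, Matrix.smul_mul, smul_smul, Matrix.map_mul,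
            Matrix.map_mul, Matrix.transpose_map]
  have hne : (b : F) * τ b * a₀ ≠ 0 := mul_ne_zero (mul_ne_zero b.ne_zero ((map_ne_zero τ).2 b.ne_zero)) a₀.ne_zero
  obtain ⟨x, hx, hxB⟩ := exists_scalar_preimage i B.ne_zero (r := (a₀ : F) / ((b : F) * τ b * a₀))
    (Y := (Units.val P : M₀)ᵀ * (Units.val B : M₀) * (Units.val P : M₀)) (by
      rw [div_eq_mul_inv, mul_comm, ← smul_smul, h3, inv_smul_smul₀ hne])
  have hx0 : x ≠ 0 := by
    rintro rfl
    rw [map_zero] at hx
    exact div_ne_zero a₀.ne_zero hne hx.symm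
  exact ⟨⟨P, Units.mk0 x hx0, hxB⟩, b, hhH⟩

/-- Multiplier and determinant of a pair. -/
theorem pair_facts {B : GL (Fin n) F₀} {H : GL (Fin n) F} {a₀ : Fˣ}
    (hA : (Units.val H : M)ᵀ * (Units.val H : M).map (conjE c) = (a₀ : F) • (Units.val B : M₀).map i)
    {h : ↥GUn} {P : ↥(simA (Units.val B : M₀))} (hp : (h, P) ∈ pairs i H (Units.val B)) :
    ∃ (a : Fˣ) (d : F₀ˣ), (Units.val P.1 : M₀)ᵀ * (Units.val B : M₀) * (Units.val P.1 : M₀) =
        (d : F₀) • (Units.val B : M₀) ∧ (a : F) * c.σ a * i d = 1 ∧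
      (Units.val h.1 : M).det = (a : F) ^ n * i (Units.val P.1 : M₀).det := by
  obtain ⟨a, ha⟩ := hp
  obtain ⟨d, hd⟩ := P.2
  refine ⟨a, d, hd, ?_, ?_⟩
  · have hB0 : (Units.val B : M₀).map i ≠ 0 := by
      intro h0
      haveI : Nonempty (Fin n) := ⟨⟨0, by omega⟩⟩
      exact B.ne_zero (Matrix.map_injective i.injective (by simpa using h0))
    have h1 : (a₀ : F) • (Units.val B : M₀).map i =
        ((a : F) * c.σ a * i d * a₀) • (Units.val B : M₀).map i := by
      rw [← hA]
      calc (Units.val H : M)ᵀ * (Units.val H : M).map (conjE c)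
          = ((Units.val h.1 : M) * Units.val H)ᵀ * ((Units.val h.1 : M) * Units.val H).map (conjE c) := by
            rw [Matrix.transpose_mul, Matrix.map_mul, show (Units.val H : M)ᵀ * (Units.val h.1 : M)ᵀ *
              ((Units.val h.1 : M).map (conjE c) * (Units.val H : M).map (conjE c)) =
              (Units.val H : M)ᵀ * ((Units.val h.1 : M)ᵀ * (Units.val h.1 : M).map (conjE c)) *
                (Units.val H : M).map (conjE c) by simp only [Matrix.mul_assoc], (gu_iff c h.1).1 h.2,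
              Matrix.mul_one]
        _ = _ := by
            rw [show (Units.val h.1 : M) * Units.val H = _ from ha, map_smul_matrix, Matrix.map_mul,
              Matrix.transpose_smul, Matrix.transpose_mul,
              show ((Units.val P.1 : M₀).map i).map (conjE c) = (Units.val P.1 : M₀).map i by ext u w; exact hi _,
              Matrix.smul_mul, Matrix.mul_smul, smul_smul,
              show ((Units.val P.1 : M₀).map i)ᵀ * (Units.val H : M)ᵀ *
                  ((Units.val H : M).map (conjE c) * (Units.val P.1 : M₀).map i) =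
                ((Units.val P.1 : M₀).map i)ᵀ * ((Units.val H : M)ᵀ * (Units.val H : M).map (conjE c)) *
                  (Units.val P.1 : M₀).map i by simp only [Matrix.mul_assoc],
              hA, Matrix.mul_smul, Matrix.smul_mul, smul_smul, ← Matrix.transpose_map, ← Matrix.map_mul,
              ← Matrix.map_mul, hd, map_smul_matrix₀, smul_smul, conjE_apply]
            congr 1
            ring
    have h2 := smul_left_injective F hB0 h1
    exact (mul_right_cancel₀ a₀.ne_zero ((one_mul _).trans h2)).symm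
  · have h1 := congrArg Matrix.det ha
    rw [Matrix.det_mul, Matrix.det_smul, Matrix.det_mul, Fintype.card_fin, ← RingHom.mapMatrix_apply,
      ← RingHom.map_det] at h1
    exact mul_right_cancel₀ ((Matrix.isUnit_iff_isUnit_det _).1 H.isUnit).ne_zero (by linear_combination h1)

/-- From a similarity to an element of the centraliser. -/
theorem exists_pair_of_sim {g : ↥GUn} {B : GL (Fin n) F₀} {H : GL (Fin n) F} {a₀ μ : Fˣ}
    (hA : (Units.val H : M)ᵀ * (Units.val H : M).map (conjE c) = (a₀ : F) • (Units.val B : M₀).map i)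
    (hgH : (Units.val g.1 : M) * (Units.val H : M).map (conjE c) = (μ : F) • (Units.val H : M))
    (P : GL (Fin n) F₀) (d : F₀ˣ)
    (hd : (Units.val P : M₀)ᵀ * (Units.val B : M₀) * (Units.val P : M₀) = (d : F₀) • (Units.val B : M₀))
    (a : Fˣ) (had : (a : F) * c.σ a * i d = 1) :
    ∃ h : ↥GUn, h ∈ centPre c g ∧ (Units.val h.1 : M).det = (a : F) ^ n * i (Units.val P : M₀).det ∧
      (h, (⟨P, d, hd⟩ : ↥(simA (Units.val B : M₀)))) ∈ pairs i H (Units.val B) := by
  set τ := conjE c
  set HM : M := Units.val H with hHM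
  set h0 : GL (Fin n) F := Units.map (Matrix.scalar (Fin n)).toMonoidHom a *
    (H * Matrix.GeneralLinearGroup.map i P * H⁻¹) with hh0
  set PM : M := (Units.val P : M₀).map i with hPM
  have hPτ : PM.map τ = PM := by ext u w; exact hi _
  have hhH : (Units.val h0 : M) * HM = (a : F) • (HM * PM) := by
    rw [hh0, Units.val_mul, Units.val_mul, Units.val_mul]
    show Matrix.scalar (Fin n) (a : F) * (HM * PM * (Units.val H⁻¹ : M)) * HM = _
    rw [Matrix.scalar_apply, ← Matrix.smul_one_eq_diagonal, Matrix.smul_mul, Matrix.one_mul, Matrix.smul_mul,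
      Matrix.mul_assoc _ _ HM, hHM, Units.inv_mul, Matrix.mul_one]
  have hmem : h0 ∈ GUn := by
    rw [gu_iff c]
    have h1 : HMᵀ * ((Units.val h0 : M)ᵀ * (Units.val h0 : M).map τ) * HM.map τ = HMᵀ * 1 * HM.map τ := by
      rw [Matrix.mul_one, show HMᵀ * ((Units.val h0 : M)ᵀ * (Units.val h0 : M).map τ) * HM.map τ =
        ((Units.val h0 : M) * HM)ᵀ * ((Units.val h0 : M) * HM).map τ by
          rw [Matrix.transpose_mul, Matrix.map_mul]; simp only [Matrix.mul_assoc], hhH, map_smul_matrix,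
        Matrix.map_mul, hPτ, Matrix.transpose_smul, Matrix.transpose_mul, Matrix.smul_mul, Matrix.mul_smul,
        smul_smul, show PMᵀ * HMᵀ * (HM.map τ * PM) = PMᵀ * (HMᵀ * HM.map τ) * PM by
          simp only [Matrix.mul_assoc], hA, Matrix.mul_smul, Matrix.smul_mul, smul_smul, hPM,
        ← Matrix.transpose_map, ← Matrix.map_mul, ← Matrix.map_mul, hd, map_smul_matrix₀, smul_smul]
      congr 1
      show (a : F) * c.σ a * a₀ * i d = a₀
      linear_combination (a₀ : F) * had
    have h2 : IsUnit HMᵀ := by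
      rw [Matrix.isUnit_iff_isUnit_det, Matrix.det_transpose]
      exact (Matrix.isUnit_iff_isUnit_det _).1 H.isUnit
    exact h2.mul_left_cancel ((gmap τ H).isUnit.mul_right_cancel h1)
  refine ⟨⟨h0, hmem⟩, (mem_centPre_iff c hF hn hs g _).2 ⟨τ a / a, ?_⟩, ?_, a, hhH⟩
  · refine (gmap τ H).isUnit.mul_right_cancel ?_
    show (Units.val g.1 : M) * (Units.val h0 : M).map τ * HM.map τ = _ * HM.map τ
    rw [Matrix.mul_assoc, ← Matrix.map_mul, hhH, map_smul_matrix, Matrix.map_mul, hPτ, Matrix.mul_smul,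
      ← Matrix.mul_assoc, hgH, Matrix.smul_mul, smul_smul, Matrix.smul_mul, Matrix.mul_assoc, hgH,
      Matrix.mul_smul, hhH, smul_smul, smul_smul]
    congr 1
    field_simp [a.ne_zero]
  · have h1 := congrArg Matrix.det hhH
    rw [Matrix.det_mul, Matrix.det_smul, Matrix.det_mul, Fintype.card_fin, hPM, ← RingHom.mapMatrix_apply,
      ← RingHom.map_det] at h1
    exact mul_right_cancel₀ ((Matrix.isUnit_iff_isUnit_det _).1 H.isUnit).ne_zero
      (show (Units.val h0 : M).det * HM.det = (a : F) ^ n * i (Units.val P : M₀).det * HM.det by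
        linear_combination h1)

/-- The centraliser of a graph automorphism is the projective similarity group of its form. -/
theorem nonempty_centralizer_graph_equiv {g : ↥GUn} {B : GL (Fin n) F₀} (hg : IsModel c i g (Units.val B)) :
    Nonempty (↥(Cfsg.inndiagPSU n F q ⊓ Subgroup.centralizer {semiAut g (conjE c)}) ≃*
      Cfsg.projQuot (simA (Units.val B : M₀))) := by
  obtain ⟨H, a₀, μ, hA, hgH⟩ := hg
  haveI : Nonempty (Fin n) := ⟨⟨0, by omega⟩⟩
  haveI : Finite F₀ := Finite.of_injective _ i.injective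
  set Pr := pairs (q := q) i H (Units.val B : M₀) with hPr
  let sc : Subgroup ↥(simA (Units.val B : M₀)) :=
    (Cfsg.Geo.scalars (Fin n) F₀).subgroupOf (simA (Units.val B : M₀))
  let f2 : ↥Pr →* Cfsg.projQuot (simA (Units.val B : M₀)) :=
    (QuotientGroup.mk' sc).comp ((MonoidHom.snd ↥GUn ↥(simA (Units.val B : M₀))).comp Pr.subtype)
  let f1 : ↥Pr →* MulAut PU := toAutHom.comp ((MonoidHom.fst ↥GUn ↥(simA (Units.val B : M₀))).comp Pr.subtype)
  have hrange : f1.range = Cfsg.inndiagPSU n F q ⊓ Subgroup.centralizer {semiAut g (conjE c)} := by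
    apply le_antisymm
    · rintro _ ⟨⟨⟨h, P⟩, a, ha⟩, rfl⟩
      obtain ⟨a', d, hd, had, -⟩ := pair_facts c i hF hn hs hi hi' hA (⟨a, ha⟩ : (h, P) ∈ Pr)
      have hh : h ∈ centPre c g := by
        refine (mem_centPre_iff c hF hn hs g h).2 ⟨conjE c a / a, ?_⟩
        refine (gmap (conjE c) H).isUnit.mul_right_cancel ?_
        show (Units.val g.1 : M) * (Units.val h.1 : M).map (conjE c) * (Units.val H : M).map (conjE c) =
          _ * (Units.val H : M).map (conjE c)
        rw [Matrix.mul_assoc, ← Matrix.map_mul, show (Units.val h.1 : M) * Units.val H = _ from ha, map_smul_matrix,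
          Matrix.map_mul, show ((Units.val P.1 : M₀).map i).map (conjE c) = (Units.val P.1 : M₀).map i by
            ext u w; exact hi _, Matrix.mul_smul, ← Matrix.mul_assoc, hgH, Matrix.smul_mul, smul_smul,
          Matrix.smul_mul, Matrix.mul_assoc, hgH, Matrix.mul_smul, show (Units.val h.1 : M) * Units.val H = _ from ha,
          smul_smul, smul_smul]
        congr 1
        field_simp [a.ne_zero]
      exact hh
    · intro β hβ
      obtain ⟨h, rfl⟩ := mem_inndiag_iff.1 hβ.1
      obtain ⟨P, hP⟩ := exists_pair_of_centPre c i hF hn hs hi hi' hA hgH h (Subgroup.mem_comap.2 hβ)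
      exact ⟨⟨(h, P), hP⟩, rfl⟩
  have hsurj : Function.Surjective f2 := by
    intro x
    obtain ⟨⟨P, d, hd⟩, rfl⟩ := QuotientGroup.mk'_surjective sc x
    obtain ⟨a, ha⟩ := c.exists_norm (d := i (d : F₀)⁻¹) (hi _)
    have ha0 : a ≠ 0 := fun h0 => by
      rw [h0, zero_mul] at ha
      exact (map_ne_zero i).2 (inv_ne_zero d.ne_zero) ha.symm
    obtain ⟨h, -, -, hp⟩ := exists_pair_of_sim c i hF hn hs hi hi' hA hgH P d hd (Units.mk0 a ha0) (by
      rw [Units.val_mk0, ha, ← map_mul, inv_mul_cancel₀ d.ne_zero, map_one])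
    exact ⟨⟨_, hp⟩, rfl⟩
  have hker : f1.ker = f2.ker := by
    ext ⟨⟨h, P⟩, a, ha⟩
    show toAutHom h = 1 ↔ QuotientGroup.mk' sc P = 1
    rw [← MonoidHom.mem_ker, ← MonoidHom.mem_ker, toAutHom_ker hF hn hs, QuotientGroup.ker_mk',
      Subgroup.mem_subgroupOf, Subgroup.mem_subgroupOf, Cfsg.Geo.mem_scalars_iff, Cfsg.Geo.mem_scalars_iff]
    change (Units.val h.1 : M) * Units.val H = _ at ha
    constructor
    · rintro ⟨z, hz⟩
      rw [hz, Matrix.smul_mul, Matrix.one_mul] at ha
      have h1 := congrArg (fun X : M => (Units.val H⁻¹ : M) * X) ha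
      simp only [Matrix.mul_smul, ← Matrix.mul_assoc, Units.inv_mul, Matrix.one_mul] at h1
      let o : Fin n := ⟨0, by omega⟩
      have hE : ∀ k l, i ((Units.val P.1 : M₀) k l) = if k = l then (z : F) / a else 0 := fun k l => by
        have h2 := congrFun (congrFun h1 k) l
        simp only [Matrix.smul_apply, Matrix.one_apply, Matrix.map_apply, smul_eq_mul, mul_ite, mul_one,
          mul_zero] at h2
        by_cases hkl : k = l
        · rw [if_pos hkl] at h2 ⊢; rw [h2, mul_div_cancel_left₀ _ a.ne_zero]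
        · rw [if_neg hkl] at h2 ⊢; exact (mul_eq_zero.1 h2.symm).resolve_left a.ne_zero
      have h0 : (Units.val P.1 : M₀) o o ≠ 0 := fun h0 => div_ne_zero z.ne_zero a.ne_zero (by
        have := hE o o; rw [h0, map_zero, if_pos rfl] at this; exact this.symm)
      refine ⟨Units.mk0 _ h0, Matrix.ext fun k l => i.injective ?_⟩
      rw [hE, Units.val_mk0, Matrix.smul_apply, smul_eq_mul, map_mul, hE, if_pos rfl, Matrix.one_apply]
      split <;> simp
    · rintro ⟨z, hz⟩
      refine ⟨a * Units.map (i : F₀ →* F) z, ?_⟩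
      rw [hz, map_smul_matrix₀, Matrix.map_one _ (map_zero _) (map_one _), Matrix.mul_smul, Matrix.mul_one,
        smul_smul] at ha
      have h1 := congrArg (fun X : M => X * (Units.val H⁻¹ : M)) ha
      simp only [Matrix.smul_mul, Matrix.mul_assoc, Units.mul_inv, Matrix.mul_one] at h1
      exact h1
  exact ⟨((MulEquiv.subgroupCongr hrange).symm.trans (QuotientGroup.quotientKerEquivRange f1).symm).trans
    ((QuotientGroup.quotientMulEquivOfEq hker).trans (QuotientGroup.quotientKerEquivOfSurjective f2 hsurj))⟩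

end PSUAut

end CfsgLib.ReflectionsSpinor
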