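import Cfsg.Agent.Lib.ReflectionsSpinor.PSUGraphCent

/-!
# Splitting of the classes of involutory graph automorphisms of `PSU_n(q)`
-/

set_option autoImplicit false
set_option linter.unusedSectionVars false

open Matrix
open CfsgLib.ClassicalForms

namespace CfsgLib.ReflectionsSpinor.PSUAut

universe u v

variable {F : Type u} [Field F] [Fintype F] {n q : ℕ} {F₀ : Type v} [Field F₀]

local notation "M" => Matrix (Fin n) (Fin n) F
local notation "M₀" => Matrix (Fin n) (Fin n) F₀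
local notation "GUn" => Cfsg.GU n F q
local notation "PU" => Cfsg.PSU n F q
local notation "U1" => MonoidHom.ker (powMonoidHom (q + 1) : Fˣ →* Fˣ)

variable (c : Conj F q)

/-- The determinant with values in the norm-one group. -/
noncomputable def detU : ↥GUn →* ↥U1 :=
  (guDet n F q).codRestrict U1 fun g => by
    rw [MonoidHom.mem_ker, powMonoidHom_apply, Units.ext_iff, Units.val_pow_eq_pow_val, Units.val_one,
      ← c.mul_conj]
    exact det_gu_norm c g

theorem coe_detU (g : ↥GUn) : ((detU c g).1 : F) = (Units.val g.1 : M).det := rfl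

theorem mem_U1_iff (x : Fˣ) : x ∈ U1 ↔ (x : F) * c.σ x = 1 := by
  rw [MonoidHom.mem_ker, powMonoidHom_apply, Units.ext_iff, Units.val_pow_eq_pow_val, Units.val_one, c.mul_conj]

include c in
theorem card_U1 (hF : Fintype.card F = q ^ 2) : Nat.card ↥U1 = q + 1 := by
  refine Eq.trans ?_ (card_norm_one (show Nat.card F = q ^ 2 by rw [Nat.card_eq_fintype_card, hF]))
  exact Nat.card_congr (Equiv.subtypeEquivRight fun z => by rw [MonoidHom.mem_ker, powMonoidHom_apply])

include c in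
theorem index_range_pow_U1 (hF : Fintype.card F = q ^ 2) (k : ℕ) :
    (powMonoidHom k : ↥U1 →* ↥U1).range.index = Nat.gcd k (q + 1) := by
  rw [IsCyclic.index_powMonoidHom_range, card_U1 c hF, Nat.gcd_comm]

/-- Hilbert's Theorem 90 for the conjugation. -/
theorem exists_div_conj_eq {u : F} (hu : u * c.σ u = 1) : ∃ a : Fˣ, (a : F) = u * c.σ a := by
  have hx : ∃ x : F, x + u * c.σ x ≠ 0 := by
    by_contra hno
    push Not at hno
    have h1 : u = -1 := by
      have h := hno 1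
      rw [map_one, mul_one] at h
      linear_combination h
    exact c.ne (RingHom.ext fun x => by
      have h := hno x
      rw [h1] at h
      show c.σ x = x
      linear_combination -h)
  obtain ⟨x, hx⟩ := hx
  refine ⟨Units.mk0 _ hx, ?_⟩
  show x + u * c.σ x = u * c.σ (x + u * c.σ x)
  rw [map_add, map_mul, c.invol]
  linear_combination -(x) * hu

variable (hF : Fintype.card F = q ^ 2) (hn : 3 ≤ n) (hs : ¬ (n = 3 ∧ q = 2))
include hF hn hs

/-- The split count of a class, computed by determinants. -/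
theorem splitClassCount_eq_index (x : MulAut PU) :
    Cfsg.splitClassCount (Cfsg.inndiagPSU n F q) (Cfsg.Inn PU) x =
      (((Cfsg.inndiagPSU n F q ⊓ Subgroup.centralizer {x}).comap toAutHom).map (detU c) ⊔
        (powMonoidHom n : ↥U1 →* ↥U1).range).index := by
  classical
  set C := Cfsg.inndiagPSU n F q ⊓ Subgroup.centralizer {x} with hC
  set G₀ := C.comap (toAutHom (n := n) (F := F) (q := q)) with hG₀
  have hCmap : G₀.map toAutHom = C := by
    rw [hG₀, Subgroup.map_comap_eq, ← inndiag_eq_range, inf_eq_right.2 inf_le_left]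
  rw [splitClassCount_eq_relIndex inn_le_inndiag (fun h _ k hk => inn_conj hk) _, ← hC, ← hCmap,
    inndiag_eq_range, ← Subgroup.index_comap]
  let i₀ : Fin n := ⟨0, by omega⟩
  have hdiag : ∀ u : ↥U1, ∃ g : ↥GUn, detU c g = u := by
    intro u
    obtain ⟨g, hg⟩ := exists_diag_gu c (d := fun k => if k = i₀ then (u.1 : F) else 1) fun k => by
      split
      · exact (mem_U1_iff c _).1 u.2
      · rw [map_one, mul_one]
    refine ⟨g, Subtype.ext (Units.ext ?_)⟩
    rw [coe_detU, hg, Matrix.det_diagonal]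
    simp
  have hinn : Cfsg.Inn PU = ((suToGU (n := n) (F := F) (q := q)).range).map toAutHom := by
    ext β
    constructor
    · rintro ⟨k, rfl⟩
      obtain ⟨s, rfl⟩ := cl_surjective k
      exact ⟨_, ⟨s, rfl⟩, (inner_eq_semiAut s).symm⟩
    · rintro ⟨_, ⟨s, rfl⟩, rfl⟩
      exact ⟨cl s, inner_eq_semiAut s⟩
  have hsc : ∀ u : ↥U1, ∃ g : ↥GUn, g.1 = Units.map (Matrix.scalar (Fin n)).toMonoidHom u.1 ∧
      detU c g = powMonoidHom n u := fun u => by
    refine ⟨⟨_, (scalar_mem_GU_iff c (by omega) u.1).2 ((mem_U1_iff c _).1 u.2)⟩, rfl, Subtype.ext (Units.ext ?_)⟩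
    show Matrix.det (Matrix.scalar (Fin n) (u.1 : F)) = _
    simp [Matrix.scalar_apply, Matrix.det_diagonal]
  have hcomap : (Cfsg.Inn PU ⊔ G₀.map toAutHom).comap (toAutHom (n := n) (F := F) (q := q)) =
      (G₀.map (detU c) ⊔ (powMonoidHom n : ↥U1 →* ↥U1).range).comap (detU c) := by
    rw [hinn, ← Subgroup.map_sup, Subgroup.comap_map_eq, toAutHom_ker hF hn hs]
    apply le_antisymm
    · refine sup_le (sup_le ?_ ?_) ?_
      · rintro _ ⟨s, rfl⟩
        rw [Subgroup.mem_comap, show detU c (suToGU s) = 1 from Subtype.ext (guDet_suToGU s)]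
        exact Subgroup.one_mem _
      · intro h hh
        exact Subgroup.mem_sup_left ⟨h, hh, rfl⟩
      · intro z hz
        obtain ⟨a, ha⟩ := (Subgroup.mem_subgroupOf.1 hz)
        have haU : a ∈ U1 := by
          refine (mem_U1_iff c _).2 ((scalar_mem_GU_iff (n := n) c (by omega) a).1 ?_)
          rw [show Units.map (Matrix.scalar (Fin n)).toMonoidHom a = z.1 from ha]
          exact z.2
        obtain ⟨g, hg1, hg2⟩ := hsc ⟨a, haU⟩
        have : z = g := Subtype.ext (ha.symm.trans hg1.symm)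
        rw [this, Subgroup.mem_comap, hg2]
        exact Subgroup.mem_sup_right ⟨_, rfl⟩
    · intro g hg
      obtain ⟨_, ⟨h, hh, rfl⟩, _, ⟨a, rfl⟩, he⟩ := Subgroup.mem_sup.1 (Subgroup.mem_comap.1 hg)
      obtain ⟨sa, hsa1, hsa2⟩ := hsc a
      have hs' : detU c ((h * sa)⁻¹ * g) = 1 := by
        rw [map_mul, map_inv, map_mul, hsa2, ← he]; exact inv_mul_cancel _
      have hg' : g = h * sa * ((h * sa)⁻¹ * g) := (mul_inv_cancel_left _ _).symm
      rw [hg']
      refine mul_mem (mul_mem (Subgroup.mem_sup_left (Subgroup.mem_sup_right hh))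
        (Subgroup.mem_sup_right (Subgroup.mem_subgroupOf.2 (hsa1 ▸ ⟨a.1, rfl⟩))))
        (Subgroup.mem_sup_left (Subgroup.mem_sup_left ?_))
      rw [range_suToGU, MonoidHom.mem_ker]
      exact congrArg Subtype.val hs'
  rw [hcomap, Subgroup.index_comap_of_surjective _ hdiag]

variable (i : F₀ →+* F) (hi : ∀ x, conjE c (i x) = i x) (hi' : ∀ y, conjE c y = y → ∃ x, i x = y)
include hi hi'

/-- The determinants of the centraliser. -/
theorem mem_map_det_iff {g : ↥GUn} {B : GL (Fin n) F₀} (hg : IsModel c i g (Units.val B)) (δ : ↥U1) :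
    δ ∈ (centPre c g).map (detU c) ↔ ∃ (P : GL (Fin n) F₀) (d : F₀ˣ) (a : Fˣ),
      (Units.val P : M₀)ᵀ * (Units.val B : M₀) * (Units.val P : M₀) = (d : F₀) • (Units.val B : M₀) ∧
        (a : F) * c.σ a * i d = 1 ∧ (δ.1 : F) = (a : F) ^ n * i (Units.val P : M₀).det := by
  obtain ⟨H, a₀, μ, hA, hgH⟩ := hg
  constructor
  · rintro ⟨h, hh, rfl⟩
    obtain ⟨P, hP⟩ := exists_pair_of_centPre c i hF hn hs hi hi' hA hgH h hh
    obtain ⟨a, d, h1, h2, h3⟩ := pair_facts c i hF hn hs hi hi' hA hP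
    exact ⟨P.1, d, a, h1, h2, h3⟩
  · rintro ⟨P, d, a, h1, h2, h3⟩
    obtain ⟨h, hh, hdet, -⟩ := exists_pair_of_sim c i hF hn hs hi hi' hA hgH P d h1 a h2
    exact ⟨h, hh, Subtype.ext (Units.ext (hdet.trans h3.symm))⟩

theorem exists_mult (u : ↥U1) : ∃ (a : Fˣ) (d : F₀ˣ), (a : F) * c.σ a * i d = 1 ∧
    (a : F) ^ 2 * i d = (u.1 : F) := by
  obtain ⟨a, ha⟩ := exists_div_conj_eq c ((mem_U1_iff c _).1 u.2)
  have hN : (a : F) * c.σ a ≠ 0 := mul_ne_zero a.ne_zero (fun h => a.ne_zero (c.eq_zero h))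
  obtain ⟨d, hd⟩ := hi' (((a : F) * c.σ a)⁻¹) (by
    show c.σ _ = _
    rw [map_inv₀, map_mul, c.invol, mul_comm])
  have hd0 : d ≠ 0 := fun h0 => inv_ne_zero hN (by rw [← hd, h0, map_zero])
  refine ⟨a, Units.mk0 d hd0, by rw [Units.val_mk0, hd, mul_inv_cancel₀ hN], ?_⟩
  rw [Units.val_mk0, hd, mul_inv, sq]
  field_simp [a.ne_zero, fun h => a.ne_zero (c.eq_zero h)]
  linear_combination ha

/-- When every determinant of a similarity is forced. -/
theorem split_graph_of_pow {g : ↥GUn} {B : GL (Fin n) F₀} (hg : IsModel c i g (Units.val B))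
    (hpow : ∀ δ d : F₀ˣ, δ ^ 2 = d ^ n → ∃ s : F₀ˣ, s ^ 2 = d ∧ s ^ n = δ) :
    Cfsg.splitClassCount (Cfsg.inndiagPSU n F q) (Cfsg.Inn PU) (semiAut g (conjE c)) = Nat.gcd n (q + 1) := by
  rw [splitClassCount_eq_index c hF hn hs, ← index_range_pow_U1 c hF n]
  congr 1
  rw [sup_eq_right]
  intro δ hδ
  obtain ⟨P, d, a, h1, h2, h3⟩ := (mem_map_det_iff c hF hn hs i hi hi' hg δ).1 hδ
  have hsq := det_sq_of_mem_simA ((Matrix.isUnit_iff_isUnit_det _).1 B.isUnit).ne_zero h1
  rw [Fintype.card_fin] at hsq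
  obtain ⟨s, hs2, hsn⟩ := hpow _ _ hsq
  set as : Fˣ := a * Units.map (i : F₀ →* F) s
  have has : as ∈ U1 := by
    rw [mem_U1_iff c]
    show (a : F) * i (s : F₀) * c.σ ((a : F) * i (s : F₀)) = 1
    rw [map_mul, show c.σ (i (s : F₀)) = i (s : F₀) from hi _, mul_mul_mul_comm, ← map_mul,
      ← Units.val_mul, ← sq, hs2]
    exact h2
  refine ⟨⟨as, has⟩, Subtype.ext (Units.ext ?_)⟩
  show ((as ^ n : Fˣ) : F) = (δ.1 : F)
  rw [h3, Units.val_pow_eq_pow_val, ← Matrix.GeneralLinearGroup.val_det_apply, ← hsn, Units.val_pow_eq_pow_val,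
    map_pow, ← mul_pow]
  rfl

/-- Symplectic type. -/
theorem split_graph_symp {g : ↥GUn} {B : GL (Fin n) F₀} (hg : IsModel c i g (Units.val B)) {m : ℕ}
    (hnm : n = 2 * m) (e : Fin m ⊕ Fin m ≃ Fin n)
    (hB : ScalCong (Units.val B : M₀) (Matrix.reindex e e (Matrix.J (Fin m) F₀))) :
    Cfsg.splitClassCount (Cfsg.inndiagPSU n F q) (Cfsg.Inn PU) (semiAut g (conjE c)) = Nat.gcd m (q + 1) := by
  rw [splitClassCount_eq_index c hF hn hs, ← index_range_pow_U1 c hF m]
  congr 1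
  apply le_antisymm
  · refine sup_le ?_ ?_
    · intro δ hδ
      obtain ⟨P, d, a, h1, h2, h3⟩ := (mem_map_det_iff c hF hn hs i hi hi' hg δ).1 hδ
      rw [det_sim_symp e hB d.ne_zero h1] at h3
      set b : Fˣ := a * a * Units.map (i : F₀ →* F) d
      have hb : b ∈ U1 := by
        rw [mem_U1_iff c]
        show (a : F) * a * i (d : F₀) * c.σ ((a : F) * a * i (d : F₀)) = 1
        rw [map_mul, map_mul, show c.σ (i (d : F₀)) = i (d : F₀) from hi _]
        linear_combination ((a : F) * c.σ a * i d + 1) * h2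
      refine ⟨⟨b, hb⟩, Subtype.ext (Units.ext ?_)⟩
      show ((b ^ m : Fˣ) : F) = (δ.1 : F)
      rw [h3, Units.val_pow_eq_pow_val, map_pow, hnm]
      show ((a : F) * a * i (d : F₀)) ^ m = _
      rw [mul_pow, ← pow_two, ← pow_mul]
    · rintro _ ⟨u, rfl⟩
      exact ⟨u ^ 2, by simp [hnm, ← pow_mul]⟩
  · rintro _ ⟨u, rfl⟩
    refine Subgroup.mem_sup_left ((mem_map_det_iff c hF hn hs i hi hi' hg _).2 ?_)
    obtain ⟨a, d, h2, hu⟩ := exists_mult c hF hn hs i hi hi' u
    obtain ⟨P, hP⟩ := exists_sim_symp e hB (d : F₀)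
    have hdetP := det_sim_symp e hB d.ne_zero hP
    have hPu : IsUnit P.det := by rw [hdetP]; exact (d ^ m).isUnit
    refine ⟨Matrix.GeneralLinearGroup.mk'' P hPu, d, a, hP, h2, ?_⟩
    show ((u.1 ^ m : Fˣ) : F) = (a : F) ^ n * i P.det
    rw [Units.val_pow_eq_pow_val, ← hu, mul_pow, ← pow_mul, ← hnm, hdetP, map_pow]

/-- Orthogonal type in even dimension. -/
theorem split_graph_symm [Finite F₀] (h2 : (2 : F₀) ≠ 0) (hodd : Odd q) {g : ↥GUn} {B : GL (Fin n) F₀}
    (hg : IsModel c i g (Units.val B)) {m : ℕ} (hnm : n = 2 * m)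
    (hB : (Units.val B : M₀)ᵀ = (Units.val B : M₀)) :
    Cfsg.splitClassCount (Cfsg.inndiagPSU n F q) (Cfsg.Inn PU) (semiAut g (conjE c)) =
      Nat.gcd n (q + 1) / 2 := by
  rw [splitClassCount_eq_index c hF hn hs]
  set R2 := (powMonoidHom 2 : ↥U1 →* ↥U1).range with hR2
  set Pn := (powMonoidHom n : ↥U1 →* ↥U1).range with hPn
  have heq : (centPre c g).map (detU c) ⊔ Pn = Pn.comap (powMonoidHom 2) := by
    apply le_antisymm
    · refine sup_le ?_ fun x hx => Subgroup.pow_mem _ hx 2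
      intro δ hδ
      obtain ⟨P, d, a, h1, h2', h3⟩ := (mem_map_det_iff c hF hn hs i hi hi' hg δ).1 hδ
      have hsq := det_sq_of_mem_simA ((Matrix.isUnit_iff_isUnit_det _).1 B.isUnit).ne_zero h1
      rw [Fintype.card_fin] at hsq
      set b : Fˣ := a * a * Units.map (i : F₀ →* F) d
      have hb : b ∈ U1 := by
        rw [mem_U1_iff c]
        show (a : F) * a * i (d : F₀) * c.σ ((a : F) * a * i (d : F₀)) = 1
        rw [map_mul, map_mul, show c.σ (i (d : F₀)) = i (d : F₀) from hi _]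
        linear_combination ((a : F) * c.σ a * i d + 1) * h2'
      refine ⟨⟨b, hb⟩, Subtype.ext (Units.ext ?_)⟩
      show ((b ^ n : Fˣ) : F) = ((δ.1 ^ 2 : Fˣ) : F)
      have h4 := congrArg (fun z : F₀ˣ => i (z : F₀)) hsq
      simp only [Units.val_pow_eq_pow_val, map_pow, Matrix.GeneralLinearGroup.val_det_apply] at h4
      rw [Units.val_pow_eq_pow_val, Units.val_pow_eq_pow_val, h3, mul_pow, h4]
      show ((a : F) * a * i (d : F₀)) ^ n = _
      rw [mul_pow, mul_pow]
      ring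
    · rintro δ ⟨y, hy⟩
      change y ^ n = δ ^ 2 at hy
      refine Subgroup.mem_sup_left ((mem_map_det_iff c hF hn hs i hi hi' hg _).2 ?_)
      obtain ⟨a, d, h2', hu⟩ := exists_mult c hF hn hs i hi hi' y
      have hy' : (δ.1 : F) ^ 2 = (y.1 : F) ^ n := by
        have := congrArg (fun z : ↥U1 => (z.1 : F)) hy
        simpa using this.symm
      have hsign : ∃ χ : F₀ˣ, χ ^ 2 = 1 ∧ (δ.1 : F) = i (χ : F₀) * (y.1 : F) ^ m := by
        rw [hnm, mul_comm 2 m, pow_mul] at hy'
        rcases eq_or_eq_neg_of_sq_eq_sq _ _ hy' with h | h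
        · exact ⟨1, one_pow _, by rw [Units.val_one, map_one, one_mul, h]⟩
        · exact ⟨-1, by simp, by rw [Units.val_neg, Units.val_one, map_neg, map_one, h, neg_one_mul]⟩
      obtain ⟨χ, hχ, hδ⟩ := hsign
      obtain ⟨P, hP, hdetP⟩ := exists_sim_symm h2 (by omega) hnm B hB d (χ * d ^ m) (by
        rw [mul_pow, hχ, one_mul, ← pow_mul, mul_comm m 2, ← hnm])
      refine ⟨P, d, a, hP, h2', ?_⟩
      rw [← Matrix.GeneralLinearGroup.val_det_apply, hdetP, Units.val_mul, Units.val_pow_eq_pow_val, map_mul,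
        map_pow, hδ, ← hu, mul_pow, ← pow_mul, ← hnm]
      ring
  rw [heq, Subgroup.index_comap]
  have hP2 : Pn ≤ R2 := by
    rintro _ ⟨u, rfl⟩
    exact ⟨u ^ m, by simp [hnm, ← pow_mul, mul_comm]⟩
  have h := Subgroup.relIndex_mul_index hP2
  rw [index_range_pow_U1 c hF n, index_range_pow_U1 c hF 2, Nat.gcd_eq_left (even_iff_two_dvd.1 hodd.add_one)] at h
  rw [← h, Nat.mul_div_cancel _ two_pos]

end CfsgLib.ReflectionsSpinor.PSUAut
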