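import Cfsg.Agent.Lib.ReflectionsSpinor.PSUGraphSplit
import Cfsg.Agent.Lib.ReflectionsSpinor.GraphClassOdd
import Cfsg.Agent.Lib.ReflectionsSpinor.GraphEven
import Cfsg.Agent.Lib.ReflectionsSpinor.GraphCount

/-!
# The types of involutory graph automorphisms of `PSU_n(q)`
-/

set_option autoImplicit false
set_option linter.unusedSectionVars false

open Matrix
open CfsgLib.ClassicalForms

namespace CfsgLib.ReflectionsSpinor

universe u v

/-- The projective similarity group of a symmetric form is not the projective symplectic one. -/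
theorem not_projQuot_symm_PGSp {K : Type v} [Field K] [Fintype K] {p f : ℕ} [Fact p.Prime]
    (hF : Fintype.card K = p ^ f) (hf : 1 ≤ f) (hp : p ≠ 2) {n m : ℕ}
    (hm : 2 ≤ m) (hnm : n = 2 * m) (A : GL (Fin n) K)
    (hA : (A : Matrix (Fin n) (Fin n) K)ᵀ = (A : Matrix (Fin n) (Fin n) K)) :
    ¬Nonempty (Cfsg.projQuot (simA (A : Matrix (Fin n) (Fin n) K)) ≃* Cfsg.PGSp m K) := by
  rintro ⟨E0⟩
  have h2 := two_ne_zero_of_card hF hf hp
  obtain ⟨k, hk⟩ : ∃ k, m = k + 1 := ⟨m - 1, by omega⟩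
  obtain rfl : k = m - 1 := by omega
  obtain ⟨α, hα⟩ := exists_nonsquare h2
  by_cases hsq : IsSquare ((A : Matrix (Fin n) (Fin n) K).det * (-1) ^ m)
  · let e : Fin m ⊕ Fin m ≃ Fin n := finSumFinEquiv.trans (finCongr (by omega))
    obtain ⟨E⟩ := nonempty_projQuot_of_scalCong e (scalCong_plus h2 (by omega) hnm e A hA hsq)
    rw [← quadSim_plus h2 m] at E
    haveI : Nonempty (Fin m ⊕ Fin m) := ⟨.inl ⟨0, by omega⟩⟩
    refine not_PGO_equiv_PGSp hF hf hp (by omega) (not_dvd_pow_sub_one hF hf (k := m) (by omega))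
      (Cfsg.quadFormPlus m K) (fun c v => ?_)
      (Pi.single (.inl ⟨0, by omega⟩) 1 + Pi.single (.inr ⟨0, by omega⟩) 1) ?_
      (Cfsg.Agent.S0287.result rfl m (by omega)) ⟨E.symm.trans E0⟩
    · simp only [Cfsg.quadFormPlus, Pi.smul_apply, smul_eq_mul, Finset.mul_sum]
      exact Finset.sum_congr rfl fun i _ => by ring
    · simp [Cfsg.quadFormPlus, Pi.single_apply]
  · let e : (Fin (m - 1) ⊕ Fin (m - 1)) ⊕ Fin 2 ≃ Fin n :=
      ((Equiv.sumCongr finSumFinEquiv (Equiv.refl _)).trans finSumFinEquiv).trans (finCongr (by omega))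
    obtain ⟨E⟩ := nonempty_projQuot_of_scalCong e (scalCong_minus h2 hk hnm hα e A hA hsq)
    rw [← quadSim_minus h2] at E
    refine not_PGO_equiv_PGSp hF hf hp (by omega) (not_dvd_pow_add_one hF hf (k := m) (by omega))
      (Cfsg.quadFormMinus (m - 1) K 0 (-α)) (fun c v => ?_) (Pi.single (.inr 0) 1) ?_
      (Cfsg.Agent.S0288.result rfl m (by omega) 0 (-α) (minus_aniso hα)) ⟨E.symm.trans E0⟩
    · simp only [Cfsg.quadFormMinus, Pi.smul_apply, smul_eq_mul, mul_add, Finset.mul_sum]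
      congr 1
      · exact Finset.sum_congr rfl fun i _ => by ring
      · ring
    · simp [Cfsg.quadFormMinus, Pi.single_apply]

/-- Determinants of similarities are powers in characteristic two and in odd dimension. -/
theorem pow_sqrt_of_odd {K : Type v} [Field K] {n : ℕ} (hn : Odd n) (δ d : Kˣ) (h : δ ^ 2 = d ^ n) :
    ∃ s : Kˣ, s ^ 2 = d ∧ s ^ n = δ := by
  obtain ⟨k, rfl⟩ := hn
  have h1 : (δ / d ^ k) ^ 2 = d := by
    rw [div_pow, h, ← pow_mul, show k * 2 = 2 * k by ring, pow_succ, mul_div_cancel_left]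
  refine ⟨δ / d ^ k, h1, ?_⟩
  rw [pow_succ, pow_mul, h1, ← mul_div_assoc, mul_div_cancel_left]

theorem pow_sqrt_of_charTwo {K : Type v} [Field K] [Finite K] [CharP K 2] {n : ℕ} (δ d : Kˣ)
    (h : δ ^ 2 = d ^ n) : ∃ s : Kˣ, s ^ 2 = d ∧ s ^ n = δ := by
  obtain ⟨s, hs⟩ := FiniteField.isSquare_of_char_two (F := K) (ringChar.eq K 2) (d : K)
  have hs0 : s ≠ 0 := fun h0 => d.ne_zero (by rw [hs, h0, zero_mul])
  have h1 : (Units.mk0 s hs0) ^ 2 = d := Units.ext (by rw [Units.val_pow_eq_pow_val, Units.val_mk0, sq, ← hs])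
  refine ⟨Units.mk0 s hs0, h1, Units.ext (frobenius_inj K 2 ?_)⟩
  show ((Units.mk0 s hs0 ^ n : Kˣ) : K) ^ 2 = (δ : K) ^ 2
  rw [← Units.val_pow_eq_pow_val, ← Units.val_pow_eq_pow_val, h, ← pow_mul, mul_comm, pow_mul, h1]

theorem charTwo_of_even_card {K : Type v} [Field K] [Fintype K] (h : Even (Fintype.card K)) : CharP K 2 := by
  have h2 : (2 : K) = 0 := by
    by_contra hne
    have := FiniteField.odd_card_of_char_ne_two (F := K) (fun hc => hne (by
      haveI : CharP K 2 := ringChar.of_eq hc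
      exact CharTwo.two_eq_zero))
    rw [Nat.even_iff] at h
    omega
  exact ringChar.of_eq (CharP.ringChar_of_prime_eq_zero Nat.prime_two (by exact_mod_cast h2))

theorem two_ne_zero_of_odd_card {K : Type v} [Field K] [Fintype K] (h : Odd (Fintype.card K)) : (2 : K) ≠ 0 := by
  intro h2
  have hp : ringChar K = 2 := CharP.ringChar_of_prime_eq_zero Nat.prime_two (R := K) (by exact_mod_cast h2)
  have := FiniteField.even_card_of_char_two hp
  exact (Nat.not_even_iff_odd.2 h) (Nat.even_iff.2 this)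

namespace PSUAut

/-- The conjugation and the embedding of the field with `q` elements. -/
theorem exists_setup {F : Type u} [Field F] [Fintype F] {q : ℕ} (hF : Fintype.card F = q ^ 2)
    (F₀ : Type v) [Field F₀] [Fintype F₀] (hF₀ : Fintype.card F₀ = q) :
    ∃ (c : Conj F q) (i : F₀ →+* F), (∀ x, conjE c (i x) = i x) ∧ ∀ y, conjE c y = y → ∃ x, i x = y := by
  obtain ⟨c⟩ := exists_conj (show Nat.card F = q ^ 2 by rw [Nat.card_eq_fintype_card, hF])
  obtain ⟨i, hi, hi'⟩ := exists_hom_onto_fixedField (conjE c) F₀ (by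
    have h := card_eq_fixedField_pow (conjE c) (orderOf_conjE c)
    rw [Nat.card_eq_fintype_card, hF] at h
    rw [hF₀]
    exact Nat.pow_left_injective two_ne_zero h)
  exact ⟨c, i, hi, hi'⟩

end PSUAut

end CfsgLib.ReflectionsSpinor
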