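import Mathlib.FieldTheory.Finite.GaloisField
import Mathlib.RingTheory.Trace.Basic

set_option autoImplicit false

namespace CfsgLib.ReflectionsSpinor

universe u v

/-- A field with `q` elements embeds in a field with `q ^ n` elements. -/
theorem exists_ringHom_of_card {F : Type u} {K : Type v} [Field F] [Fintype F] [Field K] [Fintype K]
    {q n : ℕ} (hF : Fintype.card F = q) (hK : Fintype.card K = q ^ n) : Nonempty (F →+* K) := by
  obtain ⟨p, hp⟩ := CharP.exists F
  obtain ⟨p', hp'⟩ := CharP.exists K
  obtain ⟨a, hpr, ha⟩ := FiniteField.card F p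
  obtain ⟨a', hpr', ha'⟩ := FiniteField.card K p'
  have hpp : p = p' := by
    have h1 : p' ∣ p ^ ((a : ℕ) * n) := by
      rw [pow_mul, ← ha, hF, ← hK, ha']
      exact dvd_pow_self _ a'.ne_zero
    exact ((Nat.prime_dvd_prime_iff_eq hpr' hpr).mp (hpr'.dvd_of_dvd_pow h1)).symm
  subst hpp
  haveI := Fact.mk hpr
  letI := ZMod.algebra F p
  letI := ZMod.algebra K p
  have h2 : p ^ Module.finrank (ZMod p) K = p ^ (Module.finrank (ZMod p) F * n) := by
    rw [pow_mul, FiniteField.pow_finrank_eq_card, FiniteField.pow_finrank_eq_card, hF, hK]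
  obtain ⟨φ⟩ := FiniteField.nonempty_algHom_of_finrank_dvd (F := ZMod p) (K := F) (L := K)
    ⟨n, Nat.pow_right_injective hpr.two_le h2⟩
  exact ⟨φ.toRingHom⟩

/-- For an embedding of finite fields, the degree is read off from the cardinalities. -/
theorem finrank_eq_of_card {F : Type u} {K : Type v} [Field F] [Fintype F] [Field K] [Fintype K]
    [Algebra F K] {q n : ℕ} (hF : Fintype.card F = q) (hK : Fintype.card K = q ^ n) :
    Module.finrank F K = n := by
  have h := Module.card_eq_pow_finrank (K := F) (V := K)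
  rw [hK, hF] at h
  exact (Nat.pow_right_injective (by rw [← hF]; exact Fintype.one_lt_card) h).symm

end CfsgLib.ReflectionsSpinor
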