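import Cfsg.Agent.Lib.Twisted.TwistedBN
import Cfsg.Agent.Lib.Twisted.GraphAut
import Cfsg.Agent.Lib.Chevalley.AutExt
import Cfsg.Agent.Lib.Chevalley.TorusCard

/-!
The elements of D4(F) commuting with the triality matrix are the group generated by the fixed fundamental
orbit words.
-/

set_option autoImplicit false
set_option maxRecDepth 100000

namespace CfsgLib.ReflectionsSpinor.TrialityG2

open Cfsg.Lie
open CfsgLib.Chevalley (xG nG hG coe_xG coe_nG auxD4 cert_D4 rootsU torusHom chi)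
open CfsgLib.Twisted

variable (F : Type*) [Field F]

/-- the matrix of triality, as a unit -/
noncomputable def triUnit : GL chevD4.Idx F :=
  have h := graphAutD4A_check
  ⟨autMat chevD4 F graphSigmaD4A graphEtaD4A graphND4A,
    autMat chevD4 F graphSigmaInvD4A graphEtaInvD4A graphNInvD4A,
    autMat_mul_inverse chevD4 (by simp only [Bool.and_eq_true] at h; exact h.1.1.2) F,
    autMat_mul_inverse chevD4 (by simp only [Bool.and_eq_true] at h; exact h.1.2) F⟩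

theorem triUnit_conj {r : ℕ} (hr : r < 24) (t : F) :
    triUnit F * xG cert_D4 r t * (triUnit F)⁻¹ = xG cert_D4 (graphSigmaD4A r) ((graphEtaD4A r : F) * t) := by
  have h := graphAutD4A_check
  simp only [Bool.and_eq_true] at h
  rw [mul_inv_eq_iff_eq_mul]
  refine Units.ext ?_
  simp only [Units.val_mul, coe_xG]
  exact autMat_mul_x (D := chevD4) (isAutData_of_check chevD4 tablesD4 h.1.1.1) F hr t

/-- the group elements commuting with the triality matrix -/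
noncomputable def triFixed : Subgroup (GL chevD4.Idx F) :=
  chevD4.group F ⊓ Subgroup.centralizer {triUnit F}

variable {F}

theorem mem_triFixed {g : GL chevD4.Idx F} :
    g ∈ triFixed F ↔ g ∈ chevD4.group F ∧ triUnit F * g * (triUnit F)⁻¹ = g := by
  rw [triFixed, Subgroup.mem_inf, Subgroup.mem_centralizer_singleton_iff]
  refine and_congr_right fun _ => ?_
  rw [mul_inv_eq_iff_eq_mul]
  exact eq_comm

/-- the twist map -/
noncomputable def twistHom : ↥(chevD4.group F) →* GL chevD4.Idx F :=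
  (MulAut.conj (triUnit F)).toMonoidHom.comp (chevD4.group F).subtype

theorem twistHom_x (g : ↥(chevD4.group F)) (r : ℕ) (t : F) (hr : r < chevD4.nroots)
    (hg : (g : GL chevD4.Idx F) = xG cert_D4 r t) :
    twistHom g = xG cert_D4 (graphSigmaD4A r) (graphTwist graphEtaD4A 1 r t) := by
  show triUnit F * (g : GL chevD4.Idx F) * (triUnit F)⁻¹ = _
  rw [hg, triUnit_conj F hr, graphTwist, pow_one]

theorem isTwist_triFixed : IsTwist cert_D4 graphSigmaD4A (graphTwist graphEtaD4A 1) (triFixed F) :=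
  ⟨inf_le_left, fun r => by simp [graphTwist], twistHom, twistHom_x, fun _ hg => (mem_triFixed.1 hg).2⟩

theorem isTwist_twistedD4 : IsTwist cert_D4 graphSigmaD4A (graphTwist graphEtaD4A 1) (twistedD4 F 1) := by
  have hfix := graphFixedD4_ok
  simp only [Bool.and_eq_true, List.all_eq_true, decide_eq_true_eq] at hfix
  obtain ⟨⟨⟨⟨-, hl⟩, hp⟩, -⟩, -⟩ := hfix
  refine isTwist_of_gens cert_D4 (fun r => by simp [graphTwist]) twistHom twistHom_x _ ?_
  rintro w (⟨t, ht, r, hr, rfl⟩ | ⟨t, rs, hr, rfl⟩)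
  · obtain ⟨⟨a1, a2⟩, a3⟩ := hl r hr
    refine ⟨by simpa using a3, ?_⟩
    simp [twistWord, graphTwist, Nat.eq_of_beq_eq_true a1, intEqb_eq a2]
  · obtain ⟨⟨⟨⟨⟨⟨⟨⟨a1, a2⟩, a3⟩, a4⟩, a5⟩, a6⟩, c12⟩, c13⟩, c23⟩ := hp rs hr
    have hlt := c12
    have hlt' := c13
    simp only [checkCommute, Bool.and_eq_true, decide_eq_true_eq] at hlt hlt'
    refine ⟨by simp [hlt.1.2, hlt.2, hlt'.2], ?_⟩
    simp only [twistWord, List.map_cons, List.map_nil, graphTwist, Nat.eq_of_beq_eq_true a1,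
      Nat.eq_of_beq_eq_true a2, Nat.eq_of_beq_eq_true a3, intEqb_eq a4, intEqb_eq a5, intEqb_eq a6, Int.cast_one,
      one_mul, pow_one, one_pow, wordG_cons, wordG_nil, mul_one]
    apply Units.ext
    simp only [Units.val_mul, coe_xG]
    rw [← mul_assoc, ← ((rootCertD4.commute_x c12 t t).mul_right (rootCertD4.commute_x c13 t t)).eq]

theorem twistedD4_le_triFixed : twistedD4 F 1 ≤ triFixed F := by
  obtain ⟨σ, hσ, hfix⟩ := (isTwist_twistedD4 (F := F)).exists_map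
  have e : σ = twistHom := CfsgLib.Chevalley.hom_ext_simple fullD4
    (fun i t => by
      rw [hσ _ _ t (cert_D4.wf.simple_lt i i.isLt) rfl, twistHom_x _ _ t (cert_D4.wf.simple_lt i i.isLt) rfl])
    (fun i t => by
      have hlt := cert_D4.wf.neg_lt _ (cert_D4.wf.simple_lt i i.isLt)
      rw [hσ _ _ t hlt rfl, twistHom_x _ _ t hlt rfl])
  intro g hg
  have hgG := (isTwist_twistedD4 (F := F)).le hg
  refine mem_triFixed.2 ⟨hgG, ?_⟩
  have := hfix ⟨g, hgG⟩ hg
  rw [e] at this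
  exact this

/-- the blocks of fundamental monomial elements lie in the generated group -/
theorem moveG_block_mem {J : List ℕ} (hJ : J ∈ blocksD4) : moveG cert_D4 J ∈ twistedD4 F 1 := by
  have hfix := graphFixedD4_ok
  simp only [Bool.and_eq_true, beq_iff_eq] at hfix
  obtain ⟨⟨⟨⟨⟨⟨hO, hP⟩, hB⟩, -⟩, -⟩, hbw⟩, -⟩ := hfix
  refine moveG_mem cert_D4 (List.all_eq_true.1 hB J hJ) _ fun w hw => ?_
  have hmem : blockWords chevD4 J ∈ blocksD4.map (blockWords chevD4) := List.mem_map_of_mem hJ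
  rw [hbw] at hmem
  simp only [List.mem_cons, List.not_mem_nil, or_false] at hmem
  rcases hmem with e | e <;> rw [e] at hw <;> simp only [List.mem_cons, List.not_mem_nil, or_false] at hw <;>
    rcases hw with rfl | rfl | rfl <;>
    simp only [List.map_cons, List.map_nil, Int.cast_one, Int.cast_neg] <;>
    first
      | exact wordG_mem_gen cert_D4 (Or.inl ⟨_, pow_one _, _, by simp, rfl⟩)
      | (refine wordG_mem_gen cert_D4 (Or.inr ⟨(1 : F), (d4p1, d4p3, d4p4), ?_, ?_⟩) <;> simp <;> done)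
      | (refine wordG_mem_gen cert_D4 (Or.inr ⟨(-1 : F), (d4m1, d4m3, d4m4), ?_, ?_⟩) <;> simp <;> done)

theorem isRealised_twistedD4 : IsRealised cert_D4 (graphTwist graphEtaD4A 1) graphSigmaD4A (twistedD4 F 1)
    (plansD4.map Prod.fst) := by
  have hfix := graphFixedD4_ok
  simp only [Bool.and_eq_true, beq_iff_eq] at hfix
  obtain ⟨⟨⟨⟨⟨⟨hO, hP⟩, hB⟩, -⟩, -⟩, -⟩, hbases⟩ := hfix
  refine isRealised_of_plans cert_D4 rootCertD4 _ _ (q := 1) (pow_one _) _ basesD4 blocksD4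
    (fun J hJ => moveG_block_mem hJ) (fun _ => []) ?_ plansD4 ?_ (by decide +kernel) hP
  · rw [hbases]
    intro b hb y _
    simp only [List.mem_cons, List.not_mem_nil, or_false] at hb
    rcases hb with rfl | rfl
    · exact ⟨[(d4p2, y)], by simp, wordG_mem_gen cert_D4 (Or.inl ⟨y, pow_one _, _, by simp, rfl⟩), by simp⟩
    · exact ⟨[(d4p1, y), (d4p3, y), (d4p4, y)], by simp,
        wordG_mem_gen cert_D4 (Or.inr ⟨y, (d4p1, d4p3, d4p4), by simp, by simp⟩), by simp [d4p1, d4p3, d4p4]⟩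
  · intro o _ x _
    simp

theorem posUnipotent_eq_orbits :
    chevD4.posUnipotent F = rootsU chevD4 F {r | r ∈ orbRoots (plansD4.map Prod.fst)} := by
  have hfix := graphFixedD4_ok
  simp only [Bool.and_eq_true, checkGraphOrbs, List.all_eq_true, List.mem_range, decide_eq_true_eq] at hfix
  have h3 := hfix.1.1.1.1.1.1.1.2
  have hlt : ∀ r ∈ orbRoots (plansD4.map Prod.fst), r < 24 := by decide +kernel
  rw [CfsgLib.Chevalley.posUnipotent_eq]
  congr 1
  ext r
  exact ⟨fun hr => (h3 r hr.1).1 hr, fun hr => (h3 r (hlt r hr)).2 hr⟩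

theorem inf_pos_le [Finite F] {H : Subgroup (GL chevD4.Idx F)}
    (hT : IsTwist cert_D4 graphSigmaD4A (graphTwist graphEtaD4A 1) H) (hle : twistedD4 F 1 ≤ H) :
    H ⊓ chevD4.posUnipotent F ≤ twistedD4 F 1 := by
  have hfix := graphFixedD4_ok
  simp only [Bool.and_eq_true, checkGraphOrbs, List.all_eq_true, List.mem_range, decide_eq_true_eq] at hfix
  obtain ⟨⟨⟨⟨⟨⟨⟨⟨⟨h1, h2⟩, -⟩, -⟩, -⟩, -⟩, -⟩, -⟩, -⟩, -⟩ := hfix
  have hc := fun o ho => Nat.eq_of_beq_eq_true (h2 o ho).1.1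
  refine full_of_card hle ?_
  rw [posUnipotent_eq_orbits, card_inf_rootsU stdD4 hT _ h1 hc
      (isRealised_mono hle isRealised_twistedD4),
    card_inf_rootsU stdD4 isTwist_twistedD4 _ h1 hc isRealised_twistedD4]

theorem neg_sign_checks : (checkPermSigns chevD4 graphSigmaD4A && checkNodes chevD4 graphSigmaD4A [[1], [0, 2, 3]] &&
    ((List.range chevD4.nroots).all fun r => intEqb (graphEtaD4A (chevD4.neg r)) (graphEtaD4A r)) &&
    (chevD4.neg (chevD4.simple 1) == d4m2) && (chevD4.neg (chevD4.simple 0) == d4m1) &&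
    checkBelow chevD4 auxD4 [0, 2, 3] 0 [d4m3, d4m4]) = true := bnChecksD4

/-- fixed-point data for any group between the generated group and the fixed points -/
theorem fixedData [Finite F] {G : Subgroup (GL chevD4.Idx F)}
    (hT : IsTwist cert_D4 graphSigmaD4A (graphTwist graphEtaD4A 1) G) (hle : twistedD4 F 1 ≤ G) :
    ∃ ρ φ, FixedPts fullD4 ρ φ G ∧ OrbitData fullD4 ρ G (nodeSets chevD4 [[1], [0, 2, 3]]) ∧
      ∀ r : Fin chevD4.nroots, ((ρ r : Fin chevD4.nroots) : ℕ) = graphSigmaD4A r := by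
  have hc := neg_sign_checks
  simp only [Bool.and_eq_true, List.all_eq_true, List.mem_range, beq_iff_eq] at hc
  obtain ⟨⟨⟨⟨⟨hρ, hN⟩, hl⟩, e1⟩, e0⟩, hb⟩ := hc
  obtain ⟨ρ, hval⟩ := exists_perm hρ
  obtain ⟨φ, hG⟩ := fixedPts_of_isTwist fullD4 hT hρ
    (fun r hr c hc => graphTwist_neg graphEtaD4A_sign (pow_one _) (intEqb_eq (hl r hr)) hc)
    (fun H hH hGH => (inf_pos_le hH (hle.trans hGH)).trans hle) ρ hval
  refine ⟨ρ, φ, hG, orbitData_of_check fullD4 hval hN fun L hL => ?_, hval⟩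
  simp only [List.mem_cons, List.not_mem_nil, or_false] at hL
  rcases hL with rfl | rfl
  · refine low_of_word fullD4 ⟨1, by decide⟩ (by simp) (pre := []) (post := []) (t := (1 : F))
      one_ne_zero (hle ?_) rfl
    exact wordG_mem_gen _ (Or.inl ⟨1, pow_one _, d4m2, by simp, by simp [e1]⟩)
  · refine low_of_word fullD4 ⟨0, by decide⟩ (by simp) (pre := []) (post := [(d4m3, (1 : F)), (d4m4, 1)])
      (t := (1 : F)) one_ne_zero (hle ?_) hb
    exact wordG_mem_gen _ (Or.inr ⟨1, (d4m1, d4m3, d4m4), by simp, by simp [e0]⟩)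

theorem commute_checks : ([(18, 13), (18, 12), (13, 12)].all fun p =>
    checkCommute chevD4 p.1 p.2 && checkCommute chevD4 p.1 (chevD4.neg p.2) &&
    checkCommute chevD4 (chevD4.neg p.1) p.2 && checkCommute chevD4 (chevD4.neg p.1) (chevD4.neg p.2)) = true := by
  decide +kernel

theorem commute_nG {p : ℕ × ℕ} (hp : p ∈ [(18, 13), (18, 12), (13, 12)]) (a b : F) :
    Commute (nG cert_D4 p.1 a) (nG cert_D4 p.2 b) := by
  have h := commute_checks
  simp only [List.all_eq_true, Bool.and_eq_true] at h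
  obtain ⟨⟨⟨h1, h2⟩, h3⟩, h4⟩ := h p hp
  have hx : ∀ {r s : ℕ}, checkCommute chevD4 r s = true → ∀ x y : F,
      Commute (xG cert_D4 r x) (xG cert_D4 s y) := by
    intro r s hc x y
    exact Units.ext (rootCertD4.commute_x hc x y).eq
  rw [nG, nG]
  exact (((hx h1 _ _).mul_right (hx h2 _ _)).mul_right (hx h1 _ _)).mul_left
    (((hx h3 _ _).mul_right (hx h4 _ _)).mul_right (hx h3 _ _)) |>.mul_left
    (((hx h1 _ _).mul_right (hx h2 _ _)).mul_right (hx h1 _ _))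

/-- the product of the three outer monomial elements -/
theorem nG_short_mem (a : F) :
    nG cert_D4 18 a * (nG cert_D4 13 a * nG cert_D4 12 a) ∈ twistedD4 F 1 := by
  have h := commute_checks
  simp only [List.all_eq_true, Bool.and_eq_true] at h
  have hx : ∀ {r s : ℕ}, checkCommute chevD4 r s = true → ∀ x y : F,
      Commute (xG cert_D4 r x) (xG cert_D4 s y) := by
    intro r s hc x y
    exact Units.ext (rootCertD4.commute_x hc x y).eq
  have hpos : ∀ t : F, xG cert_D4 18 t * (xG cert_D4 13 t * xG cert_D4 12 t) ∈ twistedD4 F 1 := fun t => by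
    have := wordG_mem_gen (F := F) cert_D4 (w := [(d4p1, t), (d4p3, t), (d4p4, t)])
      (S := {w | ∃ s : F, s ^ 1 = s ∧ ∃ r ∈ [d4p2, d4m2], w = [(r, s)]} ∪
        {w | ∃ s : F, ∃ rs ∈ [(d4p1, d4p3, d4p4), (d4m1, d4m3, d4m4)],
          w = [(rs.1, s), (rs.2.1, s ^ 1), (rs.2.2, s ^ (1 ^ 2))]})
      (Or.inr ⟨t, (d4p1, d4p3, d4p4), by simp, by simp⟩)
    simpa [wordG_cons, wordG_nil, d4p1, d4p3, d4p4, twistedD4, d4Words] using this
  have hneg : ∀ t : F, xG cert_D4 5 t * (xG cert_D4 10 t * xG cert_D4 11 t) ∈ twistedD4 F 1 := fun t => by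
    have := wordG_mem_gen (F := F) cert_D4 (w := [(d4m1, t), (d4m3, t), (d4m4, t)])
      (S := {w | ∃ s : F, s ^ 1 = s ∧ ∃ r ∈ [d4p2, d4m2], w = [(r, s)]} ∪
        {w | ∃ s : F, ∃ rs ∈ [(d4p1, d4p3, d4p4), (d4m1, d4m3, d4m4)],
          w = [(rs.1, s), (rs.2.1, s ^ 1), (rs.2.2, s ^ (1 ^ 2))]})
      (Or.inr ⟨t, (d4m1, d4m3, d4m4), by simp, by simp⟩)
    simpa [wordG_cons, wordG_nil, d4m1, d4m3, d4m4, twistedD4, d4Words] using this
  have e1 := h (18, 13) (by simp)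
  have e2 := h (18, 12) (by simp)
  have e3 := h (13, 12) (by simp)
  set X : GL chevD4.Idx F := xG cert_D4 18 a
  set X₃ : GL chevD4.Idx F := xG cert_D4 13 a
  set X₄ : GL chevD4.Idx F := xG cert_D4 12 a
  set Y : GL chevD4.Idx F := xG cert_D4 5 (-a⁻¹)
  set Y₃ : GL chevD4.Idx F := xG cert_D4 10 (-a⁻¹)
  set Y₄ : GL chevD4.Idx F := xG cert_D4 11 (-a⁻¹)
  have key : (X * (X₃ * X₄)) * (Y * (Y₃ * Y₄)) * (X * (X₃ * X₄)) =
      (X * Y * X) * ((X₃ * Y₃ * X₃) * (X₄ * Y₄ * X₄)) := by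
    have c1 : Commute (X₃ * X₄) Y := ((hx e1.1.2 _ _).symm).mul_left (hx e2.1.2 _ _).symm
    have c3 : Commute X₄ Y₃ := (hx e3.1.2 _ _).symm
    have c1' : Commute ((X₃ * Y₃) * (X₄ * Y₄)) X :=
      ((hx e1.1.1.1 _ _).symm.mul_left (hx e1.1.1.2 _ _).symm).mul_left
        ((hx e2.1.1.1 _ _).symm.mul_left (hx e2.1.1.2 _ _).symm)
    have c3' : Commute (X₄ * Y₄) X₃ := (hx e3.1.1.1 _ _).symm.mul_left (hx e3.1.1.2 _ _).symm
    rw [c1.mul_mul_mul_comm X (Y₃ * Y₄), c3.mul_mul_mul_comm X₃ Y₄, c1'.mul_mul_mul_comm (X * Y) (X₃ * X₄),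
      c3'.mul_mul_mul_comm (X₃ * Y₃) X₄]
  have := mul_mem (mul_mem (hpos a) (hneg (-a⁻¹))) (hpos a)
  rw [key] at this
  exact this

theorem nG_long_mem (a : F) : nG cert_D4 14 a ∈ twistedD4 F 1 := by
  have hx : ∀ r ∈ [d4p2, d4m2], ∀ t : F, xG cert_D4 r t ∈ twistedD4 F 1 := fun r hr t => by
    have := wordG_mem_gen (F := F) cert_D4 (w := [(r, t)])
      (S := {w | ∃ s : F, s ^ 1 = s ∧ ∃ r ∈ [d4p2, d4m2], w = [(r, s)]} ∪
        {w | ∃ s : F, ∃ rs ∈ [(d4p1, d4p3, d4p4), (d4m1, d4m3, d4m4)],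
          w = [(rs.1, s), (rs.2.1, s ^ 1), (rs.2.2, s ^ (1 ^ 2))]})
      (Or.inl ⟨t, pow_one _, r, hr, rfl⟩)
    simpa [wordG_cons, wordG_nil, twistedD4, d4Words] using this
  exact mul_mem (mul_mem (hx 14 (by simp [d4p2]) _) (hx 9 (by simp [d4m2]) _)) (hx 14 (by simp [d4p2]) _)

/-- a torus parameter equal on the outer nodes -/
def orbitTorus (a b : Fˣ) : Fin chevD4.rank → Fˣ := fun k => if (k : ℕ) = 1 then b else a

theorem torus_mem_twistedD4 (a b : Fˣ) : torusHom chevD4 F (orbitTorus a b) ∈ twistedD4 F 1 := by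
  have e : orbitTorus a b =
      Pi.mulSingle (⟨0, by decide⟩ : Fin chevD4.rank) a * Pi.mulSingle ⟨2, by decide⟩ a *
        Pi.mulSingle ⟨3, by decide⟩ a * Pi.mulSingle ⟨1, by decide⟩ b := by
    funext i
    rcases i with ⟨_ | _ | _ | _ | n, hi⟩
    · simp [orbitTorus, Pi.mul_apply, Pi.mulSingle_apply, Fin.ext_iff]
    · simp [orbitTorus, Pi.mul_apply, Pi.mulSingle_apply, Fin.ext_iff]
    · simp [orbitTorus, Pi.mul_apply, Pi.mulSingle_apply, Fin.ext_iff]
    · simp [orbitTorus, Pi.mul_apply, Pi.mulSingle_apply, Fin.ext_iff]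
    · exact absurd hi (by simp only [show chevD4.rank = 4 from rfl]; omega)
  have hh : ∀ r : ℕ, hG cert_D4 r (a : F) = nG cert_D4 r (a : F) * nG cert_D4 r (-1) := fun r => rfl
  rw [e, map_mul, map_mul, map_mul, CfsgLib.Chevalley.torusHom_mulSingle cert_D4,
    CfsgLib.Chevalley.torusHom_mulSingle cert_D4, CfsgLib.Chevalley.torusHom_mulSingle cert_D4,
    CfsgLib.Chevalley.torusHom_mulSingle cert_D4]
  refine mul_mem ?_ (mul_mem (nG_long_mem _) (nG_long_mem _))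
  show hG cert_D4 18 (a : F) * hG cert_D4 13 (a : F) * hG cert_D4 12 (a : F) ∈ _
  have c1 : Commute (nG cert_D4 13 (a : F) * nG cert_D4 12 (a : F)) (nG cert_D4 18 (-1)) :=
    (commute_nG (p := (18, 13)) (by simp) _ _).symm.mul_left (commute_nG (p := (18, 12)) (by simp) _ _).symm
  have c3 : Commute (nG cert_D4 12 (a : F)) (nG cert_D4 13 (-1)) :=
    (commute_nG (p := (13, 12)) (by simp) _ _).symm
  have := mul_mem (nG_short_mem (a : F)) (nG_short_mem (-1 : F))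
  rw [c1.mul_mul_mul_comm, c3.mul_mul_mul_comm] at this
  rwa [hh, hh, hh, mul_assoc (nG cert_D4 18 (a : F) * nG cert_D4 18 (-1))]

theorem chi_simple (c : Fin chevD4.rank → Fˣ) :
    chi chevD4 18 c = c ⟨0, by decide⟩ ^ 2 * (c ⟨1, by decide⟩)⁻¹ ∧
    chi chevD4 14 c = c ⟨1, by decide⟩ ^ 2 * (c ⟨0, by decide⟩)⁻¹ * (c ⟨2, by decide⟩)⁻¹ * (c ⟨3, by decide⟩)⁻¹ ∧
    chi chevD4 13 c = c ⟨2, by decide⟩ ^ 2 * (c ⟨1, by decide⟩)⁻¹ ∧
    chi chevD4 12 c = c ⟨3, by decide⟩ ^ 2 * (c ⟨1, by decide⟩)⁻¹ := by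
  have hA : (∀ k : ℕ, k < 4 → chevD4.cartan k 18 = [2, -1, 0, 0].getD k 0) ∧
      (∀ k : ℕ, k < 4 → chevD4.cartan k 14 = [-1, 2, -1, -1].getD k 0) ∧
      (∀ k : ℕ, k < 4 → chevD4.cartan k 13 = [0, -1, 2, 0].getD k 0) ∧
      (∀ k : ℕ, k < 4 → chevD4.cartan k 12 = [0, -1, 0, 2].getD k 0) := by decide +kernel
  have key : ∀ s : ℕ, chi chevD4 s c = c ⟨0, by decide⟩ ^ chevD4.cartan 0 s * c ⟨1, by decide⟩ ^ chevD4.cartan 1 s *
      c ⟨2, by decide⟩ ^ chevD4.cartan 2 s * c ⟨3, by decide⟩ ^ chevD4.cartan 3 s := fun s => by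
    show ∏ k : Fin chevD4.rank, c k ^ chevD4.cartan k s = _
    exact Fin.prod_univ_four (fun k : Fin 4 => c k ^ chevD4.cartan k s)
  obtain ⟨h1, h2, h3, h4⟩ := hA
  refine ⟨?_, ?_, ?_, ?_⟩ <;> rw [key] <;>
    simp [h1, h2, h3, h4, zpow_ofNat, mul_comm, mul_left_comm, mul_assoc]

theorem fix_torus {c : Fin chevD4.rank → Fˣ} (hc : torusHom chevD4 F c ∈ triFixed F) (r : Fin chevD4.nroots) :
    chi chevD4 (graphSigmaD4A r) c = chi chevD4 r c := by
  have hlt : graphSigmaD4A r < chevD4.nroots :=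
    (show ∀ r : Fin 24, graphSigmaD4A r < 24 by decide +kernel) r
  have hfix := (mem_triFixed.1 hc).2
  have hA := CfsgLib.Chevalley.acts_torus (F := F) cert_D4 c
  set u := triUnit F
  set T := torusHom chevD4 F c
  have e1 : T * (u * xG cert_D4 r 1 * u⁻¹) * T⁻¹ = u * (T * xG cert_D4 r 1 * T⁻¹) * u⁻¹ := by
    have h1 : u * T = T * u := mul_inv_eq_iff_eq_mul.1 hfix
    have h2 : T⁻¹ * u⁻¹ = u⁻¹ * T⁻¹ := by rw [← mul_inv_rev, h1, mul_inv_rev]
    calc T * (u * xG cert_D4 r 1 * u⁻¹) * T⁻¹ = (T * u) * xG cert_D4 r 1 * (u⁻¹ * T⁻¹) := by group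
      _ = _ := by rw [← h1, ← h2]; group
  rw [triUnit_conj F r.isLt, hA.conj r 1, hA.conj ⟨graphSigmaD4A r, hlt⟩] at e1
  rw [Equiv.Perm.one_apply, Equiv.Perm.one_apply, triUnit_conj F r.isLt] at e1
  have := CfsgLib.Chevalley.xG_injective cert_D4 hlt e1
  refine Units.ext (mul_right_cancel₀ (b := (graphEtaD4A r : F)) ?_ ?_)
  · rcases graphEtaD4A_sign r with h | h <;> simp [h]
  · linear_combination this

theorem diagonal_inf_triFixed_le {t : GL chevD4.Idx F} (ht : t ∈ triFixed F)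
    (htd : t ∈ chevD4.diagonalSubgroup F) : t ∈ twistedD4 F 1 := by
  rw [CfsgLib.Chevalley.diagonalSubgroup_eq_range fullD4] at htd
  obtain ⟨c, rfl⟩ := htd
  have h1 := fix_torus ht (⟨18, by decide⟩ : Fin chevD4.nroots)
  have h2 := fix_torus ht (⟨13, by decide⟩ : Fin chevD4.nroots)
  rw [show graphSigmaD4A 18 = 13 by decide +kernel] at h1
  rw [show graphSigmaD4A 13 = 12 by decide +kernel] at h2
  obtain ⟨k18, k14, k13, k12⟩ := chi_simple c
  set c0 := c ⟨0, by decide⟩ with hc0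
  set c1 := c ⟨1, by decide⟩ with hc1
  set c2 := c ⟨2, by decide⟩ with hc2
  set c3 := c ⟨3, by decide⟩ with hc3
  simp only [k18, k13, k12] at h1 h2
  have e2 : c2 ^ 2 = c0 ^ 2 := mul_right_cancel h1
  have e3 : c3 ^ 2 = c2 ^ 2 := mul_right_cancel h2
  set z2 := c2 / c0
  set z3 := c3 / c0
  have q2 : z2 ^ 2 = 1 := by rw [div_pow, e2, div_self']
  have q3 : z3 ^ 2 = 1 := by rw [div_pow, e3, e2, div_self']
  have i2 : z2⁻¹ = z2 := by rw [inv_eq_iff_mul_eq_one, ← sq, q2]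
  have i3 : z3⁻¹ = z3 := by rw [inv_eq_iff_mul_eq_one, ← sq, q3]
  set a := c0 * z2 * z3 with ha
  have hsq : a ^ 2 = c0 ^ 2 := by rw [ha, mul_pow, mul_pow, q2, q3, mul_one, mul_one]
  have h3 : a⁻¹ * a⁻¹ * a⁻¹ = c0⁻¹ * c2⁻¹ * c3⁻¹ := by
    have l2 : c2 = c0 * z2 := (mul_div_cancel c0 c2).symm
    have l3 : c3 = c0 * z3 := (mul_div_cancel c0 c3).symm
    rw [ha, l2, l3]
    simp only [_root_.mul_inv, i2, i3]
    calc c0⁻¹ * z2 * z3 * (c0⁻¹ * z2 * z3) * (c0⁻¹ * z2 * z3)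
        = c0⁻¹ * (c0⁻¹ * z2) * (c0⁻¹ * z3) * (z2 ^ 2 * z3 ^ 2) := by
          simp only [sq, mul_comm, mul_left_comm, mul_assoc]
      _ = _ := by rw [q2, q3, mul_one, mul_one]
  have e : torusHom chevD4 F c = torusHom chevD4 F (orbitTorus a c1) := by
    rw [← mul_inv_eq_one, ← map_inv, ← map_mul, ← MonoidHom.mem_ker, CfsgLib.Chevalley.ker_torusHom fullD4,
      MonoidHom.mem_ker, map_mul, map_inv, mul_inv_eq_one]
    funext j
    show chi chevD4 (chevD4.simple j) c = chi chevD4 (chevD4.simple j) (orbitTorus a c1)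
    obtain ⟨m18, m14, m13, m12⟩ := chi_simple (F := F) (orbitTorus a c1)
    have v0 : orbitTorus a c1 ⟨0, by decide⟩ = a := rfl
    have v1 : orbitTorus a c1 ⟨1, by decide⟩ = c1 := rfl
    have v2 : orbitTorus a c1 ⟨2, by decide⟩ = a := rfl
    have v3 : orbitTorus a c1 ⟨3, by decide⟩ = a := rfl
    rcases j with ⟨_ | _ | _ | _ | n, hi⟩
    · show chi chevD4 18 c = chi chevD4 18 _
      rw [k18, m18, v0, v1, hsq]
    · show chi chevD4 14 c = chi chevD4 14 _
      rw [k14, m14, v0, v1, v2, v3]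
      simp only [mul_assoc] at h3 ⊢
      rw [h3]
    · show chi chevD4 13 c = chi chevD4 13 _
      rw [k13, m13, v2, v1, hsq, e2]
    · show chi chevD4 12 c = chi chevD4 12 _
      rw [k12, m12, v3, v1, hsq, e3, e2]
    · exact absurd hi (by simp only [show chevD4.rank = 4 from rfl]; omega)
  rw [e]
  exact torus_mem_twistedD4 a c1

/-- The fixed points are generated by the fixed fundamental orbit words. -/
theorem triFixed_eq [Finite F] : triFixed F = twistedD4 F 1 := by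
  refine le_antisymm (fun g hg => ?_) twistedD4_le_triFixed
  obtain ⟨ρ, φ, hG, hJ, hval⟩ := fixedData isTwist_triFixed (twistedD4_le_triFixed (F := F))
  obtain ⟨ρ', φ', hG', hJ', hval'⟩ := fixedData (isTwist_twistedD4 (F := F)) le_rfl
  obtain ⟨u, n, u', hu, huU, hn, hnN, hu', hu'U, rfl, -⟩ := hG.exists_form hg
  have hfull := inf_pos_le isTwist_triFixed (twistedD4_le_triFixed (F := F))
  refine mul_mem (mul_mem (hfull ⟨hu, huU⟩) ?_) (hfull ⟨hu', hu'U⟩)
  refine hG.monomial_induction hJ (fun t ht htd => diagonal_inf_triFixed_le ht htd) (fun J hJm => ?_) hn hnN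
  obtain ⟨s, hsK, hsN, σ, η, hs⟩ := hG'.exists_rep hJ' hJm
  exact ⟨s, ⟨twistedD4_le_triFixed hsK, hsN, σ, η, hs⟩, hsK⟩

end CfsgLib.ReflectionsSpinor.TrialityG2
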