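import Cfsg.Agent.Lib.ReflectionsSpinor.TrialityG2Mat
import Cfsg.Agent.Lib.ReflectionsSpinor.TrialityG2Group

/-!
The fixed points of a triality graph automorphism of D4(F) are isomorphic to G2(F).
-/

set_option autoImplicit false
set_option maxRecDepth 100000

namespace CfsgLib.ReflectionsSpinor.TrialityG2

open Cfsg.Lie
open CfsgLib.Chevalley (xG nG coe_xG auxD4 auxG2 cert_D4 cert_G2 rootsU crd wt)
open CfsgLib.Twisted (autMat graphSigmaD4A graphEtaD4A graphND4A fullD4 fullG2 wordG coe_wordG wordG_mem_gen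
  moveRoot moveG sigmaD4 blocksD4)

variable {F : Type*} [Field F]

theorem incl_fixed {g : GL chevD4.Idx F} (hg : g ∈ triFixed F) :
    incl F * (proj F * ((g : Matrix chevD4.Idx chevD4.Idx F) * incl F)) = (g : Matrix chevD4.Idx chevD4.Idx F) * incl F := by
  refine eq_incl_proj ?_
  have h1 : triUnit F * g = g * triUnit F := mul_inv_eq_iff_eq_mul.1 (mem_triFixed.1 hg).2
  have h2 : autMat chevD4 F graphSigmaD4A graphEtaD4A graphND4A * (g : Matrix chevD4.Idx chevD4.Idx F) =
      (g : Matrix chevD4.Idx chevD4.Idx F) * autMat chevD4 F graphSigmaD4A graphEtaD4A graphND4A :=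
    congrArg Units.val h1
  rw [← Matrix.mul_assoc, h2, Matrix.mul_assoc, autMat_incl]

variable (F) in
/-- the action on the fixed vectors, as matrices -/
noncomputable def actMat : ↥(triFixed F) →* Matrix chevG2.Idx chevG2.Idx F where
  toFun g := proj F * (((g : GL chevD4.Idx F) : Matrix chevD4.Idx chevD4.Idx F) * incl F)
  map_one' := by simp [proj_incl]
  map_mul' g h := by
    simp only [Subgroup.coe_mul, Units.val_mul, Matrix.mul_assoc]
    rw [incl_fixed h.2]

variable (F) in
/-- the action on the fixed vectors -/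
noncomputable def actHom : ↥(triFixed F) →* GL chevG2.Idx F := (actMat F).toHomUnits

theorem coe_actHom (g : ↥(triFixed F)) : (actHom F g : Matrix chevG2.Idx chevG2.Idx F) =
    proj F * (((g : GL chevD4.Idx F) : Matrix chevD4.Idx chevD4.Idx F) * incl F) := rfl

theorem actHom_word {r : ℕ} (hr : r ∈ [7, 4, 6, 5]) (t : F)
    (hw : wordG cert_D4 ((liftWord r).map fun s => (s, t)) ∈ triFixed F) :
    actHom F ⟨_, hw⟩ = xG cert_G2 r t := by
  refine Units.ext ?_
  rw [coe_actHom, coe_wordG, lift_mul_incl hr, ← Matrix.mul_assoc, proj_incl, Matrix.one_mul, coe_xG]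

theorem lift_mem {r : ℕ} (hr : r ∈ [7, 4, 6, 5]) (t : F) :
    wordG cert_D4 ((liftWord r).map fun s => (s, t)) ∈ twistedD4 F 1 := by
  simp only [List.mem_cons, List.not_mem_nil, or_false] at hr
  rcases hr with rfl | rfl | rfl | rfl
  · exact wordG_mem_gen _ (Or.inr ⟨t, (d4p1, d4p3, d4p4), by simp, by simp [liftWord, d4p1, d4p3, d4p4]⟩)
  · exact wordG_mem_gen _ (Or.inr ⟨t, (d4m1, d4m3, d4m4), by simp, by simp [liftWord, d4m1, d4m3, d4m4]⟩)
  · exact wordG_mem_gen _ (Or.inl ⟨t, pow_one _, d4p2, by simp, by simp [liftWord, d4p2]⟩)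
  · exact wordG_mem_gen _ (Or.inl ⟨t, pow_one _, d4m2, by simp, by simp [liftWord, d4m2]⟩)

theorem group_le_range : chevG2.group F ≤ (actHom F).range := by
  have key : ∀ r ∈ [7, 4, 6, 5], ∀ t : F, xG cert_G2 r t ∈ (actHom F).range := fun r hr t =>
    ⟨⟨_, twistedD4_le_triFixed (lift_mem hr t)⟩, actHom_word hr t _⟩
  refine CfsgLib.Chevalley.xG_mem_of_simple_pm fullG2 (fun i t => key _ ?_ t) (fun i t => key _ ?_ t) <;>
    first
    | exact (show ∀ i : Fin 2, chevG2.simple i ∈ [7, 4, 6, 5] by decide +kernel) i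
    | exact (show ∀ i : Fin 2, chevG2.neg (chevG2.simple i) ∈ [7, 4, 6, 5] by decide +kernel) i

theorem range_le_group [Finite F] : (actHom F).range ≤ chevG2.group F := by
  rintro _ ⟨⟨g, hg⟩, rfl⟩
  have hK : g ∈ twistedD4 F 1 := triFixed_eq (F := F) ▸ hg
  rw [twistedD4, ChevalleyDatum.genSubgroup] at hK
  induction hK using Subgroup.closure_induction with
  | mem x hx =>
    obtain ⟨w, hw, hxw⟩ := hx
    have hx' : x = wordG cert_D4 w := Units.ext (hxw.trans (coe_wordG cert_D4 w).symm)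
    subst hx'
    have key : ∀ r ∈ [7, 4, 6, 5], ∀ t : F, ∀ h, w = (liftWord r).map (fun s => (s, t)) →
        actHom F ⟨wordG cert_D4 w, h⟩ ∈ chevG2.group F := by
      intro r hr t h e
      subst e
      rw [actHom_word hr t]
      exact CfsgLib.Chevalley.xG_mem_group cert_G2 _ _
    rcases hw with ⟨t, -, r, hr, rfl⟩ | ⟨t, rs, hr, rfl⟩
    · simp only [List.mem_cons, List.not_mem_nil, or_false] at hr
      rcases hr with rfl | rfl
      · exact key 6 (by simp) t hg (by simp [liftWord, d4p2])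
      · exact key 5 (by simp) t hg (by simp [liftWord, d4m2])
    · simp only [List.mem_cons, List.not_mem_nil, or_false] at hr
      rcases hr with rfl | rfl
      · exact key 7 (by simp) t hg (by simp [liftWord, d4p1, d4p3, d4p4])
      · exact key 4 (by simp) t hg (by simp [liftWord, d4m1, d4m3, d4m4])
  | one =>
    rw [show (⟨1, hg⟩ : ↥(triFixed F)) = 1 from rfl, map_one]
    exact one_mem _
  | mul a b ha hb iha ihb =>
    have h1 : a ∈ triFixed F := (triFixed_eq (F := F)).symm ▸ ha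
    have h2 : b ∈ triFixed F := (triFixed_eq (F := F)).symm ▸ hb
    rw [show (⟨a * b, hg⟩ : ↥(triFixed F)) = ⟨a, h1⟩ * ⟨b, h2⟩ from rfl, map_mul]
    exact mul_mem (iha h1) (ihb h2)
  | inv a ha iha =>
    have h1 : a ∈ triFixed F := (triFixed_eq (F := F)).symm ▸ ha
    rw [show (⟨a⁻¹, hg⟩ : ↥(triFixed F)) = ⟨a, h1⟩⁻¹ from rfl, map_inv]
    exact inv_mem (iha h1)

theorem fix_incl {g : ↥(triFixed F)} (hg : actHom F g = 1) :
    ((g : GL chevD4.Idx F) : Matrix chevD4.Idx chevD4.Idx F) * incl F = incl F := by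
  have h := congrArg Units.val hg
  rw [coe_actHom, Units.val_one] at h
  rw [← incl_fixed g.2, h, Matrix.mul_one]

/-- the height -/
noncomputable def height (u : ℕ) : ℤ :=
  crd auxD4 0 u + crd auxD4 1 u + crd auxD4 2 u + crd auxD4 3 u

theorem weightCoef_height : CfsgLib.Chevalley.WeightCoef chevD4 height := by
  refine CfsgLib.Chevalley.weightCoef_of_graded cert_D4 fun a x y h => ?_
  have e : ∀ b : chevD4.Idx, wt chevD4 height b = wt chevD4 (crd auxD4 0) b + wt chevD4 (crd auxD4 1) b +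
      wt chevD4 (crd auxD4 2) b + wt chevD4 (crd auxD4 3) b := by
    rintro (j | s)
    · simp [wt]
    · rfl
  have g := fun i (hi : i < chevD4.rank) => CfsgLib.Chevalley.graded_crd cert_D4 hi a x y h
  rw [e, e, e, g 0 (by decide), g 1 (by decide), g 2 (by decide), g 3 (by decide)]
  ring

theorem height_checks : (height 18 = height 13 ∧ height 18 = height 12) ∧
    ∀ r : Fin chevD4.nroots, chevD4.IsPosRoot r → 1 ≤ height r := by
  decide +kernel

theorem root_checks :
    (∀ b : chevD4.Idx, CfsgLib.Chevalley.Sparse.entry pList (num b) 9 = (if b = Sum.inr (⟨18, by decide⟩ : Fin chevD4.nroots) ∨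
      b = Sum.inr (⟨13, by decide⟩ : Fin chevD4.nroots) ∨ b = Sum.inr (⟨12, by decide⟩ : Fin chevD4.nroots)
        then 1 else 0)) ∧
    (∀ b : chevD4.Idx, CfsgLib.Chevalley.Sparse.entry pList (num b) 8 = (if b = Sum.inr (⟨14, by decide⟩ : Fin chevD4.nroots)
      then 1 else 0)) := by
  decide +kernel

/-- An element of the kernel lies in the unipotent radical. -/
theorem mem_posUnipotent_of_fix [Finite F] {g : ↥(triFixed F)} (hg : actHom F g = 1) :
    (g : GL chevD4.Idx F) ∈ chevD4.posUnipotent F := by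
  classical
  obtain ⟨ρ, φ, hG, hJ, hval⟩ := fixedData isTwist_triFixed (twistedD4_le_triFixed (F := F))
  obtain ⟨u, n, u', hu, huU, hn, hnN, hu', hu'U, e, σ, η, hA, -⟩ := hG.exists_form g.2
  obtain ⟨hcol9, hcol8⟩ := root_checks
  obtain ⟨⟨p1, p2⟩, hhpos⟩ := height_checks
  set w : GL chevD4.Idx F := u⁻¹ * u'⁻¹ with hw
  have hwU : w ∈ chevD4.posUnipotent F := mul_mem (inv_mem huU) (inv_mem hu'U)
  have hnw : (n : Matrix chevD4.Idx chevD4.Idx F) * incl F = (w : Matrix chevD4.Idx chevD4.Idx F) * incl F := by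
    have hn' : n = u⁻¹ * ((g : GL chevD4.Idx F) * u'⁻¹) := by rw [e]; group
    have h1 : ((g : GL chevD4.Idx F) : Matrix chevD4.Idx chevD4.Idx F) * (((u'⁻¹ : GL chevD4.Idx F) : Matrix chevD4.Idx chevD4.Idx F) * incl F) =
        ((u'⁻¹ : GL chevD4.Idx F) : Matrix chevD4.Idx chevD4.Idx F) * incl F := by
      rw [← incl_fixed (inv_mem hu'), ← Matrix.mul_assoc, fix_incl hg]
    rw [hn', hw, Units.val_mul, Units.val_mul, Units.val_mul, Matrix.mul_assoc, Matrix.mul_assoc, h1,
      Matrix.mul_assoc]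
  have hwone : ∀ a b : Fin chevD4.nroots, height a = height b →
      (w : Matrix chevD4.Idx chevD4.Idx F) (Sum.inr a) (Sum.inr b) = if a = b then 1 else 0 := by
    intro a b hab
    have hr : ((w : Matrix chevD4.Idx chevD4.Idx F) - 1) (Sum.inr a) (Sum.inr b) = 0 := by
      by_contra hne
      rw [CfsgLib.Chevalley.posUnipotent_eq] at hwU
      have := CfsgLib.Chevalley.raiseBy_rootsU_weight cert_D4 weightCoef_height (fun _ hr => hr.1) zero_le_one
        (fun r hr => hhpos ⟨r, hr.1⟩ hr) hwU _ _ hne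
      simp only [wt, Sum.elim_inr] at this
      omega
    rw [Matrix.sub_apply, sub_eq_zero] at hr
    rw [hr, Matrix.one_apply]
    simp
  have sum9 : ∀ (m : Matrix chevD4.Idx chevD4.Idx F) (a : chevD4.Idx) (j : chevG2.Idx), num j = 9 →
      (m * incl F) a j = m a (Sum.inr ⟨18, by decide⟩) + m a (Sum.inr ⟨13, by decide⟩) +
        m a (Sum.inr ⟨12, by decide⟩) := by
    intro m a j hj
    rw [Matrix.mul_apply, ← Finset.sum_subset (Finset.subset_univ
      ({Sum.inr ⟨18, by decide⟩, Sum.inr ⟨13, by decide⟩, Sum.inr ⟨12, by decide⟩} : Finset chevD4.Idx))]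
    · rw [Finset.sum_insert (by simp), Finset.sum_insert (by simp), Finset.sum_singleton]
      simp [incl, castM, hj, hcol9, add_assoc]
    · intro b _ hb
      simp only [Finset.mem_insert, Finset.mem_singleton] at hb
      simp [incl, castM, hj, hcol9, hb]
  have sum8 : ∀ (m : Matrix chevD4.Idx chevD4.Idx F) (a : chevD4.Idx) (j : chevG2.Idx), num j = 8 →
      (m * incl F) a j = m a (Sum.inr ⟨14, by decide⟩) := by
    intro m a j hj
    rw [Matrix.mul_apply, Finset.sum_eq_single (Sum.inr ⟨14, by decide⟩)]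
    · simp [incl, castM, hj, hcol8]
    · intro b _ hb
      simp [incl, castM, hj, hcol8, hb]
    · simp
  have hpos14 : chevD4.IsPosRoot (14 : ℕ) := by
    have := fullD4.simple_pos (i := 1) (by decide)
    rwa [show chevD4.simple 1 = 14 from rfl] at this
  have hpos18 : chevD4.IsPosRoot (18 : ℕ) := by
    have := fullD4.simple_pos (i := 0) (by decide)
    rwa [show chevD4.simple 0 = 18 from rfl] at this
  have hmid : σ ⟨14, by decide⟩ = (⟨14, by decide⟩ : Fin chevD4.nroots) := by
    by_contra hne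
    have h1 := congrFun (congrFun hnw (Sum.inr (⟨14, by decide⟩ : Fin chevD4.nroots)))
      (Sum.inr (⟨6, by decide⟩ : Fin chevG2.nroots))
    rw [sum8 _ _ _ rfl, sum8 _ _ _ rfl, hwone _ _ rfl, if_pos rfl, hA.col,
      if_neg (fun h => hne (Sum.inr.inj h).symm)] at h1
    exact zero_ne_one h1
  obtain ⟨r, hr, hrσ⟩ : ∃ r : Fin chevD4.nroots, ((r : ℕ) = 18 ∨ (r : ℕ) = 13 ∨ (r : ℕ) = 12) ∧
      σ r = ⟨18, by decide⟩ := by
    by_contra hcon
    simp only [not_exists, not_and] at hcon
    have h1 := congrFun (congrFun hnw (Sum.inr (⟨18, by decide⟩ : Fin chevD4.nroots)))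
      (Sum.inr (⟨7, by decide⟩ : Fin chevG2.nroots))
    rw [sum9 _ _ _ rfl, sum9 _ _ _ rfl, hwone _ _ rfl, hwone _ _ p1, hwone _ _ p2, if_pos rfl,
      if_neg (by simp), if_neg (by simp), hA.col, hA.col, hA.col,
      if_neg (fun h => hcon ⟨18, by decide⟩ (Or.inl rfl) (Sum.inr.inj h).symm),
      if_neg (fun h => hcon ⟨13, by decide⟩ (Or.inr (Or.inl rfl)) (Sum.inr.inj h).symm),
      if_neg (fun h => hcon ⟨12, by decide⟩ (Or.inr (Or.inr rfl)) (Sum.inr.inj h).symm)] at h1
    simp at h1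
  have hcomm := hG.perm_comm hnN (hG.fix n hn) hA
  have hpow : ∀ (k : ℕ) (s : Fin chevD4.nroots), (((ρ ^ k) s : Fin chevD4.nroots) : ℕ) = graphSigmaD4A^[k] s := by
    intro k s
    induction k with
    | zero => rfl
    | succ k ih => rw [pow_succ', Equiv.Perm.mul_apply, hval, ih, Function.iterate_succ_apply']
  have hall : ∀ s : Fin chevD4.nroots, ((s : ℕ) = 18 ∨ (s : ℕ) = 13 ∨ (s : ℕ) = 12) → chevD4.IsPosRoot (σ s) := by
    intro s hs
    have horb : ∀ a ∈ [18, 13, 12], ∀ b ∈ [18, 13, 12], ∃ k < 3, graphSigmaD4A^[k] a = b := by decide +kernel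
    obtain ⟨k, -, hk⟩ := horb r (by simpa using hr) s (by simpa using hs)
    rw [show s = (ρ ^ k) r from Fin.ext (by rw [hpow, hk]), hcomm k r, hrσ]
    exact hG.pow_isPos k hpos18
  have hnd : n ∈ chevD4.diagonalSubgroup F := by
    refine CfsgLib.Chevalley.mem_diagonal_of_perm fullD4 hnN hA fun i => ?_
    rcases i with ⟨_ | _ | _ | _ | m, hi⟩
    · exact hall _ (Or.inl rfl)
    · show chevD4.IsPosRoot (σ ⟨14, by decide⟩)
      rw [hmid]
      exact hpos14
    · exact hall _ (Or.inr (Or.inl rfl))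
    · exact hall _ (Or.inr (Or.inr rfl))
    · exact absurd hi (by simp only [show chevD4.rank = 4 from rfl]; omega)
  rw [CfsgLib.Chevalley.diagonalSubgroup_eq_range fullD4] at hnd
  obtain ⟨c, rfl⟩ := hnd
  have hchi : ∀ a : Fin chevD4.nroots, (a : ℕ) = 14 ∨ (a : ℕ) = 18 → CfsgLib.Chevalley.chi chevD4 a c = 1 := by
    intro a ha
    have hT : ∀ b : Fin chevD4.nroots,
        (CfsgLib.Chevalley.torusHom chevD4 F c : Matrix chevD4.Idx chevD4.Idx F) (Sum.inr a) (Sum.inr b) =
          if a = b then ((CfsgLib.Chevalley.chi chevD4 a c : Fˣ) : F) else 0 := by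
      intro b
      rw [CfsgLib.Chevalley.coe_torusHom, Matrix.diagonal_apply]
      simp
    rcases ha with ha | ha
    · obtain rfl : a = ⟨14, by decide⟩ := Fin.ext ha
      have h1 := congrFun (congrFun hnw (Sum.inr (⟨14, by decide⟩ : Fin chevD4.nroots)))
        (Sum.inr (⟨6, by decide⟩ : Fin chevG2.nroots))
      rw [sum8 _ _ _ rfl, sum8 _ _ _ rfl, hwone _ _ rfl, if_pos rfl, hT, if_pos rfl] at h1
      exact Units.ext h1
    · obtain rfl : a = ⟨18, by decide⟩ := Fin.ext ha
      have h1 := congrFun (congrFun hnw (Sum.inr (⟨18, by decide⟩ : Fin chevD4.nroots)))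
        (Sum.inr (⟨7, by decide⟩ : Fin chevG2.nroots))
      rw [sum9 _ _ _ rfl, sum9 _ _ _ rfl, hwone _ _ rfl, hwone _ _ p1, hwone _ _ p2, hT, hT, hT, if_pos rfl,
        if_pos rfl, if_neg (by simp), if_neg (by simp), if_neg (by simp), if_neg (by simp), add_zero,
        add_zero, add_zero, add_zero] at h1
      exact Units.ext h1
  have k18 : CfsgLib.Chevalley.chi chevD4 18 c = 1 := hchi ⟨18, by decide⟩ (Or.inr rfl)
  have k14 : CfsgLib.Chevalley.chi chevD4 14 c = 1 := hchi ⟨14, by decide⟩ (Or.inl rfl)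
  have f1 := fix_torus hn (⟨18, by decide⟩ : Fin chevD4.nroots)
  have f2 := fix_torus hn (⟨13, by decide⟩ : Fin chevD4.nroots)
  rw [show graphSigmaD4A 18 = 13 by decide +kernel] at f1
  rw [show graphSigmaD4A 13 = 12 by decide +kernel] at f2
  have hone : CfsgLib.Chevalley.torusHom chevD4 F c = 1 := by
    rw [← MonoidHom.mem_ker, CfsgLib.Chevalley.ker_torusHom fullD4, MonoidHom.mem_ker]
    funext j
    show CfsgLib.Chevalley.chi chevD4 (chevD4.simple j) c = 1
    rcases j with ⟨_ | _ | _ | _ | m, hi⟩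
    · exact k18
    · exact k14
    · show CfsgLib.Chevalley.chi chevD4 13 c = 1
      exact f1.trans k18
    · show CfsgLib.Chevalley.chi chevD4 12 c = 1
      exact f2.trans (f1.trans k18)
    · exact absurd hi (by simp only [show chevD4.rank = 4 from rfl]; omega)
  rw [hone, mul_one] at e
  rw [e]
  exact mul_mem huU hu'U

/-- the word of the longest element -/
def longWord : List ℕ := [1, 0, 2, 3, 1, 0, 2, 3, 1, 0, 2, 3]

theorem longWord_checks :
    (∀ r : Fin chevD4.nroots, chevD4.IsPosRoot r → chevD4.IsNegRoot (moveRoot sigmaD4 longWord r)) ∧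
      (∀ i ∈ longWord, i < chevD4.rank) := by
  decide +kernel

theorem moveG_longWord_mem : (moveG cert_D4 longWord : GL chevD4.Idx F) ∈ twistedD4 F 1 := by
  have e : (moveG cert_D4 longWord : GL chevD4.Idx F) =
      moveG cert_D4 [1] * moveG cert_D4 [0, 2, 3] * moveG cert_D4 [1] * moveG cert_D4 [0, 2, 3] *
        moveG cert_D4 [1] * moveG cert_D4 [0, 2, 3] := by
    simp [moveG, longWord, mul_assoc]
  rw [e]
  have h1 : [1] ∈ blocksD4 := by simp [blocksD4]
  have h2 : [0, 2, 3] ∈ blocksD4 := by simp [blocksD4]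
  exact mul_mem (mul_mem (mul_mem (mul_mem (mul_mem (moveG_block_mem h1) (moveG_block_mem h2))
    (moveG_block_mem h1)) (moveG_block_mem h2)) (moveG_block_mem h1)) (moveG_block_mem h2)

theorem actHom_injective [Finite F] : Function.Injective (actHom F) := by
  rw [← MonoidHom.ker_eq_bot_iff, eq_bot_iff]
  intro g hg
  rw [MonoidHom.mem_ker] at hg
  rw [Subgroup.mem_bot]
  have h0 : moveG cert_D4 longWord ∈ triFixed F := twistedD4_le_triFixed moveG_longWord_mem
  set n0 : ↥(triFixed F) := ⟨_, h0⟩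
  have hconj : actHom F (n0 * g * n0⁻¹) = 1 := by rw [map_mul, map_mul, hg, mul_one, map_inv, mul_inv_cancel]
  have h1 := mem_posUnipotent_of_fix hg
  have h2 := mem_posUnipotent_of_fix hconj
  obtain ⟨hneg, hlt⟩ := longWord_checks
  have h3 : moveG cert_D4 longWord * (g : GL chevD4.Idx F) * (moveG cert_D4 longWord)⁻¹ ∈
      chevD4.negUnipotent F := by
    rw [CfsgLib.Chevalley.posUnipotent_eq] at h1
    generalize (g : GL chevD4.Idx F) = x at h1 ⊢
    induction h1 using CfsgLib.Chevalley.rootsU_induction cert_D4 with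
    | h1 => simp [one_mem]
    | hx r hr t =>
      obtain ⟨hlt', e⟩ := CfsgLib.Twisted.moveG_mul_xG (F := F) cert_D4 CfsgLib.Twisted.rootCertD4 hlt hr.1 t
      rw [e, mul_inv_cancel_right]
      exact CfsgLib.Chevalley.xG_mem_rootsU (S := {s | chevD4.IsNegRoot s}) cert_D4 (hneg ⟨r, hr.1⟩ hr) _
    | hmul a b _ _ iha ihb =>
      rw [show moveG cert_D4 longWord * (a * b) * (moveG cert_D4 longWord)⁻¹ =
        moveG cert_D4 longWord * a * (moveG cert_D4 longWord)⁻¹ *
          (moveG cert_D4 longWord * b * (moveG cert_D4 longWord)⁻¹) by group]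
      exact mul_mem iha ihb
  have h4 : (moveG cert_D4 longWord * (g : GL chevD4.Idx F) * (moveG cert_D4 longWord)⁻¹) ∈
      chevD4.borelSubgroup F ⊓ chevD4.negUnipotent F := ⟨Subgroup.mem_sup_left h2, h3⟩
  rw [CfsgLib.Chevalley.borel_inf_negUnipotent fullD4, Subgroup.mem_bot, conj_eq_one_iff] at h4
  exact Subtype.ext h4

/-- The fixed elements form a copy of G2(F). -/
noncomputable def triFixedEquiv [Finite F] : ↥(triFixed F) ≃* ↥(chevG2.group F) :=
  (MonoidHom.ofInjective actHom_injective).trans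
    (MulEquiv.subgroupCongr (le_antisymm range_le_group group_le_range))

theorem perm_cases : ∀ f : Fin 4 → Fin 4, Function.Injective f →
    (∀ i j : Fin 4, i ≠ j → chevD4.bonds (f i) (f j) = chevD4.bonds i j) →
    (∀ i, (f i : ℕ) = [2, 1, 3, 0].getD i 0) ∨ (∀ i, (f i : ℕ) = [3, 1, 0, 2].getD i 0) ∨ ∀ i, f (f i) = i := by
  decide +kernel

theorem graphExp_eq (c i j : ℕ) (hj : j < 4) : chevD4.graphExp c i j = 1 := by
  have h : ∀ k < 4, chevD4.isLong (chevD4.simple k) = false := by decide +kernel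
  simp [ChevalleyDatum.graphExp, h j hj]

theorem triUnit_inv_conj {r : ℕ} (hr : r < 24) (t : F) :
    (triUnit F)⁻¹ * xG cert_D4 r t * triUnit F =
      xG cert_D4 (CfsgLib.Twisted.graphSigmaD4B r) ((CfsgLib.Twisted.graphEtaD4B r : F) * t) := by
  have h := CfsgLib.Twisted.graphAutD4B_check
  simp only [Bool.and_eq_true] at h
  rw [← eq_mul_inv_iff_mul_eq]
  refine Units.ext ?_
  simp only [Units.val_mul, coe_xG]
  have e : ((triUnit F)⁻¹ : GL chevD4.Idx F).val =
      autMat chevD4 F CfsgLib.Twisted.graphSigmaD4B CfsgLib.Twisted.graphEtaD4B CfsgLib.Twisted.graphND4B := by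
    show autMat chevD4 F CfsgLib.Twisted.graphSigmaInvD4A CfsgLib.Twisted.graphEtaInvD4A
      CfsgLib.Twisted.graphNInvD4A = _
    have hN : ∀ k j : Fin 4, CfsgLib.Twisted.graphNInvD4A k j = CfsgLib.Twisted.graphND4B k j := by decide +kernel
    ext a b
    rcases a with k | v <;> rcases b with j | s
    · simp only [autMat, Matrix.of_apply, Sum.elim_inl]
      exact congrArg _ (hN k j)
    · rfl
    · rfl
    · rfl
  rw [e]
  exact CfsgLib.Twisted.autMat_mul_x (D := chevD4)
    (CfsgLib.Twisted.isAutData_of_check chevD4 CfsgLib.Twisted.tablesD4 h.1.1.1) F hr t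

/-- A graph automorphism of order 3 is conjugation by the triality matrix or its inverse. -/
theorem exists_conj {τ : ↥(chevD4.group F) ≃* ↥(chevD4.group F)} (hτ : chevD4.IsGraphAut τ)
    (hord : ¬ ∀ g, τ (τ g) = g) :
    ∃ v : GL chevD4.Idx F, (v = triUnit F ∨ v = (triUnit F)⁻¹) ∧
      ∀ g : ↥(chevD4.group F), ((τ g : ↥(chevD4.group F)) : GL chevD4.Idx F) = v * g * v⁻¹ := by
  obtain ⟨π, hπ, hgen⟩ := hτ
  have hx : ∀ (i : Fin chevD4.rank) (t : F),
      τ (CfsgLib.Chevalley.xE cert_D4 (chevD4.simple i) t) = CfsgLib.Chevalley.xE cert_D4 (chevD4.simple (π i)) t ∧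
      τ (CfsgLib.Chevalley.xE cert_D4 (chevD4.neg (chevD4.simple i)) t) =
        CfsgLib.Chevalley.xE cert_D4 (chevD4.neg (chevD4.simple (π i))) t := by
    intro i t
    have he : t ^ chevD4.graphExp (ringChar F) i (π i) = t := by rw [graphExp_eq _ _ _ (π i).isLt, pow_one]
    refine ⟨(CfsgLib.Chevalley.eq_xE_iff cert_D4).1 ?_, (CfsgLib.Chevalley.eq_xE_iff cert_D4).1 ?_⟩
    · rw [(hgen _ i t).1 rfl, he]
    · rw [(hgen _ i t).2 rfl, he]
  have conjCase : ∀ (v : GL chevD4.Idx F) (σ : ℕ → ℕ) (η : ℕ → ℤ),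
      (∀ r < 24, ∀ t : F, v * xG cert_D4 r t * v⁻¹ = xG cert_D4 (σ r) ((η r : F) * t)) →
      (∀ i : Fin chevD4.rank, σ (chevD4.simple i) = chevD4.simple (π i) ∧
        σ (chevD4.neg (chevD4.simple i)) = chevD4.neg (chevD4.simple (π i)) ∧
        η (chevD4.simple i) = 1 ∧ η (chevD4.neg (chevD4.simple i)) = 1) →
      ∀ g : ↥(chevD4.group F), ((τ g : ↥(chevD4.group F)) : GL chevD4.Idx F) = v * g * v⁻¹ := by
    intro v σ η hv hs g
    have e : (chevD4.group F).subtype.comp τ.toMonoidHom =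
        (MulAut.conj v).toMonoidHom.comp (chevD4.group F).subtype :=
      CfsgLib.Chevalley.hom_ext_simple fullD4 (fun i t => by
          show ((τ _ : ↥(chevD4.group F)) : GL chevD4.Idx F) = v * _ * v⁻¹
          simp only [(hx i t).1, Subgroup.subtype_apply, CfsgLib.Chevalley.coe_xE]
          rw [hv _ (cert_D4.wf.simple_lt i i.isLt), (hs i).1, (hs i).2.2.1, Int.cast_one, one_mul])
        (fun i t => by
          show ((τ _ : ↥(chevD4.group F)) : GL chevD4.Idx F) = v * _ * v⁻¹
          simp only [(hx i t).2, Subgroup.subtype_apply, CfsgLib.Chevalley.coe_xE]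
          rw [hv _ (cert_D4.wf.neg_lt _ (cert_D4.wf.simple_lt i i.isLt)), (hs i).2.1, (hs i).2.2.2,
            Int.cast_one, one_mul])
    exact DFunLike.congr_fun e g
  rcases perm_cases π π.injective (fun i j hij => hπ i j hij) with hA | hB | hI
  · refine ⟨triUnit F, Or.inl rfl, conjCase _ _ _ (fun r hr t => triUnit_conj F hr t) fun i => ?_⟩
    rw [hA i]
    exact (show ∀ i : Fin 4, graphSigmaD4A (chevD4.simple i) = chevD4.simple ([2, 1, 3, 0].getD i 0) ∧
      graphSigmaD4A (chevD4.neg (chevD4.simple i)) = chevD4.neg (chevD4.simple ([2, 1, 3, 0].getD i 0)) ∧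
      graphEtaD4A (chevD4.simple i) = 1 ∧ graphEtaD4A (chevD4.neg (chevD4.simple i)) = 1 by decide +kernel) i
  · refine ⟨(triUnit F)⁻¹, Or.inr rfl, conjCase _ CfsgLib.Twisted.graphSigmaD4B CfsgLib.Twisted.graphEtaD4B
      (fun r hr t => by rw [inv_inv]; exact triUnit_inv_conj hr t) fun i => ?_⟩
    rw [hB i]
    exact (show ∀ i : Fin 4, CfsgLib.Twisted.graphSigmaD4B (chevD4.simple i) = chevD4.simple ([3, 1, 0, 2].getD i 0) ∧
      CfsgLib.Twisted.graphSigmaD4B (chevD4.neg (chevD4.simple i)) =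
        chevD4.neg (chevD4.simple ([3, 1, 0, 2].getD i 0)) ∧
      CfsgLib.Twisted.graphEtaD4B (chevD4.simple i) = 1 ∧
      CfsgLib.Twisted.graphEtaD4B (chevD4.neg (chevD4.simple i)) = 1 by decide +kernel) i
  · refine absurd (fun g => ?_) hord
    exact DFunLike.congr_fun (CfsgLib.Chevalley.hom_ext_simple fullD4
      (φ := τ.toMonoidHom.comp τ.toMonoidHom) (ψ := MonoidHom.id _)
      (fun i t => by
        show τ (τ _) = _
        rw [(hx i t).1, (hx (π i) t).1, show π (π i) = i from hI i]; rfl)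
      (fun i t => by
        show τ (τ _) = _
        rw [(hx i t).2, (hx (π i) t).2, show π (π i) = i from hI i]; rfl)) g

/-- The fixed points of a graph automorphism of order 3 of D4(F) form G2(F). -/
theorem nonempty_fixed_equiv [Finite F] (τ : MulAut ↥(chevD4.group F)) (hτ : chevD4.IsGraphAut τ)
    (hτ3 : orderOf τ = 3) :
    Nonempty (↥(MonoidHom.eqLocus τ.toMonoidHom (MonoidHom.id ↥(chevD4.group F))) ≃* ↥(chevG2.group F)) := by
  have hord : ¬ ∀ g, τ (τ g) = g := fun h => by
    have : τ ^ 2 = 1 := MulEquiv.ext fun g => by rw [sq]; exact h g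
    have := Nat.le_of_dvd (by omega) (orderOf_dvd_of_pow_eq_one this)
    omega
  obtain ⟨v, hv, hconj⟩ := exists_conj hτ hord
  have hmap : (MonoidHom.eqLocus τ.toMonoidHom (MonoidHom.id _)).map (chevD4.group F).subtype = triFixed F := by
    ext g
    constructor
    · rintro ⟨x, hx, rfl⟩
      have hx' : ((τ x : ↥(chevD4.group F)) : GL chevD4.Idx F) = x := congrArg Subtype.val hx
      rw [hconj] at hx'
      refine mem_triFixed.2 ⟨x.2, ?_⟩
      rcases hv with rfl | rfl
      · exact hx'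
      · show triUnit F * (x : GL chevD4.Idx F) * (triUnit F)⁻¹ = x
        conv_lhs => rw [← hx']
        group
    · intro hg
      obtain ⟨hgG, hg⟩ := mem_triFixed.1 hg
      refine ⟨⟨g, hgG⟩, Subtype.ext ?_, rfl⟩
      show ((τ ⟨g, hgG⟩ : ↥(chevD4.group F)) : GL chevD4.Idx F) = g
      rw [hconj]
      rcases hv with rfl | rfl
      · exact hg
      · show (triUnit F)⁻¹ * g * (triUnit F)⁻¹⁻¹ = g
        conv_lhs => rw [← hg]
        group
  exact ⟨((Subgroup.equivMapOfInjective _ _ (chevD4.group F).subtype_injective).trans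
    (MulEquiv.subgroupCongr hmap)).trans triFixedEquiv⟩

end CfsgLib.ReflectionsSpinor.TrialityG2
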