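import Cfsg.Prelude.Def_ChevG2
import Cfsg.Agent.Lib.Twisted.GraphAut
import Cfsg.Agent.Lib.Twisted.FixedGraphData
import Cfsg.Agent.Lib.Chevalley.CertAll

/-!
The integer matrices relating the Chevalley group of type G2 to the elements of D4 commuting with triality:
the inclusion `P` of the fixed vectors, a left inverse `L`, and a certificate that every fixed vector lies
in the image of `P`.
-/

set_option autoImplicit false
set_option maxRecDepth 100000

namespace CfsgLib.ReflectionsSpinor.TrialityG2

open Cfsg.Lie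
open CfsgLib.Chevalley (code coefList coefIn coefMat xR_eq_sum)
open CfsgLib.Twisted (autMat graphSigmaD4A graphEtaD4A graphND4A)

/-- the inclusion of the fixed vectors -/
def pList : CfsgLib.Chevalley.Sparse.SMat :=
  [(0, 0, 1), (1, 1, 1), (2, 0, 1), (3, 0, 1), (4, 2, -1), (5, 3, -1), (6, 4, -1), (7, 4, -1), (8, 5, 1), (9, 6, 1), (10, 4, 1), (11, 5, -1), (12, 5, -1), (13, 7, 1), (14, 6, 1), (15, 6, 1), (16, 9, 1), (17, 9, 1), (18, 8, 1), (19, 10, -1), (20, 10, -1), (21, 11, 1), (22, 9, 1), (23, 10, 1), (24, 11, -1), (25, 11, -1), (26, 12, -1), (27, 13, -1)]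

/-- its left inverse -/
def lList : CfsgLib.Chevalley.Sparse.SMat :=
  [(0, 0, 1), (1, 1, 1), (2, 4, -1), (3, 5, -1), (4, 6, -1), (5, 8, 1), (6, 9, 1), (7, 13, 1), (8, 18, 1), (9, 16, 1), (10, 19, -1), (11, 21, 1), (12, 26, -1), (13, 27, -1)]

/-- `1 - P L = R (M - 1)` -/
def rList : CfsgLib.Chevalley.Sparse.SMat :=
  [(2, 2, -1), (3, 2, -1), (3, 3, -1), (7, 7, -1), (7, 10, 1), (10, 6, -1), (10, 7, -1), (11, 8, -1), (11, 12, 1), (12, 8, -1), (14, 14, -1), (15, 14, -1), (15, 15, -1), (17, 17, -1), (17, 22, -1), (20, 20, -1), (20, 23, 1), (22, 22, -1), (23, 19, -1), (23, 20, -1), (24, 21, -1), (24, 25, 1), (25, 21, -1)]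

/-- the matrix of the triality -/
def mList : CfsgLib.Chevalley.Sparse.SMat :=
  [(0, 3, 1), (1, 1, 1), (2, 0, 1), (3, 2, 1), (4, 4, 1), (5, 5, 1), (6, 7, 1), (7, 10, -1), (8, 12, -1), (9, 15, 1), (10, 6, -1), (11, 8, -1), (12, 11, 1), (13, 13, 1), (14, 9, 1), (15, 14, 1), (16, 17, 1), (17, 22, 1), (18, 18, 1), (19, 20, 1), (20, 23, -1), (21, 25, -1), (22, 16, 1), (23, 19, -1), (24, 21, -1), (25, 24, 1), (26, 26, 1), (27, 27, 1)]

/-- entrywise cast of a rectangular sparse matrix -/
def castM {ι κ : Type*} (R : Type*) [Ring R] (c : ι → ℕ) (d : κ → ℕ) (L : CfsgLib.Chevalley.Sparse.SMat) : Matrix ι κ R :=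
  Matrix.of fun a b => ((CfsgLib.Chevalley.Sparse.entry L (c a) (d b) : ℤ) : R)

/-- all column indices are below `N` -/
def colB (N : ℕ) (L : CfsgLib.Chevalley.Sparse.SMat) : Bool := L.all fun e => decide (e.2.1 < N)

theorem castM_mul {ι κ μ R : Type*} [Ring R] [Fintype κ] (c : ι → ℕ) {N : ℕ} (d : κ ≃ Fin N) (e : μ → ℕ)
    {L₁ L₂ : CfsgLib.Chevalley.Sparse.SMat} (h : colB N L₁ = true) :
    castM R c e (CfsgLib.Chevalley.Sparse.mulL L₁ L₂) = castM R c (fun a => (d a : ℕ)) L₁ * castM R (fun a => (d a : ℕ)) e L₂ := by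
  classical
  ext a b
  simp only [Matrix.mul_apply, castM, Matrix.of_apply]
  induction L₁ with
  | nil => simp [CfsgLib.Chevalley.Sparse.mulL]
  | cons x L₁ ih =>
    simp only [colB, List.all_cons, Bool.and_eq_true, decide_eq_true_eq] at h
    rw [CfsgLib.Chevalley.Sparse.entry_mulL_cons, Int.cast_add, ih h.2]
    simp only [CfsgLib.Chevalley.Sparse.entry_cons, Int.cast_add, add_mul, Finset.sum_add_distrib]
    congr 1
    by_cases hx : x.1 = c a
    · simp only [hx, true_and, if_true, Int.cast_mul]
      rw [Finset.sum_eq_single (d.symm ⟨x.2.1, h.1⟩)]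
      · simp
      · intro y _ hy
        rw [if_neg, Int.cast_zero, zero_mul]
        intro he
        exact hy (d.injective (Fin.ext (by simp [he])))
      · simp
    · simp [hx]

theorem castM_append {ι κ R : Type*} [Ring R] (c : ι → ℕ) (d : κ → ℕ) (L L' : CfsgLib.Chevalley.Sparse.SMat) :
    castM R c d (L ++ L') = castM R c d L + castM R c d L' := by
  ext a b
  simp [castM, CfsgLib.Chevalley.Sparse.entry_append]

/-- equality of sparse matrices of the given shape -/
def sameB (n m : ℕ) (L L' : CfsgLib.Chevalley.Sparse.SMat) : Bool :=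
  (List.range n).all fun i => (List.range m).all fun j =>
    CfsgLib.Twisted.intEqb (CfsgLib.Chevalley.Sparse.entry L i j) (CfsgLib.Chevalley.Sparse.entry L' i j)

theorem castM_eq {ι κ R : Type*} [Ring R] {n m : ℕ} (c : ι → Fin n) (d : κ → Fin m) {L L' : CfsgLib.Chevalley.Sparse.SMat}
    (h : sameB n m L L' = true) :
    castM R (fun a => (c a : ℕ)) (fun b => (d b : ℕ)) L = castM R (fun a => (c a : ℕ)) (fun b => (d b : ℕ)) L' := by
  simp only [sameB, List.all_eq_true, List.mem_range] at h
  ext a b
  simp only [castM, Matrix.of_apply]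
  rw [CfsgLib.Twisted.intEqb_eq (h _ (c a).isLt _ (d b).isLt)]

/-- the polynomial with the given coefficient matrices -/
def evalL {ι κ R : Type*} [CommRing R] (c : ι → ℕ) (d : κ → ℕ) (t : R) : List CfsgLib.Chevalley.Sparse.SMat → Matrix ι κ R
  | [] => 0
  | A :: l => castM R c d A + t • evalL c d t l

/-- coefficientwise sum -/
def addL : List CfsgLib.Chevalley.Sparse.SMat → List CfsgLib.Chevalley.Sparse.SMat → List CfsgLib.Chevalley.Sparse.SMat
  | [], l => l
  | l, [] => l
  | A :: l, B :: l' => (A ++ B) :: addL l l'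

theorem evalL_addL {ι κ R : Type*} [CommRing R] (c : ι → ℕ) (d : κ → ℕ) (t : R) :
    ∀ l l', evalL c d t (addL l l') = evalL c d t l + evalL c d t l' := by
  intro l
  induction l with
  | nil => intro l'; simp [addL, evalL]
  | cons A l ih =>
    intro l'
    rcases l' with _ | ⟨B, l'⟩
    · simp [addL, evalL]
    · simp only [addL, evalL, castM_append, ih, smul_add]
      abel

theorem evalL_mulL {ι κ μ R : Type*} [CommRing R] [Fintype κ] (c : ι → ℕ) {N : ℕ} (d : κ ≃ Fin N) (e : μ → ℕ)
    (t : R) {A : CfsgLib.Chevalley.Sparse.SMat} (hA : colB N A = true) :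
    ∀ l, castM R c (fun a => (d a : ℕ)) A * evalL (fun a => (d a : ℕ)) e t l =
      evalL c e t (l.map (CfsgLib.Chevalley.Sparse.mulL A)) := by
  intro l
  induction l with
  | nil => simp [evalL]
  | cons B l ih => simp only [List.map_cons, evalL, Matrix.mul_add, Matrix.mul_smul, ih, castM_mul c d e hA]

theorem castM_nil {ι κ R : Type*} [Ring R] (c : ι → ℕ) (d : κ → ℕ) :
    castM R c d [] = (0 : Matrix ι κ R) := by ext a b; simp [castM]

/-- coefficientwise equality -/
def samePolyB (n m : ℕ) : List CfsgLib.Chevalley.Sparse.SMat → List CfsgLib.Chevalley.Sparse.SMat → Bool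
  | [], l' => l'.all fun B => sameB n m [] B
  | A :: l, [] => sameB n m A [] && samePolyB n m l []
  | A :: l, B :: l' => sameB n m A B && samePolyB n m l l'

theorem evalL_eq {ι κ R : Type*} [CommRing R] {n m : ℕ} (c : ι → Fin n) (d : κ → Fin m) (t : R) :
    ∀ l l', samePolyB n m l l' = true →
      evalL (fun a => (c a : ℕ)) (fun b => (d b : ℕ)) t l = evalL (fun a => (c a : ℕ)) (fun b => (d b : ℕ)) t l' := by
  intro l
  induction l with
  | nil =>
    intro l'
    induction l' with
    | nil => intro _; rfl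
    | cons B l' ih =>
      intro h
      simp only [samePolyB, List.all_cons, Bool.and_eq_true] at h
      rw [evalL, evalL, ← ih (by simpa only [samePolyB] using h.2), ← castM_eq c d h.1, castM_nil]
      simp [evalL]
  | cons A l ih =>
    intro l' h
    rcases l' with _ | ⟨B, l'⟩
    · simp only [samePolyB, Bool.and_eq_true] at h
      simp only [evalL]
      rw [castM_eq c d h.1, ih _ h.2, castM_nil]
      simp [evalL]
    · simp only [samePolyB, Bool.and_eq_true] at h
      rw [evalL, evalL, castM_eq c d h.1, ih _ h.2]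

/-- the numbering of the coordinates -/
def num {D : ChevalleyDatum} (a : D.Idx) : ℕ := (code D a : Fin _)

/-- a root element times a polynomial -/
def stepL (D : ChevalleyDatum) (r : ℕ) (l : List CfsgLib.Chevalley.Sparse.SMat) : List CfsgLib.Chevalley.Sparse.SMat :=
  addL (addL l ([] :: l.map (CfsgLib.Chevalley.Sparse.mulL (coefList D 1 r))))
    (addL ([] :: [] :: l.map (CfsgLib.Chevalley.Sparse.mulL (coefList D 2 r)))
      ([] :: [] :: [] :: l.map (CfsgLib.Chevalley.Sparse.mulL (coefList D 3 r))))

theorem coefIn_eq {D : ChevalleyDatum} (R : Type*) [CommRing R] (k r : ℕ) :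
    coefIn D R k r = castM R (num (D := D)) num (coefList D k r) := rfl

theorem x_mul_evalL {D : ChevalleyDatum} {μ F : Type*} [Field F] (hD : CfsgLib.Chevalley.WF D) (e : μ → ℕ)
    {r : ℕ} (hr : r < D.nroots) (hc : ∀ k ∈ [1, 2, 3], colB (D.rank + D.nroots) (coefList D k r) = true)
    (t : F) (l : List CfsgLib.Chevalley.Sparse.SMat) :
    D.x F r t * evalL num e t l = evalL num e t (stepL D r l) := by
  have h1 := evalL_mulL (R := F) (num (D := D)) (code D) e t (hc 1 (by simp)) l
  have h2 := evalL_mulL (R := F) (num (D := D)) (code D) e t (hc 2 (by simp)) l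
  have h3 := evalL_mulL (R := F) (num (D := D)) (code D) e t (hc 3 (by simp)) l
  rw [CfsgLib.Chevalley.x_eq_xR D F hr, xR_eq_sum D hD, coefIn_eq, coefIn_eq, coefIn_eq]
  rw [show (num (D := D)) = fun a => ((code D a : Fin _) : ℕ) from rfl] at h1 h2 h3 ⊢
  have hexp : ∀ (A B C : Matrix D.Idx D.Idx F) (X : Matrix D.Idx μ F) (a b c : F),
      (1 + a • A + b • B + c • C) * X = X + a • (A * X) + b • (B * X) + c • (C * X) := by
    intro A B C X a b c
    rw [Matrix.add_mul, Matrix.add_mul, Matrix.add_mul, Matrix.one_mul, Matrix.smul_mul, Matrix.smul_mul,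
      Matrix.smul_mul]
  refine (hexp _ _ _ _ _ _ _).trans ?_
  rw [h1, h2, h3]
  simp only [stepL, evalL_addL, evalL, castM_nil, zero_add, smul_add, smul_smul]
  simp only [pow_two, pow_three]
  abel

/-- the inclusion, over a field -/
def incl (F : Type*) [Field F] : Matrix chevD4.Idx chevG2.Idx F := castM F num num pList

/-- the retraction, over a field -/
def proj (F : Type*) [Field F] : Matrix chevG2.Idx chevD4.Idx F := castM F num num lList

theorem mat_checks :
    (colB 28 lList && colB 14 pList && colB 28 mList && colB 28 rList &&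
    sameB 14 14 (CfsgLib.Chevalley.Sparse.mulL lList pList) ((List.range 14).map fun i => (i, i, (1 : ℤ))) &&
    sameB 28 14 (CfsgLib.Chevalley.Sparse.mulL mList pList) pList &&
    sameB 28 28 (CfsgLib.Chevalley.Sparse.mulL pList lList ++ CfsgLib.Chevalley.Sparse.mulL rList mList ++ CfsgLib.Chevalley.Sparse.smulL (-1) rList)
      ((List.range 28).map fun i => (i, i, (1 : ℤ)))) = true := by
  decide +kernel

theorem castM_id {D : ChevalleyDatum} (R : Type*) [Ring R] :
    castM R (num (D := D)) (num (D := D)) ((List.range (D.rank + D.nroots)).map fun i => (i, i, (1 : ℤ))) =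
      (1 : Matrix D.Idx D.Idx R) := by
  classical
  ext a b
  have key : ∀ l i j, CfsgLib.Chevalley.Sparse.entry ((List.range l).map fun i => (i, i, (1 : ℤ))) i j =
      if i = j ∧ i < l then 1 else 0 := by
    intro l i j
    induction l with
    | zero => simp
    | succ l ih =>
      rw [List.range_succ, List.map_append, CfsgLib.Chevalley.Sparse.entry_append, ih]
      simp only [List.map_cons, List.map_nil, CfsgLib.Chevalley.Sparse.entry_cons, CfsgLib.Chevalley.Sparse.entry_nil, add_zero]
      split_ifs <;> first | rfl | omega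
  simp only [castM, Matrix.of_apply, key, num, Matrix.one_apply]
  by_cases h : a = b
  · subst h
    rw [if_pos ⟨rfl, (code D a).isLt⟩, if_pos rfl, Int.cast_one]
  · rw [if_neg (fun hh => h ((code D).injective (Fin.ext hh.1))), if_neg h, Int.cast_zero]

theorem autMat_entry : ∀ a b : chevD4.Idx,
    CfsgLib.Chevalley.Sparse.entry mList (num a) (num b) =
      Sum.elim (fun k : Fin chevD4.rank => Sum.elim (fun j : Fin chevD4.rank => graphND4A k j) (fun _ => 0) b)
        (fun v : Fin chevD4.nroots => Sum.elim (fun _ => 0)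
          (fun s : Fin chevD4.nroots => if (v : ℕ) = graphSigmaD4A s then graphEtaD4A s else 0) b) a := by
  decide +kernel

theorem autMat_eq (F : Type*) [Field F] :
    autMat chevD4 F graphSigmaD4A graphEtaD4A graphND4A = castM F (num (D := chevD4)) (num (D := chevD4)) mList := by
  ext a b
  rw [castM, Matrix.of_apply, autMat_entry, autMat, Matrix.of_apply]
  rcases a with k | v <;> rcases b with j | s <;> simp

theorem proj_incl (F : Type*) [Field F] : proj F * incl F = 1 := by
  have h := mat_checks
  simp only [Bool.and_eq_true] at h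
  rw [proj, incl, show (num (D := chevD4)) = fun a => ((code chevD4 a : Fin _) : ℕ) from rfl,
    ← castM_mul _ (code chevD4) _ h.1.1.1.1.1.1, ← castM_id (D := chevG2) F]
  exact castM_eq (code chevG2) (code chevG2) h.1.1.2

theorem autMat_incl (F : Type*) [Field F] :
    autMat chevD4 F graphSigmaD4A graphEtaD4A graphND4A * incl F = incl F := by
  have h := mat_checks
  simp only [Bool.and_eq_true] at h
  rw [autMat_eq, incl, show (num (D := chevD4)) = fun a => ((code chevD4 a : Fin _) : ℕ) from rfl,
    ← castM_mul _ (code chevD4) _ h.1.1.1.1.2]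
  exact castM_eq (code chevD4) (code chevG2) h.1.2

/-- Fixed columns lie in the image of the inclusion. -/
theorem eq_incl_proj {F : Type*} [Field F] {μ : Type*} {v : Matrix chevD4.Idx μ F}
    (hv : autMat chevD4 F graphSigmaD4A graphEtaD4A graphND4A * v = v) : incl F * (proj F * v) = v := by
  have h := mat_checks
  simp only [Bool.and_eq_true] at h
  have e : incl F * proj F + castM F (num (D := chevD4)) (num (D := chevD4)) rList * castM F (num (D := chevD4)) (num (D := chevD4)) mList -
      castM F (num (D := chevD4)) (num (D := chevD4)) rList = (1 : Matrix chevD4.Idx chevD4.Idx F) := by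
    rw [incl, proj, show (num (D := chevD4)) = fun a => ((code chevD4 a : Fin _) : ℕ) from rfl,
      show (num (D := chevG2)) = fun a => ((code chevG2 a : Fin _) : ℕ) from rfl,
      ← castM_mul _ (code chevG2) _ h.1.1.1.1.1.2, ← castM_mul _ (code chevD4) _ h.1.1.1.2, sub_eq_add_neg,
      ← castM_id (D := chevD4) F]
    refine Eq.trans ?_ (castM_eq (code chevD4) (code chevD4) h.2)
    rw [castM_append, castM_append]
    congr 1
    ext a b
    simp [castM, CfsgLib.Chevalley.Sparse.entry_smulL]
  rw [autMat_eq] at hv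
  calc incl F * (proj F * v)
      = incl F * proj F * v + castM F (num (D := chevD4)) (num (D := chevD4)) rList * (castM F (num (D := chevD4)) (num (D := chevD4)) mList * v) - castM F (num (D := chevD4)) (num (D := chevD4)) rList * v := by
        rw [hv, Matrix.mul_assoc]; abel
    _ = (1 : Matrix chevD4.Idx chevD4.Idx F) * v := by
        rw [← e, Matrix.sub_mul, Matrix.add_mul, Matrix.mul_assoc (castM F (num (D := chevD4)) (num (D := chevD4)) rList)]
    _ = v := Matrix.one_mul v

/-- the word of D4 above a fundamental generator of G2 -/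
def liftWord (r : ℕ) : List ℕ :=
  if r = 7 then [18, 13, 12] else if r = 4 then [5, 10, 11] else if r = 6 then [14] else [9]

theorem intertwine_checks : ([7, 4, 6, 5].all fun r =>
    samePolyB 28 14 ((liftWord r).foldr (stepL chevD4) [pList])
      [pList, CfsgLib.Chevalley.Sparse.mulL pList (coefList chevG2 1 r), CfsgLib.Chevalley.Sparse.mulL pList (coefList chevG2 2 r),
        CfsgLib.Chevalley.Sparse.mulL pList (coefList chevG2 3 r)] &&
    decide (r < 12) && (liftWord r).all fun s => decide (s < 24) &&
      [1, 2, 3].all fun k => colB 28 (coefList chevD4 k s)) = true := by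
  decide +kernel

/-- The lifted fundamental elements act on the fixed vectors as the root elements of G2. -/
theorem lift_mul_incl {F : Type*} [Field F] {r : ℕ} (hr : r ∈ [7, 4, 6, 5]) (t : F) :
    chevD4.wordMat F ((liftWord r).map fun s => (s, t)) * incl F = incl F * chevG2.x F r t := by
  have h := intertwine_checks
  simp only [List.all_eq_true, Bool.and_eq_true, decide_eq_true_eq] at h
  obtain ⟨⟨hsame, hlt⟩, hw⟩ := h r hr
  have hD := CfsgLib.Chevalley.cert_D4.wf
  have hG := CfsgLib.Chevalley.cert_G2.wf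
  have hP : colB 14 pList = true := by
    have hc := mat_checks
    simp only [Bool.and_eq_true] at hc
    exact hc.1.1.1.1.1.2
  have hleft : ∀ w : List ℕ, (∀ s ∈ w, s < 24 ∧ ∀ k ∈ [1, 2, 3], colB 28 (coefList chevD4 k s) = true) →
      chevD4.wordMat F (w.map fun s => (s, t)) * incl F = evalL num num t (w.foldr (stepL chevD4) [pList]) := by
    intro w
    induction w with
    | nil =>
      intro _
      rw [List.map_nil, CfsgLib.Twisted.wordMat_nil, Matrix.one_mul]
      simp [evalL, incl]
    | cons s w ih =>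
      intro hw
      rw [List.map_cons, CfsgLib.Twisted.wordMat_cons, Matrix.mul_assoc,
        ih fun x hx => hw x (List.mem_cons_of_mem _ hx), List.foldr_cons]
      exact x_mul_evalL hD num (hw s (by simp)).1 (hw s (by simp)).2 t _
  rw [hleft _ hw]
  have e := evalL_eq (R := F) (code chevD4) (code chevG2) t _ _ hsame
  refine e.trans ?_
  rw [CfsgLib.Chevalley.x_eq_xR chevG2 F (show r < chevG2.nroots from hlt), xR_eq_sum chevG2 hG, coefIn_eq,
    coefIn_eq, coefIn_eq, incl]
  simp only [evalL, smul_zero, add_zero, Matrix.mul_add, Matrix.mul_one, Matrix.mul_smul, smul_add, smul_smul]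
  rw [show (num (D := chevG2)) = fun a => ((code chevG2 a : Fin _) : ℕ) from rfl,
    castM_mul (R := F) _ (code chevG2) _ hP, castM_mul (R := F) _ (code chevG2) _ hP,
    castM_mul (R := F) _ (code chevG2) _ hP]
  simp only [pow_two, pow_three, add_assoc]
  rfl

end CfsgLib.ReflectionsSpinor.TrialityG2
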