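import Cfsg.Agent.Lib.ReflectionsSpinor.WallDisc

/-!
The Cayley transform between unipotent isometries of exponent `p` and skew maps with vanishing `p`-th power.
-/

set_option autoImplicit false
set_option linter.unusedSectionVars false

open Module Polynomial
open LinearMap (BilinForm)

namespace CfsgLib.ReflectionsSpinor.Wall

open CfsgLib.Generators.UnipotentTypes (RankType)

variable {F : Type*} [Field F] {V : Type*} [AddCommGroup V] [Module F V]

theorem sub_one_pow_eq (p : ℕ) [Fact p.Prime] [CharP F p] (u : End F V) : (u - 1) ^ p = u ^ p - 1 := by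
  have h : ((X : F[X]) - 1) ^ p = X ^ p - 1 := by rw [sub_pow_char, one_pow]
  have := congrArg (aeval u) h
  simpa using this

/-- `K` is the Cayley transform of `u`. -/
structure Cay (u K : End F V) : Prop where
  eq : K * (u + 1) = u - 1
  comm : Commute K u

variable {u K : End F V}

theorem isUnit_add_one (h2 : (2 : F) ≠ 0) (hN : IsNilpotent (u - 1)) : IsUnit (u + 1) := by
  have h : IsUnit (algebraMap F (End F V) 2) := (Ne.isUnit h2).map _
  have h1 := hN.isUnit_add_left_of_commute h (Algebra.commute_algebraMap_right 2 (u - 1))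
  rwa [map_ofNat, show (2 : End F V) + (u - 1) = u + 1 by rw [← one_add_one_eq_two]; abel] at h1

theorem exists_cay (h2 : (2 : F) ≠ 0) (hN : IsNilpotent (u - 1)) : ∃ K, Cay u K := by
  obtain ⟨w, hw⟩ := isUnit_add_one h2 hN
  refine ⟨(u - 1) * ((w⁻¹ : (End F V)ˣ) : End F V), ⟨?_, ?_⟩⟩
  · rw [mul_assoc, ← hw, Units.inv_mul, mul_one]
  · have hcu : Commute u (w : End F V) := by rw [hw]; exact (Commute.refl u).add_right (Commute.one_right u)
    exact ((Commute.refl u).sub_left (Commute.one_left u)).mul_left hcu.units_inv_right.symm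

theorem exists_cay_inverse (h2 : (2 : F) ≠ 0) (hK : IsNilpotent K) : ∃ u, Cay u K ∧ IsNilpotent (u - 1) := by
  obtain ⟨w, hw⟩ := hK.isUnit_one_sub
  have hcw : Commute K (w : End F V) := by rw [hw]; exact (Commute.one_right K).sub_right (Commute.refl K)
  have hci := hcw.units_inv_right
  set i := ((w⁻¹ : (End F V)ˣ) : End F V) with hi
  have hwi : (1 - K) * i = 1 := by rw [hi, ← hw, Units.mul_inv]
  have e1 : (1 + K) * i + 1 = (1 + 1) * i := by
    conv_lhs => arg 2; rw [← hwi]
    rw [← add_mul, show 1 + K + (1 - K) = (1 + 1 : End F V) by abel]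
  have e2 : (1 + K) * i - 1 = (K + K) * i := by
    conv_lhs => arg 2; rw [← hwi]
    rw [← sub_mul, show 1 + K - (1 - K) = K + K by abel]
  refine ⟨(1 + K) * i, ⟨?_, ?_⟩, ?_⟩
  · rw [e1, e2, ← mul_assoc, mul_add, mul_one]
  · exact ((Commute.one_right K).add_right (Commute.refl K)).mul_right hci
  · rw [e2]
    exact ((Commute.add_left hci hci).isNilpotent_mul_right ((Commute.refl K).isNilpotent_add hK hK))

theorem Cay.unique (h2 : (2 : F) ≠ 0) (hN : IsNilpotent (u - 1)) (h : Cay u K) {K' : End F V} (h' : Cay u K') :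
    K = K' :=
  (isUnit_add_one h2 hN).mul_left_inj.1 (h.eq.trans h'.eq.symm)

theorem Cay.pow_eq (h : Cay u K) (i : ℕ) : K ^ i * (u + 1) ^ i = (u - 1) ^ i := by
  rw [← (h.comm.add_right (Commute.one_right K)).mul_pow, h.eq]

theorem Cay.rankType_iff (h2 : (2 : F) ≠ 0) (hN : IsNilpotent (u - 1)) (h : Cay u K) (μ : Multiset ℕ) :
    RankType K μ ↔ RankType (u - 1) μ := by
  have e : ∀ i, LinearMap.range ((u - 1) ^ i) = LinearMap.range (K ^ i) := fun i => by
    rw [← h.pow_eq, Module.End.mul_eq_comp, LinearMap.range_comp_of_range_eq_top]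
    exact LinearMap.range_eq_top.2 ((Module.End.isUnit_iff _).1 ((isUnit_add_one h2 hN).pow i)).2
  exact ⟨fun hr i => by rw [e, hr i], fun hr i => by rw [← e, hr i]⟩

theorem Cay.pow_eq_zero_iff (h2 : (2 : F) ≠ 0) (hN : IsNilpotent (u - 1)) (h : Cay u K) (i : ℕ) :
    K ^ i = 0 ↔ (u - 1) ^ i = 0 := by
  rw [← h.pow_eq]
  exact ⟨fun e => by rw [e, zero_mul], fun e => ((isUnit_add_one h2 hN).pow i).mul_left_eq_zero.1 e⟩

theorem Cay.nil (h2 : (2 : F) ≠ 0) (hN : IsNilpotent (u - 1)) (h : Cay u K) : IsNilpotent K := by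
  obtain ⟨i, hi⟩ := hN
  exact ⟨i, (h.pow_eq_zero_iff h2 ⟨i, hi⟩ i).2 hi⟩

theorem Cay.apply (h : Cay u K) (a : V) : K (u a + a) = u a - a := LinearMap.congr_fun h.eq a

theorem Cay.sys (h2 : (2 : F) ≠ 0) {B : BilinForm F V} (hB : B.Nondegenerate) (hA : B.IsAlt)
    (hu : ∀ x y, B (u x) (u y) = B x y) (hN : IsNilpotent (u - 1)) (h : Cay u K) : Sys B K where
  nd := hB
  alt := hA
  skew := fun x y => by
    have hs := ((Module.End.isUnit_iff _).1 (isUnit_add_one h2 hN)).2
    obtain ⟨a, rfl⟩ := hs x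
    obtain ⟨b, rfl⟩ := hs y
    show B (K (u a + a)) (u b + b) = -B (u a + a) (K (u b + b))
    rw [h.apply, h.apply]
    simp only [map_sub, map_add, LinearMap.sub_apply, LinearMap.add_apply, hu]
    ring
  nil := h.nil h2 hN

theorem Cay.isometry (h : Cay u K) (h2 : (2 : F) ≠ 0) {B : BilinForm F V} (S : Sys B K) (x y : V) :
    B (u x) (u y) = B x y := by
  have e : B (u x - x) (u y + y) = -B (u x + x) (u y - y) := by rw [← h.apply, ← h.apply, S.skew]
  simp only [map_sub, map_add, LinearMap.sub_apply, LinearMap.add_apply] at e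
  exact sub_eq_zero.1 ((mul_eq_zero.1 (show (2 : F) * (B (u x) (u y) - B x y) = 0 by linear_combination e)).resolve_left h2)

theorem Cay.intertwine {W : Type*} [AddCommGroup W] [Module F W] {u' K' : End F W} (h : Cay u K) (h' : Cay u' K')
    (hK' : IsNilpotent K') (e : V ≃ₗ[F] W) (he : ∀ x, e (K x) = K' (e x)) (a : V) : e (u a) = u' (e a) := by
  have h1 : e (u a) - e a = K' (e (u a) + e a) := by rw [← map_add, ← map_sub, ← he, h.apply]
  have h3 := h'.apply (e a)
  refine ((Module.End.isUnit_iff _).1 hK'.isUnit_one_sub).1 ?_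
  rw [map_add] at h1 h3
  simp only [LinearMap.sub_apply, Module.End.one_apply]
  linear_combination (norm := abel) h1 + h3

theorem Cay.intertwine' {W : Type*} [AddCommGroup W] [Module F W] {u' K' : End F W} (h2 : (2 : F) ≠ 0)
    (hN : IsNilpotent (u - 1)) (h : Cay u K) (h' : Cay u' K')
    (e : V ≃ₗ[F] W) (he : ∀ x, e (u x) = u' (e x)) (x : V) : e (K x) = K' (e x) := by
  obtain ⟨a, rfl⟩ := ((Module.End.isUnit_iff _).1 (isUnit_add_one h2 hN)).2 x
  show e (K (u a + a)) = K' (e (u a + a))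
  rw [h.apply, map_sub, map_add, he, h'.apply]

end CfsgLib.ReflectionsSpinor.Wall
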