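import Cfsg.Agent.Lib.ReflectionsSpinor.WallPieces

/-!
Skew nilpotent maps of alternating spaces over finite fields of odd order are classified by the Jordan type and
the discriminants at the even block sizes.
-/

set_option autoImplicit false
set_option linter.unusedSectionVars false

open Module Matrix Polynomial
open LinearMap (BilinForm)

namespace CfsgLib.ReflectionsSpinor.Wall

open CfsgLib.Generators.UnipotentTypes (RankType)

universe u

variable {F : Type u} [Field F] [Fintype F] [DecidableEq F]
variable {V : Type u} [AddCommGroup V] [Module F V] [FiniteDimensional F V] {B : BilinForm F V} {K : End F V}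

theorem disc_single (S : Sys B K) (i : ℕ) (hr : finrank F (LinearMap.range (K ^ i)) = 1) {x : V}
    (hx : B x ((K ^ i) x) ≠ 0) : disc B K i = quadraticChar F (B x ((K ^ i) x)) := by
  have hd : (gram B K i fun _ : Fin 1 => x).det = B x ((K ^ i) x) := Matrix.det_fin_one _
  rw [disc_eq_of S i (fun _ : Fin 1 => x) (by rw [Fintype.card_fin, hr]) (by rw [hd]; exact hx), hd]

theorem exists_value (h2 : (2 : F) ≠ 0) (S : Sys B K) {i : ℕ} (hi : Odd i) (hK : K ^ i ≠ 0) :
    ∃ x, B x ((K ^ i) x) ≠ 0 := by
  by_contra hne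
  push Not at hne
  refine hK (LinearMap.ext fun y => S.nd.2 _ fun x => ?_)
  have h := hne (x + y)
  simp only [map_add, LinearMap.add_apply, hne x, hne y, swap_pow S x y i, hi.add_one.neg_one_pow] at h
  exact (mul_eq_zero.1 (show (2 : F) * B x ((K ^ i) y) = 0 by linear_combination h)).resolve_left h2

theorem exists_value_one (h2 : (2 : F) ≠ 0) (S : Sys B K) {i : ℕ} (hi : Odd i)
    (hr : 2 ≤ finrank F (LinearMap.range (K ^ i))) : ∃ x, B x ((K ^ i) x) = 1 := by
  obtain ⟨x, hx⟩ := exists_value h2 S hi (fun h => by rw [h, LinearMap.range_zero, finrank_bot] at hr; omega)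
  set a := B x ((K ^ i) x) with ha
  obtain ⟨y, hxy, hy⟩ : ∃ y, B x ((K ^ i) y) = 0 ∧ B y ((K ^ i) y) ≠ 0 := by
    by_contra hne
    push Not at hne
    have hle : LinearMap.range (K ^ i) ≤ Submodule.span F {(K ^ i) x} := by
      rintro _ ⟨w, rfl⟩
      refine Submodule.mem_span_singleton.2 ⟨B x ((K ^ i) w) / a, ?_⟩
      set t := B x ((K ^ i) w) / a with ht
      have hz0 : B x ((K ^ i) (w - t • x)) = 0 := by
        rw [map_sub, map_sub, map_smul, map_smul, smul_eq_mul, ← ha, ht, div_mul_cancel₀ _ hx, sub_self]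
      have hzero : (K ^ i) (w - t • x) = 0 := by
        refine S.nd.2 _ fun v => ?_
        set t' := B x ((K ^ i) v) / a with ht'
        have hv0 : B x ((K ^ i) (v - t' • x)) = 0 := by
          rw [map_sub, map_sub, map_smul, map_smul, smul_eq_mul, ← ha, ht', div_mul_cancel₀ _ hx, sub_self]
        have h3 := hne _ (show B x ((K ^ i) ((v - t' • x) + (w - t • x))) = 0 by
          rw [map_add, map_add, hv0, hz0, add_zero])
        rw [map_add, map_add, map_add, LinearMap.add_apply, LinearMap.add_apply, hne _ hv0, hne _ hz0,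
          swap_pow S (v - t' • x) (w - t • x) i, hi.add_one.neg_one_pow, zero_add, add_zero, one_mul,
          ← two_mul] at h3
        have h4 := (mul_eq_zero.1 h3).resolve_left h2
        rwa [map_sub, LinearMap.sub_apply, map_smul, LinearMap.smul_apply, hz0, smul_zero, sub_zero] at h4
      rw [map_sub, map_smul, sub_eq_zero] at hzero
      exact hzero.symm
    have := (Submodule.finrank_mono hle).trans (finrank_span_le_card {(K ^ i) x})
    simp at this
    omega
  set b := B y ((K ^ i) y) with hb
  have hchar : ringChar F ≠ 2 := fun h => h2 (by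
    have := CharP.cast_eq_zero F (ringChar F)
    rwa [h, Nat.cast_ofNat] at this)
  obtain ⟨s, t, hst⟩ := FiniteField.exists_root_sum_quadratic
    (f := Polynomial.X ^ 2 - Polynomial.C a⁻¹) (g := Polynomial.C (b / a) * Polynomial.X ^ 2)
    (degree_X_pow_sub_C two_pos _) (degree_C_mul_X_pow _ (div_ne_zero hy hx))
    (FiniteField.odd_card_of_char_ne_two hchar)
  refine ⟨s • x + t • y, ?_⟩
  simp only [Polynomial.eval_sub, Polynomial.eval_pow, Polynomial.eval_X, Polynomial.eval_C, Polynomial.eval_mul] at hst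
  have hyx : B y ((K ^ i) x) = 0 := by rw [swap_pow S, hxy, mul_zero]
  simp only [map_add, map_smul, LinearMap.add_apply, LinearMap.smul_apply, smul_eq_mul, hxy, hyx, ← ha, ← hb]
  field_simp at hst
  linear_combination hst

theorem rankType_top {k : ℕ} {μ : Multiset ℕ} (h : RankType K μ) (hk : ∀ b ∈ μ, b ≤ k) : K ^ k = 0 := by
  have hr := h k
  rw [Multiset.sum_eq_zero (by
    intro x hx
    obtain ⟨b, hb, rfl⟩ := Multiset.mem_map.1 hx
    have := hk b hb
    omega), Submodule.finrank_eq_zero, LinearMap.range_eq_bot] at hr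
  exact hr

theorem rankType_count {k : ℕ} {μ : Multiset ℕ} (h : RankType K μ) (hk : ∀ b ∈ μ, b ≤ k) (hk0 : 0 < k) :
    finrank F (LinearMap.range (K ^ (k - 1))) = μ.count k := by
  have h0 := rankType_top h hk
  have h1 := h.count (k - 1)
  rw [show k - 1 + 1 = k by omega, show k - 1 + 2 = k + 1 by omega, h0,
    pow_eq_zero_of_le (Nat.le_succ k) h0, LinearMap.range_zero, finrank_bot] at h1
  omega

variable {V' : Type u} [AddCommGroup V'] [Module F V'] [FiniteDimensional F V'] {B' : BilinForm F V'} {K' : End F V'}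

variable (F) in
/-- Uniqueness for total size below `n`. -/
def UniqBelow (n : ℕ) : Prop :=
  ∀ (μ : Multiset ℕ), μ.sum < n → 0 ∉ μ →
    ∀ {V : Type u} [AddCommGroup V] [Module F V] [FiniteDimensional F V] {B : BilinForm F V} {K : End F V}
      {V' : Type u} [AddCommGroup V'] [Module F V'] [FiniteDimensional F V'] {B' : BilinForm F V'} {K' : End F V'},
      Sys B K → Sys B' K' → RankType K μ → RankType K' μ →
      (∀ k ∈ μ, Even k → disc B K (k - 1) = disc B' K' (k - 1)) →
      ∃ e : V ≃ₗ[F] V', (∀ x y, B' (e x) (e y) = B x y) ∧ ∀ x, e (K x) = K' (e x)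

theorem step {M : Type u} [AddCommGroup M] [Module F M] [FiniteDimensional F M] {A : BilinForm F M} {N : End F M}
    (T : Sys A N) {ν : Multiset ℕ} (hN : RankType N ν) (hν0 : 0 ∉ ν) (hν : 0 < ν.sum) {μ : Multiset ℕ}
    (hμ0 : 0 ∉ μ) (hrec : UniqBelow F μ.sum) (S : Sys B K) (S' : Sys B' K') (hK : RankType K μ)
    (hK' : RankType K' μ) (hd : ∀ k ∈ μ, Even k → disc B K (k - 1) = disc B' K' (k - 1))
    (φ : M →ₗ[F] V) (hB : ∀ x y, B (φ x) (φ y) = A x y) (hφ : ∀ x, φ (N x) = K (φ x))
    (φ' : M →ₗ[F] V') (hB' : ∀ x y, B' (φ' x) (φ' y) = A x y) (hφ' : ∀ x, φ' (N x) = K' (φ' x)) :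
    ∃ e : V ≃ₗ[F] V', (∀ x y, B' (e x) (e y) = B x y) ∧ ∀ x, e (K x) = K' (e x) := by
  obtain ⟨U, C, L, f, TC, hfB, hfK⟩ := exists_split S T φ hB hφ
  obtain ⟨U', C', L', f', TC', hfB', hfK'⟩ := exists_split S' T φ' hB' hφ'
  have hP : RankType (LinearMap.prodMap N L : End F (M × U)) μ :=
    hK.conj f.symm fun x => f.injective (by rw [hfK, f.apply_symm_apply, f.apply_symm_apply])
  have hP' : RankType (LinearMap.prodMap N L' : End F (M × U')) μ :=
    hK'.conj f'.symm fun x => f'.injective (by rw [hfK', f'.apply_symm_apply, f'.apply_symm_apply])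
  obtain ⟨hle, hL⟩ := le_of_rankType_prod hν0 hN hP
  obtain ⟨-, hL'⟩ := le_of_rankType_prod hν0 hN hP'
  have hsum : (μ - ν).sum < μ.sum := by
    have h := congrArg Multiset.sum (Multiset.sub_add_cancel hle)
    rw [Multiset.sum_add] at h
    omega
  obtain ⟨g, hgB, hgK⟩ := hrec (μ - ν) hsum (fun h => hμ0 (Multiset.mem_of_le tsub_le_self h)) TC TC' hL hL'
    (fun k hk he => by
      have e := hd k (Multiset.mem_of_le tsub_le_self hk) he
      rw [disc_map (T.prod TC) S f hfB hfK, disc_map (T.prod TC') S' f' hfB' hfK', disc_prod T TC,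
        disc_prod T TC'] at e
      exact mul_left_cancel₀ (fun h => by simpa [h] using disc_mul_self T (k - 1)) e)
  refine ⟨(f.symm.trans ((LinearEquiv.refl F M).prodCongr g)).trans f', fun x y => ?_, fun x => ?_⟩
  · obtain ⟨a, rfl⟩ := f.surjective x
    obtain ⟨b, rfl⟩ := f.surjective y
    simp only [LinearEquiv.trans_apply, LinearEquiv.symm_apply_apply, LinearEquiv.prodCongr_apply, hfB', hfB,
      pform_apply, LinearEquiv.refl_apply, hgB]
  · obtain ⟨a, rfl⟩ := f.surjective x
    rw [← hfK]
    simp only [LinearEquiv.trans_apply, LinearEquiv.symm_apply_apply, LinearEquiv.prodCongr_apply, ← hfK',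
      LinearMap.prodMap_apply, LinearEquiv.refl_apply, hgK]

/-- The Jordan type and the discriminants determine the isometry class. -/
theorem complete (h2 : (2 : F) ≠ 0) : ∀ n, UniqBelow F n := by
  intro n
  induction n using Nat.strong_induction_on with
  | _ n ih =>
  intro μ hμn hμ0 V _ _ _ B K V' _ _ _ B' K' S S' hK hK' hd
  have hrec : UniqBelow F μ.sum := ih _ hμn
  rcases eq_or_ne μ 0 with rfl | hμ
  · have h0 := hK.finrank_eq
    have h0' := hK'.finrank_eq
    rw [Multiset.sum_zero] at h0 h0'
    have : Subsingleton V := finrank_zero_iff.1 h0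
    have : Subsingleton V' := finrank_zero_iff.1 h0'
    refine ⟨LinearEquiv.ofFinrankEq V V' (h0.trans h0'.symm), fun x y => ?_, fun x => Subsingleton.elim _ _⟩
    rw [Subsingleton.elim x 0, map_zero, map_zero, LinearMap.zero_apply, map_zero, LinearMap.zero_apply]
  · obtain ⟨k, hk, hmax⟩ : ∃ k ∈ μ, ∀ b ∈ μ, b ≤ k := by
      obtain ⟨k, hk, hm⟩ := μ.toFinset.exists_max_image id (Multiset.toFinset_nonempty.2 hμ)
      exact ⟨k, Multiset.mem_toFinset.1 hk, fun b hb => hm b (Multiset.mem_toFinset.2 hb)⟩
    have hk0 : 0 < k := Nat.pos_of_ne_zero fun h => hμ0 (h ▸ hk)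
    have hKk := rankType_top hK hmax
    have hKk' := rankType_top hK' hmax
    have hr := rankType_count hK hmax hk0
    have hr' := rankType_count hK' hmax hk0
    have hcnt : 0 < μ.count k := Multiset.count_pos.2 hk
    rcases Nat.even_or_odd k with hev | hodd
    · have hi : Odd (k - 1) := Nat.Even.sub_odd hk0 hev odd_one
      obtain ⟨c, x, x', hc, hx, hx'⟩ : ∃ (c : F) (x : V) (x' : V'), c ≠ 0 ∧ B x ((K ^ (k - 1)) x) = c ∧
          B' x' ((K' ^ (k - 1)) x') = c := by
        rcases Nat.lt_or_ge (μ.count k) 2 with h1 | h1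
        · obtain ⟨x, hx⟩ := exists_value h2 S hi (fun h => by rw [h, LinearMap.range_zero, finrank_bot] at hr; omega)
          obtain ⟨x', hx'⟩ := exists_value h2 S' hi (fun h => by rw [h, LinearMap.range_zero, finrank_bot] at hr'; omega)
          have e := hd k hk hev
          rw [disc_single S _ (by omega) hx, disc_single S' _ (by omega) hx'] at e
          obtain ⟨r, hr2⟩ : IsSquare (B x ((K ^ (k - 1)) x) / B' x' ((K' ^ (k - 1)) x')) := by
            refine (quadraticChar_one_iff_isSquare (div_ne_zero hx hx')).1 ?_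
            rw [div_eq_mul_inv, map_mul, e, ← map_mul, mul_inv_cancel₀ hx', MulChar.map_one]
          refine ⟨_, x, r • x', hx, rfl, ?_⟩
          simp only [map_smul, LinearMap.smul_apply, smul_eq_mul]
          rw [← mul_assoc, ← hr2, div_mul_cancel₀ _ hx']
        · obtain ⟨x, hx⟩ := exists_value_one h2 S hi (by omega)
          obtain ⟨x', hx'⟩ := exists_value_one h2 S' hi (by omega)
          exact ⟨1, x, x', one_ne_zero, hx, hx'⟩
      obtain ⟨z, hz⟩ := exists_normal_single h2 S hev hk0 hKk hc hx
      obtain ⟨z', hz'⟩ := exists_normal_single h2 S' hev hk0 hKk' hc hx'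
      exact step (gam_sys h2 hev hc) (rankType_shift k)
        (by rw [Multiset.mem_singleton]; omega) (by rw [Multiset.sum_singleton]; exact hk0) hμ0 hrec S S' hK hK' hd
        (orbMap K k z) (orbMap_form S hKk hz) (orbMap_shift hKk z)
        (orbMap K' k z') (orbMap_form S' hKk' hz') (orbMap_shift hKk' z')
    · have key : ∀ {W : Type u} [AddCommGroup W] [Module F W] [FiniteDimensional F W] {C : BilinForm F W}
          {L : End F W}, Sys C L → L ^ k = 0 → L ^ (k - 1) ≠ 0 →
          ∃ ψ : (Fin k → F) × (Fin k → F) →ₗ[F] W, (∀ a b, C (ψ a) (ψ b) = pairForm k a b) ∧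
            ∀ a, ψ ((LinearMap.prodMap (shift k) (shift k) : End F ((Fin k → F) × (Fin k → F))) a) = L (ψ a) := by
        intro W _ _ _ C L T hLk hne
        obtain ⟨y, hy⟩ : ∃ y, (L ^ (k - 1)) y ≠ 0 := by
          by_contra h
          push Not at h
          exact hne (LinearMap.ext h)
        obtain ⟨x, hx⟩ : ∃ x, C x ((L ^ (k - 1)) y) ≠ 0 := by
          by_contra h
          push Not at h
          exact hy (T.nd.2 _ h)
        obtain ⟨u, w, huw, huu, hww⟩ := exists_normal_pair h2 T hodd hLk
          (x := (C x ((L ^ (k - 1)) y))⁻¹ • x) (y := y)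
          (by rw [map_smul, LinearMap.smul_apply, smul_eq_mul, inv_mul_cancel₀ hx])
        refine ⟨(orbMap L k u).coprod (orbMap L k w), fun a b => ?_, fun a => ?_⟩
        · simp only [LinearMap.coprod_apply, map_add, LinearMap.add_apply]
          have hzero : ∀ z : W, (∀ i, i < k → C z ((L ^ i) z) = 0) → ∀ a b, C (orbMap L k z a) (orbMap L k z b) = 0 :=
            fun z hz a b => by
              rw [orbMap_form T hLk (c := (0 : F)) (fun i hi => by rw [hz i hi, ite_self]) a b]
              simp [gam, gamMatrix, Matrix.toBilin'_apply]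
          rw [hzero u huu, hzero w hww, orbMap_form T hLk huw, ← T.alt.neg_eq (orbMap L k u b.1) (orbMap L k w a.2),
            orbMap_form T hLk huw, pairForm_apply]
          ring
        · simp only [LinearMap.coprod_apply, LinearMap.prodMap_apply, orbMap_shift hLk, map_add]
      obtain ⟨ψ, hψ1, hψ2⟩ := key S hKk (fun h => by rw [h, LinearMap.range_zero, finrank_bot] at hr; omega)
      obtain ⟨ψ', hψ1', hψ2'⟩ := key S' hKk' (fun h => by rw [h, LinearMap.range_zero, finrank_bot] at hr'; omega)
      exact step pair_sys (rankType_prod (rankType_shift k) (rankType_shift k))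
        (by simp only [Multiset.mem_add, Multiset.mem_singleton]; omega)
        (by simp only [Multiset.sum_add, Multiset.sum_singleton]; omega) hμ0 hrec S S' hK hK' hd
        ψ hψ1 hψ2 ψ' hψ1' hψ2'

end CfsgLib.ReflectionsSpinor.Wall
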