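import Cfsg.Agent.Lib.ReflectionsSpinor.WallExist
import Cfsg.Agent.Lib.ReflectionsSpinor.WallCayley
import Cfsg.Agent.Lib.Forms.SympBridge

/-!
The conjugacy classes of elements of exponent `p` of `Sp_{2m}(q)`, `p` the odd characteristic.
-/

set_option autoImplicit false
set_option linter.unusedSectionVars false

open Module Matrix
open LinearMap (BilinForm)

namespace CfsgLib.ReflectionsSpinor.Wall

open CfsgLib.Generators.UnipotentTypes (RankType)

universe u

variable {F : Type u} [Field F] [Fintype F] [DecidableEq F] {m : ℕ}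

set_option quotPrecheck false in
local notation "Vm" => (Fin m ⊕ Fin m → F)

set_option quotPrecheck false in
local notation "Sp" => Matrix.symplecticGroup (Fin m) F

/-- The linear map of a symplectic matrix. -/
noncomputable def spEnd (g : Sp) : End F Vm :=
  Matrix.toLinAlgEquiv' (g : Matrix (Fin m ⊕ Fin m) (Fin m ⊕ Fin m) F)

theorem spEnd_apply (g : Sp) (v : Vm) : spEnd g v = (g : Matrix (Fin m ⊕ Fin m) (Fin m ⊕ Fin m) F) *ᵥ v := rfl

theorem spEnd_isometry (g : Sp) (x y : Vm) :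
    Omega.sympBilin m F (spEnd g x) (spEnd g y) = Omega.sympBilin m F x y := by
  rw [Omega.sympBilin_apply, Omega.sympBilin_apply]
  exact Omega.sympForm_mulVec_of_mem g.2 x y

theorem spEnd_pow_eq_one_iff (g : Sp) (n : ℕ) : g ^ n = 1 ↔ spEnd g ^ n = 1 := by
  rw [spEnd, ← map_pow, ← SubmonoidClass.coe_pow]
  constructor
  · intro h; rw [h]; exact map_one _
  · intro h
    exact Subtype.ext (Matrix.toLinAlgEquiv'.injective (h.trans (map_one _).symm))

theorem spEnd_nil (p : ℕ) [Fact p.Prime] [CharP F p] {g : Sp} (hg : g ^ p = 1) :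
    (spEnd g - 1) ^ p = 0 := by
  rw [sub_one_pow_eq p, (spEnd_pow_eq_one_iff g p).1 hg, sub_self]

theorem vm_finrank : finrank F Vm = 2 * m := by
  rw [Module.finrank_fintype_fun_eq_card]; simp; ring

/-- The sign of a Boolean. -/
def bsgn (b : Bool) : ℤ := if b then 1 else -1

theorem bsgn_injective : Function.Injective bsgn := by decide

/-- `g` has the type `μ` and the discriminants `f`. -/
def Typed (g : Sp) (μ : Multiset ℕ) (f : {k // k ∈ μ.toFinset.filter fun j : ℕ => Even j} → Bool) : Prop :=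
  ∃ K : End F Vm, Cay (spEnd g) K ∧ RankType K μ ∧ ∀ k, disc (Omega.sympBilin m F) K (k.1 - 1) = bsgn (f k)

variable (p : ℕ) [Fact p.Prime] [CharP F p]

theorem exists_typed (h2 : (2 : F) ≠ 0) (μ : Multiset ℕ) (hsum : μ.sum = 2 * m) (h0 : 0 ∉ μ)
    (hle : ∀ a ∈ μ, a ≤ p) (hpar : ∀ j, Odd j → Even (μ.count j))
    (f : {k // k ∈ μ.toFinset.filter fun j : ℕ => Even j} → Bool) :
    ∃ g : Sp, g ^ p = 1 ∧ Typed g μ f := by
  classical
  obtain ⟨n, B, K, S, hK, hd⟩ := exists_realised (F := F) h2 μ.sum μ rfl h0 hpar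
    (fun k => if h : k ∈ μ.toFinset.filter (fun j : ℕ => Even j) then bsgn (f ⟨k, h⟩) else 1)
    (fun k => by split_ifs with h <;> [(cases f ⟨k, h⟩ <;> simp [bsgn]); simp])
  obtain ⟨e, he⟩ := Forms.alt_isometric B S.nd S.alt (Omega.sympBilin m F) (Forms.sympBilin_nondeg m F)
    (Forms.sympBilin_isAlt m F) (by rw [hK.finrank_eq, hsum, vm_finrank])
  have hK' : RankType (e.conj K) μ := hK.conj e (transport_map K e)
  have T : Sys (Omega.sympBilin m F) (e.conj K) := by
    have h := S.transport e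
    rwa [show B.compl₁₂ e.symm.toLinearMap e.symm.toLinearMap = Omega.sympBilin m F from
      LinearMap.ext₂ fun x y => by simp [← he]] at h
  obtain ⟨u, hu, hN⟩ := exists_cay_inverse h2 T.nil
  have hinj : Function.Injective u := by
    have h := hN.isUnit_one_add
    rw [add_sub_cancel] at h
    exact ((Module.End.isUnit_iff _).1 h).1
  set U := LinearEquiv.ofInjectiveEndo u hinj
  set g := Forms.spOfEquiv U (fun x y => by
    rw [← Omega.sympBilin_apply, ← Omega.sympBilin_apply]; exact hu.isometry h2 T x y)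
  have hg : spEnd g = u := LinearMap.ext fun v => Forms.spOfEquiv_mulVec _ _ v
  refine ⟨g, ?_, e.conj K, hg ▸ hu, hK', fun k => ?_⟩
  · rw [spEnd_pow_eq_one_iff, hg, ← sub_eq_zero, ← sub_one_pow_eq p, ← hu.pow_eq_zero_iff h2 hN]
    exact rankType_top hK' hle
  · obtain ⟨h1, h3⟩ := Finset.mem_filter.1 k.2
    rw [disc_map S T e he (transport_map K e), hd k.1 (Multiset.mem_toFinset.1 h1) h3]
    exact dif_pos k.2

theorem exists_type (h2 : (2 : F) ≠ 0) (g : Sp) (hg : g ^ p = 1) :
    ∃ (μ : Multiset ℕ) (f : {k // k ∈ μ.toFinset.filter fun j : ℕ => Even j} → Bool), μ.sum = 2 * m ∧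
      (∀ a ∈ μ, 0 < a ∧ a ≤ p) ∧ (∀ j, Odd j → Even (μ.count j)) ∧ Typed g μ f := by
  have hNp := spEnd_nil p hg
  have hN : IsNilpotent (spEnd g - 1) := ⟨p, hNp⟩
  obtain ⟨K, hK⟩ := exists_cay h2 hN
  set μ := Omega.jordanParts (spEnd g - 1) ⊤ p
  have hR : RankType (spEnd g - 1) μ := by
    intro i
    obtain ⟨j, hj⟩ : ∃ j, p + 1 ≤ i + j := ⟨p + 1, by omega⟩
    induction j using Nat.strong_induction_on generalizing i with
    | _ j ih =>
      rcases le_or_gt p i with h | h
      · rw [pow_eq_zero_of_le h hNp, LinearMap.range_zero, finrank_bot, Multiset.sum_eq_zero]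
        intro x hx
        obtain ⟨b, hb, rfl⟩ := Multiset.mem_map.1 hx
        have := (Omega.le_of_mem_jordanParts hb).2
        omega
      · have h1 := ih (j - 1) (by omega) (i + 1) (by omega)
        have h3 : finrank F (LinearMap.range ((spEnd g - 1) ^ (i + 2))) = (μ.map fun b => b - (i + 2)).sum := by
          rcases le_or_gt p (i + 1) with h' | h'
          · rw [pow_eq_zero_of_le (by omega : p ≤ i + 2) hNp, LinearMap.range_zero, finrank_bot, Multiset.sum_eq_zero]
            intro x hx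
            obtain ⟨b, hb, rfl⟩ := Multiset.mem_map.1 hx
            have := (Omega.le_of_mem_jordanParts hb).2
            omega
          · exact ih (j - 2) (by omega) (i + 2) (by omega)
        have hc := Omega.count_jordanParts (spEnd g - 1) ⊤ p i
        have hs := Omega.sum_sub_count μ i
        have hcv := Omega.rankSeq_convex (N := spEnd g - 1) (D := ⊤) le_top i
        rw [if_pos h] at hc
        change μ.count (i + 1) = _ at hc
        simp only [Omega.rankSeq] at hc hcv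
        rw [Submodule.map_top, Submodule.map_top, Submodule.map_top] at hc
        rw [Submodule.map_top, Submodule.map_top, Submodule.map_top] at hcv
        omega
  have hsum : μ.sum = 2 * m := by rw [← hR.finrank_eq, vm_finrank]
  have hmem : ∀ a ∈ μ, 0 < a ∧ a ≤ p := fun a ha => Omega.le_of_mem_jordanParts ha
  have hpar : ∀ j, Odd j → Even (μ.count j) := fun j hj =>
    Generators.UnipotentTypes.even_count_odd (Forms.sympBilin_nondeg m F) (Forms.sympBilin_isAlt m F)
      (spEnd_isometry g) hN hR j hj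
  have hK' : RankType K μ := (hK.rankType_iff h2 hN μ).2 hR
  have S := hK.sys h2 (Forms.sympBilin_nondeg m F) (Forms.sympBilin_isAlt m F) (spEnd_isometry g) hN
  refine ⟨μ, fun k => decide (disc (Omega.sympBilin m F) K (k.1 - 1) = 1), hsum, hmem, hpar, K, hK, hK', fun k => ?_⟩
  rcases disc_eq_one_or S (k.1 - 1) with h | h <;> simp [h, bsgn]

theorem typed_conj (h2 : (2 : F) ≠ 0) {g g' : Sp} (hg : g ^ p = 1) (hg' : g' ^ p = 1) {μ : Multiset ℕ}
    (h0 : 0 ∉ μ) {f : {k // k ∈ μ.toFinset.filter fun j : ℕ => Even j} → Bool} (t : Typed g μ f)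
    (t' : Typed g' μ f) : IsConj g g' := by
  obtain ⟨K, hc, hK, hd⟩ := t
  obtain ⟨K', hc', hK', hd'⟩ := t'
  have hN : IsNilpotent (spEnd g - 1) := ⟨p, spEnd_nil p hg⟩
  have hN' : IsNilpotent (spEnd g' - 1) := ⟨p, spEnd_nil p hg'⟩
  have S := hc.sys h2 (Forms.sympBilin_nondeg m F) (Forms.sympBilin_isAlt m F) (spEnd_isometry g) hN
  have S' := hc'.sys h2 (Forms.sympBilin_nondeg m F) (Forms.sympBilin_isAlt m F) (spEnd_isometry g') hN'
  obtain ⟨e, heB, heK⟩ := complete (F := F) h2 (μ.sum + 1) μ (Nat.lt_succ_self _) h0 S S' hK hK' fun k hk he =>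
    (hd ⟨k, Finset.mem_filter.2 ⟨Multiset.mem_toFinset.2 hk, he⟩⟩).trans (hd' ⟨k, _⟩).symm
  have hu := hc.intertwine hc' S'.nil e heK
  refine isConj_iff.2 ⟨Forms.spOfEquiv e (fun x y => by
    rw [← Omega.sympBilin_apply, ← Omega.sympBilin_apply]; exact heB x y), ?_⟩
  rw [mul_inv_eq_iff_eq_mul]
  refine Subtype.ext (Matrix.toLinAlgEquiv'.injective (LinearMap.ext fun v => ?_))
  rw [Submonoid.coe_mul, Submonoid.coe_mul, map_mul, map_mul, Module.End.mul_apply, Module.End.mul_apply]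
  simp only [Matrix.toLinAlgEquiv'_apply, Forms.spOfEquiv_mulVec]
  exact hu v

theorem typed_of_isConj (h2 : (2 : F) ≠ 0) {g g' : Sp} (hg : g ^ p = 1) (hg' : g' ^ p = 1) (hc : IsConj g g')
    {μ : Multiset ℕ} {f : {k // k ∈ μ.toFinset.filter fun j : ℕ => Even j} → Bool} (t : Typed g μ f) :
    Typed g' μ f := by
  obtain ⟨K, hK, hR, hd⟩ := t
  obtain ⟨x, rfl⟩ := isConj_iff.1 hc
  have hN : IsNilpotent (spEnd g - 1) := ⟨p, spEnd_nil p hg⟩
  have hN' : IsNilpotent (spEnd (x * g * x⁻¹) - 1) := ⟨p, spEnd_nil p hg'⟩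
  obtain ⟨K', hK'⟩ := exists_cay h2 hN'
  have S := hK.sys h2 (Forms.sympBilin_nondeg m F) (Forms.sympBilin_isAlt m F) (spEnd_isometry g) hN
  have S' := hK'.sys h2 (Forms.sympBilin_nondeg m F) (Forms.sympBilin_isAlt m F) (spEnd_isometry _) hN'
  have hx : ∀ v, spEnd x (spEnd x⁻¹ v) = v := fun v => by
    rw [← Module.End.mul_apply, spEnd, spEnd, ← map_mul, ← Submonoid.coe_mul, mul_inv_cancel]
    simp
  have hx' : ∀ v, spEnd x⁻¹ (spEnd x v) = v := fun v => by
    rw [← Module.End.mul_apply, spEnd, spEnd, ← map_mul, ← Submonoid.coe_mul, inv_mul_cancel]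
    simp
  let e : Vm ≃ₗ[F] Vm := LinearEquiv.ofLinearMap (spEnd x) (spEnd x⁻¹) (LinearMap.ext hx) (LinearMap.ext hx')
  have he : ∀ v, e (spEnd g v) = spEnd (x * g * x⁻¹) (e v) := fun v => by
    show spEnd x (spEnd g v) = spEnd (x * g * x⁻¹) (spEnd x v)
    simp only [spEnd_apply, Matrix.mulVec_mulVec, ← Submonoid.coe_mul, inv_mul_cancel_right]
  have heK := hK.intertwine' h2 hN hK' e he
  refine ⟨K', hK', hR.conj e heK, fun k => ?_⟩
  rw [disc_map S S' e (spEnd_isometry x) heK]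
  exact hd k

open scoped Classical in
/-- The number of classes of exponent `p`. -/
theorem card_classes (h2 : (2 : F) ≠ 0) :
    Nat.card {C : ConjClasses Sp // ∃ g : Sp, ConjClasses.mk g = C ∧ g ^ p = 1} =
      ∑ μ ∈ Finset.univ.filter (fun μ : Nat.Partition (2 * m) =>
          (∀ a ∈ μ.parts, a ≤ p) ∧ ∀ j : ℕ, Odd j → Even (μ.parts.count j)),
        2 ^ (μ.parts.toFinset.filter fun j : ℕ => Even j).card := by
  classical
  set P := fun μ : Nat.Partition (2 * m) =>
    (∀ a ∈ μ.parts, a ≤ p) ∧ ∀ j : ℕ, Odd j → Even (μ.parts.count j)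
  let T := Σ μ : {μ : Nat.Partition (2 * m) // P μ},
    ({k // k ∈ μ.1.parts.toFinset.filter fun j : ℕ => Even j} → Bool)
  have hT : Nat.card T = ∑ μ ∈ Finset.univ.filter P, 2 ^ (μ.parts.toFinset.filter fun j : ℕ => Even j).card := by
    rw [Nat.card_eq_fintype_card, Fintype.card_sigma, ← Finset.sum_subtype_eq_sum_filter]
    refine Finset.sum_congr (by ext; simp) fun μ _ => ?_
    rw [Fintype.card_fun, Fintype.card_coe, Fintype.card_bool]
  have h0 : ∀ μ : Nat.Partition (2 * m), 0 ∉ μ.parts := fun μ h => lt_irrefl 0 (μ.parts_pos h)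
  have hex : ∀ t : T, ∃ g : Sp, g ^ p = 1 ∧ Typed g t.1.1.parts t.2 := fun t =>
    exists_typed p h2 t.1.1.parts t.1.1.parts_sum (h0 _) t.1.2.1 t.1.2.2 t.2
  choose γ hγ1 hγ2 using hex
  refine Eq.trans (Nat.card_congr (Equiv.ofBijective
    (fun t : T => (⟨ConjClasses.mk (γ t), γ t, rfl, hγ1 t⟩ :
      {C : ConjClasses Sp // ∃ g : Sp, ConjClasses.mk g = C ∧ g ^ p = 1})) ⟨?_, ?_⟩)).symm hT
  · intro t t' h
    have hc : IsConj (γ t) (γ t') := ConjClasses.mk_eq_mk_iff_isConj.1 (congrArg Subtype.val h)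
    have h1 := typed_of_isConj p h2 (hγ1 t) (hγ1 t') hc (hγ2 t)
    have h3 := hγ2 t'
    obtain ⟨⟨μ, hμ⟩, f⟩ := t
    obtain ⟨⟨μ', hμ'⟩, f'⟩ := t'
    obtain ⟨K, hK, hR, hd⟩ := h1
    obtain ⟨K', hK', hR', hd'⟩ := h3
    obtain rfl := hK.unique h2 ⟨p, spEnd_nil p (hγ1 _)⟩ hK'
    change RankType K μ.parts at hR
    change RankType K μ'.parts at hR'
    have hparts : μ.parts = μ'.parts := by
      refine Multiset.ext.2 fun a => ?_
      rcases a with _ | i
      · rw [Multiset.count_eq_zero_of_notMem (h0 _), Multiset.count_eq_zero_of_notMem (h0 _)]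
      · have e1 := hR.count i
        have e2 := hR'.count i
        omega
    obtain rfl : μ = μ' := Nat.Partition.ext hparts
    obtain rfl : f = f' := funext fun k => bsgn_injective ((hd k).symm.trans (hd' k))
    rfl
  · rintro ⟨C, g, rfl, hg⟩
    obtain ⟨μ, f, hsum, hmem, hpar, ht⟩ := exists_type p h2 g hg
    let μP : Nat.Partition (2 * m) := ⟨μ, fun {a} ha => (hmem a ha).1, hsum⟩
    let t : T := ⟨⟨μP, fun a ha => (hmem a ha).2, hpar⟩, f⟩
    exact ⟨t, Subtype.ext (ConjClasses.mk_eq_mk_iff_isConj.2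
      (typed_conj p h2 (hγ1 t) hg (h0 μP) (hγ2 t) ht))⟩

/-- The number of classes of order `p`. -/
theorem card_classes_order (h2 : (2 : F) ≠ 0) :
    Nat.card {C : ConjClasses Sp // ∃ g : Sp, ConjClasses.mk g = C ∧ orderOf g = p} =
      Nat.card {C : ConjClasses Sp // ∃ g : Sp, ConjClasses.mk g = C ∧ g ^ p = 1} - 1 := by
  classical
  have hp : p.Prime := Fact.out
  have : Finite Sp := Subtype.finite
  let : Fintype (ConjClasses Sp) := Fintype.ofFinite _
  rw [Nat.card_eq_fintype_card, Nat.card_eq_fintype_card, Fintype.card_subtype, Fintype.card_subtype,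
    ← Finset.card_erase_of_mem (a := ConjClasses.mk (1 : Sp))
      (Finset.mem_filter.2 ⟨Finset.mem_univ _, 1, rfl, one_pow p⟩)]
  congr 1
  ext C
  simp only [Finset.mem_erase, Finset.mem_filter, Finset.mem_univ, true_and, ne_eq]
  constructor
  · rintro ⟨g, rfl, hg⟩
    refine ⟨fun h => ?_, g, rfl, by rw [← hg]; exact pow_orderOf_eq_one g⟩
    rw [isConj_one_left.1 (ConjClasses.mk_eq_mk_iff_isConj.1 h), orderOf_one] at hg
    exact hp.ne_one hg.symm
  · rintro ⟨hne, g, rfl, hg⟩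
    exact ⟨g, rfl, orderOf_eq_prime hg fun h => hne (by rw [h])⟩

end CfsgLib.ReflectionsSpinor.Wall
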