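import Cfsg.Agent.Lib.Generators.UnipotentTypes
import Mathlib.NumberTheory.LegendreSymbol.QuadraticChar.Basic

/-!
Discriminants of the forms `B(x, K^i y)` attached to a skew nilpotent map of an alternating space.
-/

set_option autoImplicit false
set_option linter.unusedSectionVars false

open Module Matrix
open LinearMap (BilinForm)

namespace CfsgLib.ReflectionsSpinor.Wall

open CfsgLib.Generators.UnipotentTypes (RankType finrank_range_conj)

variable {F : Type*} [Field F] {V : Type*} [AddCommGroup V] [Module F V]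

/-- An alternating nondegenerate form with a skew nilpotent map. -/
structure Sys (B : BilinForm F V) (K : End F V) : Prop where
  nd : B.Nondegenerate
  alt : B.IsAlt
  skew : ∀ x y, B (K x) y = -B x (K y)
  nil : IsNilpotent K

variable {B : BilinForm F V} {K : End F V}

theorem Sys.skew_pow (S : Sys B K) (i : ℕ) : ∀ x y, B ((K ^ i) x) y = (-1) ^ i * B x ((K ^ i) y) := by
  induction i with
  | zero => intro x y; simp
  | succ i ih =>
    intro x y
    have e1 : (K ^ (i + 1)) x = (K ^ i) (K x) := by rw [pow_succ, Module.End.mul_apply]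
    have e2 : (K ^ (i + 1)) y = K ((K ^ i) y) := by rw [pow_succ', Module.End.mul_apply]
    rw [e1, e2, ih, S.skew, pow_succ]
    ring

/-- The Gram matrix of the form `B(x, K^i y)`. -/
def gram (B : BilinForm F V) (K : End F V) (i : ℕ) {κ : Type*} (y : κ → V) : Matrix κ κ F :=
  Matrix.of fun a b => B (y a) ((K ^ i) (y b))

theorem gram_apply (i : ℕ) {κ : Type*} (y : κ → V) (a b : κ) : gram B K i y a b = B (y a) ((K ^ i) (y b)) := rfl

theorem gram_equiv (i : ℕ) {κ κ' : Type*} [Fintype κ] [DecidableEq κ] [Fintype κ'] [DecidableEq κ'] (e : κ' ≃ κ)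
    (y : κ → V) : (gram B K i (y ∘ e)).det = (gram B K i y).det := by
  rw [show gram B K i (y ∘ e) = (gram B K i y).submatrix e e from rfl, Matrix.det_submatrix_equiv_self]

variable [FiniteDimensional F V]

/-- Preimages of a basis of the range of `K^i`. -/
noncomputable def frame (K : End F V) (i : ℕ) (a : Fin (finrank F (LinearMap.range (K ^ i)))) : V :=
  (LinearMap.mem_range.1 (finBasis F (LinearMap.range (K ^ i)) a).2).choose

theorem frame_spec (i : ℕ) (a : Fin (finrank F (LinearMap.range (K ^ i)))) :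
    (K ^ i) (frame K i a) = (finBasis F (LinearMap.range (K ^ i)) a : V) :=
  (LinearMap.mem_range.1 (finBasis F (LinearMap.range (K ^ i)) a).2).choose_spec

theorem gram_change (S : Sys B K) (i : ℕ) (y : Fin (finrank F (LinearMap.range (K ^ i))) → V) :
    ∃ M : Matrix (Fin (finrank F (LinearMap.range (K ^ i)))) (Fin (finrank F (LinearMap.range (K ^ i)))) F,
      gram B K i y = Mᵀ * gram B K i (frame K i) * M := by
  set b := finBasis F (LinearMap.range (K ^ i)) with hb
  set M : Matrix _ _ F := fun c a => b.repr ⟨(K ^ i) (y a), LinearMap.mem_range_self _ _⟩ c with hM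
  have hy : ∀ a, (K ^ i) (y a) = ∑ c, M c a • (K ^ i) (frame K i c) := by
    intro a
    conv_lhs => rw [show (K ^ i) (y a) = ((⟨(K ^ i) (y a), LinearMap.mem_range_self _ _⟩ :
      LinearMap.range (K ^ i)) : V) from rfl, ← b.sum_repr ⟨(K ^ i) (y a), LinearMap.mem_range_self _ _⟩]
    rw [AddSubmonoidClass.coe_finsetSum]
    simp only [SetLike.val_smul, hM, frame_spec, hb]
  refine ⟨M, ?_⟩
  ext a a'
  rw [gram_apply, hy a', map_sum, Matrix.mul_apply]
  refine Finset.sum_congr rfl fun c _ => ?_
  rw [map_smul, smul_eq_mul, mul_comm, Matrix.mul_apply]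
  congr 1
  have e : B (y a) ((K ^ i) (frame K i c)) = (-1) ^ i * B ((K ^ i) (y a)) (frame K i c) := by
    rw [S.skew_pow, ← mul_assoc, ← mul_pow, neg_one_mul, neg_neg, one_pow, one_mul]
  rw [e, hy a, map_sum, LinearMap.sum_apply, Finset.mul_sum]
  refine Finset.sum_congr rfl fun d _ => ?_
  rw [map_smul, LinearMap.smul_apply, smul_eq_mul, S.skew_pow, Matrix.transpose_apply, gram_apply]
  rw [mul_left_comm, ← mul_assoc ((-1 : F) ^ i), ← mul_pow, neg_one_mul, neg_neg, one_pow, one_mul]

theorem det_gram_frame (S : Sys B K) (i : ℕ) : (gram B K i (frame K i)).det ≠ 0 := by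
  intro h0
  obtain ⟨v, hv0, hv⟩ := Matrix.exists_mulVec_eq_zero_iff.2 h0
  obtain ⟨z, hz⟩ : ∃ z, z = ∑ c, v c • frame K i c := ⟨_, rfl⟩
  have hz1 : ∀ d, B (frame K i d) ((K ^ i) z) = 0 := fun d => by
    have := congrFun hv d
    simp only [Matrix.mulVec, dotProduct, gram_apply, Pi.zero_apply] at this
    rw [hz, map_sum, map_sum, ← this]
    exact Finset.sum_congr rfl fun c _ => by rw [map_smul, map_smul, smul_eq_mul, mul_comm]
  have hKz : (K ^ i) z = 0 := by
    refine S.nd.2 _ fun w => ?_
    set b := finBasis F (LinearMap.range (K ^ i))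
    have hw : (K ^ i) w = ∑ c, b.repr ⟨(K ^ i) w, LinearMap.mem_range_self _ _⟩ c • (K ^ i) (frame K i c) := by
      conv_lhs => rw [show (K ^ i) w = ((⟨(K ^ i) w, LinearMap.mem_range_self _ _⟩ :
        LinearMap.range (K ^ i)) : V) from rfl, ← b.sum_repr ⟨(K ^ i) w, LinearMap.mem_range_self _ _⟩]
      rw [AddSubmonoidClass.coe_finsetSum]
      simp only [SetLike.val_smul, frame_spec, b]
    have h1 : B ((K ^ i) w) z = 0 := by
      rw [hw, map_sum, LinearMap.sum_apply]
      refine Finset.sum_eq_zero fun c _ => ?_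
      rw [map_smul, LinearMap.smul_apply, S.skew_pow, hz1, mul_zero, smul_zero]
    rw [S.skew_pow] at h1
    exact (mul_eq_zero.1 h1).resolve_left (pow_ne_zero _ (neg_ne_zero.2 one_ne_zero))
  rw [hz, map_sum] at hKz
  simp only [map_smul, frame_spec] at hKz
  refine hv0 (funext fun c => ?_)
  have h2 : ∑ c, v c • finBasis F (LinearMap.range (K ^ i)) c = 0 :=
    Subtype.ext (by rw [AddSubmonoidClass.coe_finsetSum]; simpa only [SetLike.val_smul, ZeroMemClass.coe_zero] using hKz)
  exact Fintype.linearIndependent_iff.1 (finBasis F (LinearMap.range (K ^ i))).linearIndependent v h2 c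

variable [Fintype F] [DecidableEq F]

/-- The quadratic character of the discriminant of `B(x, K^i y)`. -/
noncomputable def disc (B : BilinForm F V) (K : End F V) (i : ℕ) : ℤ :=
  quadraticChar F (gram B K i (frame K i)).det

theorem disc_eq_of (S : Sys B K) (i : ℕ) {κ : Type*} [Fintype κ] [DecidableEq κ] (y : κ → V)
    (hκ : Fintype.card κ = finrank F (LinearMap.range (K ^ i))) (hy : (gram B K i y).det ≠ 0) :
    disc B K i = quadraticChar F (gram B K i y).det := by
  have e : Fin (finrank F (LinearMap.range (K ^ i))) ≃ κ := Fintype.equivOfCardEq (by rw [Fintype.card_fin, hκ])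
  obtain ⟨M, hM⟩ := gram_change S i (y ∘ e)
  have hd := congrArg Matrix.det hM
  rw [gram_equiv, Matrix.det_mul, Matrix.det_mul, Matrix.det_transpose] at hd
  have hM0 : M.det ≠ 0 := fun h => hy (by rw [hd, h]; ring)
  have hd' : (gram B K i y).det = M.det ^ 2 * (gram B K i (frame K i)).det := by rw [hd]; ring
  rw [disc, hd', map_mul, quadraticChar_sq_one' hM0, one_mul]

theorem disc_mul_self (S : Sys B K) (i : ℕ) : disc B K i * disc B K i = 1 := by
  rw [disc, ← pow_two]; exact quadraticChar_sq_one (det_gram_frame S i)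

theorem disc_eq_one_or (S : Sys B K) (i : ℕ) : disc B K i = 1 ∨ disc B K i = -1 :=
  quadraticChar_dichotomy (det_gram_frame S i)

theorem disc_of_rank_zero (i : ℕ) (h : finrank F (LinearMap.range (K ^ i)) = 0) : disc B K i = 1 := by
  have : IsEmpty (Fin (finrank F (LinearMap.range (K ^ i)))) := by rw [h]; infer_instance
  rw [disc, Matrix.det_isEmpty, MulChar.map_one]

theorem disc_map (S : Sys B K) {W : Type*} [AddCommGroup W] [Module F W] [FiniteDimensional F W]
    {C : BilinForm F W} {L : End F W} (T : Sys C L) (e : V ≃ₗ[F] W) (hB : ∀ x y, C (e x) (e y) = B x y)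
    (hK : ∀ x, e (K x) = L (e x)) (i : ℕ) : disc C L i = disc B K i := by
  have hp : ∀ x, e ((K ^ i) x) = (L ^ i) (e x) := by
    induction i with
    | zero => intro x; simp
    | succ i ih => intro x; rw [pow_succ', pow_succ', Module.End.mul_apply, Module.End.mul_apply, hK, ih]
  have hg : gram C L i (e ∘ frame K i) = gram B K i (frame K i) := by
    ext a b
    rw [gram_apply, gram_apply, Function.comp_apply, Function.comp_apply, ← hp, hB]
  rw [disc_eq_of T i (e ∘ frame K i) (by rw [Fintype.card_fin, finrank_range_conj e hK]) (by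
    rw [hg]; exact det_gram_frame S i), hg]
  rfl

end CfsgLib.ReflectionsSpinor.Wall
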