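import Cfsg.Agent.Lib.ReflectionsSpinor.WallClass
import Cfsg.Agent.Lib.Forms.Symplectic

/-!
Every Jordan type with even multiplicities of the odd sizes occurs with every choice of discriminants.
-/

set_option autoImplicit false
set_option linter.unusedSectionVars false

open Module Matrix
open LinearMap (BilinForm)

namespace CfsgLib.ReflectionsSpinor.Wall

open CfsgLib.Generators.UnipotentTypes (RankType)

universe u

variable {F : Type u} [Field F] [Fintype F] [DecidableEq F]

theorem Sys.transport {V W : Type*} [AddCommGroup V] [Module F V] [AddCommGroup W] [Module F W]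
    {B : BilinForm F V} {K : End F V} (S : Sys B K) (e : V ≃ₗ[F] W) :
    Sys (B.compl₁₂ e.symm.toLinearMap e.symm.toLinearMap) (e.conj K) where
  nd := ⟨fun x hx => e.symm.injective ((S.nd.1 _ fun y => by simpa using hx (e y)).trans (map_zero _).symm),
    fun x hx => e.symm.injective ((S.nd.2 _ fun y => by simpa using hx (e y)).trans (map_zero _).symm)⟩
  alt := fun x => S.alt _
  skew := fun x y => by simp [LinearEquiv.conj_apply, S.skew]
  nil := by
    have h := S.nil.map (e.conjAlgEquiv F)
    exact h

theorem transport_form {V W : Type*} [AddCommGroup V] [Module F V] [AddCommGroup W] [Module F W]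
    (B : BilinForm F V) (e : V ≃ₗ[F] W) (x y : V) :
    B.compl₁₂ e.symm.toLinearMap e.symm.toLinearMap (e x) (e y) = B x y := by simp

theorem transport_map {V W : Type*} [AddCommGroup V] [Module F V] [AddCommGroup W] [Module F W]
    (K : End F V) (e : V ≃ₗ[F] W) (x : V) : e (K x) = e.conj K (e x) := by simp [LinearEquiv.conj_apply]

variable (F) in
/-- There is a system with this type and these discriminants. -/
def Realised (μ : Multiset ℕ) (f : ℕ → ℤ) : Prop :=
  ∃ (n : ℕ) (B : BilinForm F (Fin n → F)) (K : End F (Fin n → F)), Sys B K ∧ RankType K μ ∧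
    ∀ k ∈ μ, Even k → disc B K (k - 1) = f k

theorem realised_of_model {V : Type u} [AddCommGroup V] [Module F V] [FiniteDimensional F V] {B : BilinForm F V}
    {K : End F V} (S : Sys B K) {μ : Multiset ℕ} (hK : RankType K μ) {f : ℕ → ℤ}
    (hd : ∀ k ∈ μ, Even k → disc B K (k - 1) = f k) : Realised F μ f := by
  let e := (finBasis F V).equivFun
  refine ⟨_, _, _, S.transport e, hK.conj e (transport_map K e), fun k hk he => ?_⟩
  rw [disc_map S (S.transport e) e (transport_form B e) (transport_map K e)]
  exact hd k hk he

theorem disc_gam (h2 : (2 : F) ≠ 0) {k : ℕ} (hk : Even k) (hk0 : 0 < k) {c : F} (hc : c ≠ 0) :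
    disc (gam k c) (shift k) (k - 1) = quadraticChar F c := by
  have hv : ((shift k : End F (Fin k → F)) ^ (k - 1)) (Pi.single ⟨0, hk0⟩ 1) = Pi.single ⟨k - 1, by omega⟩ 1 := by
    funext a
    rw [shift_pow_apply]
    simp only [Pi.single_apply, Fin.ext_iff]
    have := a.2
    split_ifs <;> first | rfl | omega
  have hr : finrank F (LinearMap.range ((shift k : End F (Fin k → F)) ^ (k - 1))) = 1 := by
    rw [rankType_shift k (k - 1), Multiset.map_singleton, Multiset.sum_singleton]; omega
  have hx : gam k c (Pi.single ⟨0, hk0⟩ 1)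
      (((shift k : End F (Fin k → F)) ^ (k - 1)) (Pi.single ⟨0, hk0⟩ 1)) = c := by
    rw [hv, gam_single, if_pos (by simp; omega), pow_zero, one_mul]
  rw [disc_single (gam_sys h2 hk hc) _ hr (x := Pi.single ⟨0, hk0⟩ 1) (by rw [hx]; exact hc), hx]

/-- Every admissible datum is realised. -/
theorem exists_realised (h2 : (2 : F) ≠ 0) : ∀ (n : ℕ) (μ : Multiset ℕ), μ.sum = n → 0 ∉ μ →
    (∀ j, Odd j → Even (μ.count j)) → ∀ f : ℕ → ℤ, (∀ k, f k = 1 ∨ f k = -1) → Realised F μ f := by
  intro n
  induction n using Nat.strong_induction_on with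
  | _ n ih =>
  intro μ hμn hμ0 hpar f hf
  rcases eq_or_ne μ 0 with rfl | hμ
  · refine realised_of_model (V := Fin 0 → F) (B := 0) (K := 0)
      ⟨⟨fun x _ => Subsingleton.elim _ _, fun x _ => Subsingleton.elim _ _⟩, fun _ => rfl, fun _ _ => by simp,
        IsNilpotent.zero⟩ (fun i => ?_) fun k hk => absurd hk (Multiset.notMem_zero k)
    rw [Multiset.map_zero, Multiset.sum_zero, ← Nat.le_zero]
    exact (Submodule.finrank_le _).trans (by simp)
  · obtain ⟨k, hk, hmin⟩ : ∃ k ∈ μ, ∀ b ∈ μ, k ≤ b := by
      obtain ⟨k, hk, hm⟩ := μ.toFinset.exists_min_image id (Multiset.toFinset_nonempty.2 hμ)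
      exact ⟨k, Multiset.mem_toFinset.1 hk, fun b hb => hm b (Multiset.mem_toFinset.2 hb)⟩
    have hk0 : 0 < k := Nat.pos_of_ne_zero fun h => hμ0 (h ▸ hk)
    have hcnt : 0 < μ.count k := Multiset.count_pos.2 hk
    rcases Nat.even_or_odd k with hev | hodd
    · have hle : ({k} : Multiset ℕ) ≤ μ := Multiset.singleton_le.2 hk
      have hsum := congrArg Multiset.sum (Multiset.sub_add_cancel hle)
      rw [Multiset.sum_add, Multiset.sum_singleton] at hsum
      obtain ⟨n', B, K, S, hK, hd⟩ := ih (μ - {k}).sum (by omega) (μ - {k}) rfl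
        (fun h => hμ0 (Multiset.mem_of_le tsub_le_self h))
        (fun j hj => by
          rw [Multiset.count_sub, Multiset.count_singleton, if_neg (show ¬ j = k from fun e => Nat.not_odd_iff_even.2 hev (e ▸ hj)),
            Nat.sub_zero]
          exact hpar j hj) f hf
      obtain ⟨c, hc, hcs⟩ : ∃ c : F, c ≠ 0 ∧ quadraticChar F c = f k * disc B K (k - 1) := by
        obtain ⟨ε, hε⟩ := exists_nonsquare' h2
        have h1 : quadraticChar F (1 : F) = 1 := MulChar.map_one _
        have he : quadraticChar F ε = -1 := quadraticChar_neg_one_iff_not_isSquare.2 hε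
        have hε0 : ε ≠ 0 := fun h => hε (h ▸ IsSquare.zero)
        rcases hf k with e1 | e1 <;> rcases disc_eq_one_or S (k - 1) with e2 | e2 <;> rw [e1, e2] <;>
          first | (refine ⟨1, one_ne_zero, ?_⟩; rw [h1]; rfl) | (refine ⟨ε, hε0, ?_⟩; rw [he]; rfl)
      have T := gam_sys (F := F) h2 hev hc
      have hrt := rankType_prod (rankType_shift (F := F) k) hK
      rw [add_tsub_cancel_of_le hle] at hrt
      refine realised_of_model (T.prod S) hrt fun j hj he => ?_
      rw [disc_prod T S]
      rcases eq_or_ne j k with rfl | hne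
      · rw [disc_gam h2 hev hk0 hc, hcs, mul_assoc, disc_mul_self S, mul_one]
      · have hlt : k < j := lt_of_le_of_ne (hmin j hj) hne.symm
        rw [disc_of_rank_zero (j - 1) (by
          rw [rankType_shift k (j - 1), Multiset.map_singleton, Multiset.sum_singleton]; omega), one_mul]
        refine hd j ?_ he
        rw [← Multiset.count_pos, Multiset.count_sub, Multiset.count_singleton, if_neg hne, Nat.sub_zero]
        exact Multiset.count_pos.2 hj
    · obtain ⟨c, hc⟩ := hpar k hodd
      have hle : ({k} + {k} : Multiset ℕ) ≤ μ := by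
        refine Multiset.le_iff_count.2 fun a => ?_
        rw [Multiset.count_add, Multiset.count_singleton]
        split_ifs with h
        · subst h; omega
        · exact Nat.zero_le _
      have hsum := congrArg Multiset.sum (Multiset.sub_add_cancel hle)
      rw [Multiset.sum_add, Multiset.sum_add, Multiset.sum_singleton] at hsum
      obtain ⟨n', B, K, S, hK, hd⟩ := ih (μ - ({k} + {k})).sum (by omega) _ rfl
        (fun h => hμ0 (Multiset.mem_of_le tsub_le_self h))
        (fun j hj => by
          obtain ⟨d, hd⟩ := hpar j hj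
          rw [Multiset.count_sub, Multiset.count_add, Multiset.count_singleton]
          split_ifs with h
          · exact ⟨d - 1, by omega⟩
          · exact ⟨d, by omega⟩) f hf
      have T := pair_sys (F := F) (k := k)
      have hN := rankType_prod (rankType_shift (F := F) k) (rankType_shift (F := F) k)
      have hrt := rankType_prod hN hK
      rw [add_tsub_cancel_of_le hle] at hrt
      refine realised_of_model (T.prod S) hrt fun j hj he => ?_
      have hne : j ≠ k := fun e => Nat.not_odd_iff_even.2 he (e ▸ hodd)
      have hlt : k < j := lt_of_le_of_ne (hmin j hj) hne.symm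
      rw [disc_prod T S, disc_of_rank_zero (j - 1) (by
        rw [hN (j - 1), Multiset.map_add, Multiset.map_singleton, Multiset.sum_add, Multiset.sum_singleton]; omega),
        one_mul]
      refine hd j ?_ he
      rw [← Multiset.count_pos, Multiset.count_sub, Multiset.count_add, Multiset.count_singleton, if_neg hne,
        Nat.sub_zero]
      exact Multiset.count_pos.2 hj
where
  exists_nonsquare' {F : Type u} [Field F] [Fintype F] (h2 : (2 : F) ≠ 0) : ∃ ε : F, ¬ IsSquare ε :=
    FiniteField.exists_nonsquare fun h => h2 (by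
      have := CharP.cast_eq_zero F (ringChar F)
      rwa [h, Nat.cast_ofNat] at this)

end CfsgLib.ReflectionsSpinor.Wall
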