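import Cfsg.Agent.Lib.ReflectionsSpinor.WallSplit
import Mathlib.FieldTheory.Finite.Basic

/-!
The indecomposable pieces and their embeddings at the largest block size.
-/

set_option autoImplicit false
set_option linter.unusedSectionVars false

open Module Matrix
open LinearMap (BilinForm)

namespace CfsgLib.ReflectionsSpinor.Wall

open CfsgLib.Generators.UnipotentTypes (RankType rankType_single)

variable {F : Type*} [Field F]

/-- The shift on `F^k`. -/
def shift (k : ℕ) : End F (Fin k → F) where
  toFun v a := if (a : ℕ) = 0 then 0 else v ⟨(a : ℕ) - 1, lt_of_le_of_lt (Nat.sub_le _ _) a.2⟩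
  map_add' u v := by ext a; by_cases h : (a : ℕ) = 0 <;> simp [h]
  map_smul' c v := by ext a; by_cases h : (a : ℕ) = 0 <;> simp [h]

theorem shift_single {k : ℕ} (a : Fin k) :
    shift (F := F) k (Pi.single a 1) = if h : (a : ℕ) + 1 < k then Pi.single ⟨(a : ℕ) + 1, h⟩ 1 else 0 := by
  ext b
  simp only [shift, LinearMap.coe_mk, AddHom.coe_mk]
  split_ifs with h1 h2 h2
  · rw [Pi.single_apply, if_neg (by simp [Fin.ext_iff]; omega)]
  · rfl
  · simp only [Pi.single_apply, Fin.ext_iff]
    split_ifs <;> first | rfl | omega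
  · simp only [Pi.single_apply, Fin.ext_iff, Pi.zero_apply]
    rw [if_neg (by have := b.2; omega)]

theorem shift_pow_apply {k : ℕ} (i : ℕ) (v : Fin k → F) (a : Fin k) :
    ((shift k : End F (Fin k → F)) ^ i) v a =
      if (a : ℕ) < i then 0 else v ⟨(a : ℕ) - i, lt_of_le_of_lt (Nat.sub_le _ _) a.2⟩ := by
  induction i generalizing a with
  | zero => simp
  | succ i ih =>
    rw [pow_succ', Module.End.mul_apply]
    show (if (a : ℕ) = 0 then 0 else ((shift k : End F (Fin k → F)) ^ i) v ⟨(a : ℕ) - 1, _⟩) = _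
    rcases Nat.eq_zero_or_pos (a : ℕ) with h | h
    · rw [if_pos h, if_pos (by omega)]
    · rw [if_neg (by omega), ih]
      split_ifs <;> first | rfl | (exfalso; simp at *; omega) | (congr 1; apply Fin.ext; simp; omega)

theorem shift_nil (k : ℕ) : IsNilpotent (shift k : End F (Fin k → F)) :=
  ⟨k, LinearMap.ext fun v => funext fun a => by rw [shift_pow_apply, if_pos a.2]; rfl⟩

theorem rankType_shift (k : ℕ) : RankType (shift k : End F (Fin k → F)) {k} := by
  have h := rankType_single (shift k : End F (Fin k → F)) (shift_nil k) (by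
    rcases k with _ | n
    · exact (Submodule.finrank_le _).trans (by simp)
    · refine finrank_le_one (R := F)
        (⟨Pi.single (Fin.last n) 1, by rw [LinearMap.mem_ker, shift_single, dif_neg (by simp)]⟩ :
          LinearMap.ker (shift (n + 1) : End F (Fin (n + 1) → F))) fun w => ?_
      · refine ⟨(w : Fin (n + 1) → F) (Fin.last n), Subtype.ext (funext fun a => ?_)⟩
        simp only [SetLike.val_smul, Pi.smul_apply, smul_eq_mul]
        rcases eq_or_ne a (Fin.last n) with rfl | ha
        · rw [Pi.single_eq_same, mul_one]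
        · rw [Pi.single_eq_of_ne ha, mul_zero]
          have hlt : (a : ℕ) < n := Fin.val_lt_last ha
          have := congrFun (LinearMap.mem_ker.1 w.2) ⟨(a : ℕ) + 1, by omega⟩
          simp only [shift, LinearMap.coe_mk, AddHom.coe_mk, Nat.succ_ne_zero, if_false, Pi.zero_apply] at this
          exact this.symm)
  simpa using h

/-- The form pairing `e a` with `e b` for `a + b + 1 = k`, with sign `(-1)^a`. -/
def gamMatrix (k : ℕ) (c : F) : Matrix (Fin k) (Fin k) F :=
  Matrix.of fun a b => if (a : ℕ) + (b : ℕ) + 1 = k then (-1) ^ (a : ℕ) * c else 0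

/-- The same as a form. -/
noncomputable def gam (k : ℕ) (c : F) : BilinForm F (Fin k → F) := Matrix.toBilin' (gamMatrix k c)

theorem gam_single {k : ℕ} (c : F) (a b : Fin k) :
    gam k c (Pi.single a 1) (Pi.single b 1) = if (a : ℕ) + (b : ℕ) + 1 = k then (-1) ^ (a : ℕ) * c else 0 :=
  Matrix.toBilin'_single _ _ _

theorem bilin_ext_single {k : ℕ} {f g : BilinForm F (Fin k → F)}
    (h : ∀ a b : Fin k, f (Pi.single a 1) (Pi.single b 1) = g (Pi.single a 1) (Pi.single b 1)) : f = g :=
  LinearMap.BilinForm.ext_basis (Pi.basisFun F (Fin k)) fun a b => by simpa using h a b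

theorem gam_skew {k : ℕ} (c : F) (x y : Fin k → F) : gam k c (shift k x) y = -gam k c x (shift k y) := by
  have e : (gam k c).comp (shift k) LinearMap.id = -(gam k c).comp LinearMap.id (shift k) := by
    refine bilin_ext_single fun a b => ?_
    simp only [LinearMap.BilinForm.comp_apply, LinearMap.neg_apply, LinearMap.id_coe, id_eq, shift_single]
    split_ifs with ha hb hb
    · rw [gam_single, gam_single]
      simp only [show (a : ℕ) + 1 + (b : ℕ) + 1 = (a : ℕ) + ((b : ℕ) + 1) + 1 by ring]
      split_ifs <;> ring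
    · rw [gam_single, if_neg (by simp; omega)]; simp
    · rw [gam_single, if_neg (by simp; omega)]; simp
    · simp
  exact LinearMap.congr_fun₂ e x y

theorem gam_swap {k : ℕ} (c : F) (x y : Fin k → F) : gam k c y x = (-1) ^ (k + 1) * gam k c x y := by
  have e : (gam k c).flip = ((-1 : F) ^ (k + 1)) • gam k c := by
    refine bilin_ext_single fun a b => ?_
    rw [LinearMap.BilinForm.flip_apply, LinearMap.smul_apply, LinearMap.smul_apply, smul_eq_mul, gam_single, gam_single]
    by_cases h : (a : ℕ) + (b : ℕ) + 1 = k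
    · rw [if_pos h, if_pos (by omega), ← mul_assoc, ← pow_add,
        show k + 1 + (a : ℕ) = (b : ℕ) + 2 * ((a : ℕ) + 1) by omega, pow_add, pow_mul, neg_one_sq, one_pow, mul_one]
    · rw [if_neg h, if_neg (by omega), mul_zero]
  have h := LinearMap.congr_fun₂ e x y
  simpa using h

theorem gam_nd (k : ℕ) {c : F} (hc : c ≠ 0) : (gam k c).Nondegenerate := by
  refine Matrix.nondegenerate_toBilin'_iff.2 (Matrix.nondegenerate_iff_det_ne_zero.2 ?_)
  have e : gamMatrix k c = Matrix.diagonal (fun a : Fin k => (-1) ^ (a : ℕ) * c) *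
      (Fin.revPerm : Equiv.Perm (Fin k)).permMatrix F := by
    ext a b
    simp only [Matrix.diagonal_mul, gamMatrix, Matrix.of_apply, Equiv.Perm.permMatrix, PEquiv.toMatrix_apply,
      Equiv.toPEquiv_apply, Option.mem_def, Option.some.injEq, Fin.revPerm_apply, Fin.ext_iff, Fin.val_rev]
    split_ifs <;> first | omega | ring
  rw [e, Matrix.det_mul, Matrix.det_diagonal, Matrix.det_permutation]
  refine mul_ne_zero (Finset.prod_ne_zero_iff.2 fun a _ => mul_ne_zero (pow_ne_zero _ (neg_ne_zero.2 one_ne_zero)) hc) ?_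
  rcases Int.units_eq_one_or (Equiv.Perm.sign (Fin.revPerm : Equiv.Perm (Fin k))) with h | h <;> rw [h] <;> simp

variable (h2 : (2 : F) ≠ 0)

include h2 in
theorem gam_sys {k : ℕ} (hk : Even k) {c : F} (hc : c ≠ 0) : Sys (gam k c) (shift k) where
  nd := gam_nd k hc
  alt := fun x => by
    have h := gam_swap c x x
    rw [hk.add_one.neg_one_pow] at h
    exact (mul_eq_zero.1 (show (2 : F) * gam k c x x = 0 by linear_combination h)).resolve_left h2
  skew := gam_skew c
  nil := shift_nil k

/-- The paired form. -/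
noncomputable def pairForm (k : ℕ) : BilinForm F ((Fin k → F) × (Fin k → F)) :=
  (gam k 1).compl₁₂ (LinearMap.fst F _ _) (LinearMap.snd F _ _) -
    ((gam k 1).compl₁₂ (LinearMap.fst F _ _) (LinearMap.snd F _ _)).flip

theorem pairForm_apply {k : ℕ} (x y : (Fin k → F) × (Fin k → F)) :
    pairForm k x y = gam k 1 x.1 y.2 - gam k 1 y.1 x.2 := rfl

theorem pair_sys {k : ℕ} : Sys (pairForm (F := F) k) (LinearMap.prodMap (shift k) (shift k)) where
  nd := by
    have h := gam_nd (F := F) k one_ne_zero
    exact ⟨fun x hx => Prod.ext (h.1 _ fun y => by simpa [pairForm_apply] using hx (0, y))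
        (h.2 _ fun y => by simpa [pairForm_apply] using hx (y, 0)),
      fun x hx => Prod.ext (h.1 _ fun y => by simpa [pairForm_apply] using hx (0, y))
        (h.2 _ fun y => by simpa [pairForm_apply] using hx (y, 0))⟩
  alt := fun x => sub_self _
  skew := fun x y => by
    simp only [pairForm_apply, LinearMap.prodMap_apply, gam_skew]
    ring
  nil := by
    obtain ⟨a, ha⟩ := shift_nil (F := F) k
    exact ⟨a, by rw [CfsgLib.Generators.UnipotentTypes.prodMap_pow, ha]; exact LinearMap.ext fun x => rfl⟩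

variable {V : Type*} [AddCommGroup V] [Module F V] [FiniteDimensional F V] {B : BilinForm F V} {K : End F V}

/-- The orbit map of a vector. -/
noncomputable def orbMap (K : End F V) (k : ℕ) (x : V) : (Fin k → F) →ₗ[F] V :=
  Fintype.linearCombination F fun a : Fin k => (K ^ (a : ℕ)) x

theorem orbMap_single {k : ℕ} (x : V) (a : Fin k) : orbMap K k x (Pi.single a 1) = (K ^ (a : ℕ)) x := by
  rw [orbMap, Fintype.linearCombination_apply_single, one_smul]

theorem orbMap_shift {k : ℕ} (hK : K ^ k = 0) (x : V) (v : Fin k → F) :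
    orbMap K k x (shift k v) = K (orbMap K k x v) := by
  refine LinearMap.congr_fun (f := orbMap K k x ∘ₗ shift k) (g := K ∘ₗ orbMap K k x) ((Pi.basisFun F (Fin k)).ext fun a => ?_) v
  simp only [Pi.basisFun_apply, LinearMap.comp_apply, orbMap_single, ← Module.End.mul_apply, ← pow_succ']
  rw [shift_single]
  split_ifs with h
  · rw [orbMap_single]
  · rw [map_zero, pow_eq_zero_of_le (by omega) hK]; rfl

theorem orbMap_form (S : Sys B K) {k : ℕ} (hK : K ^ k = 0) {x y : V} {c : F}
    (hxy : ∀ i, i < k → B x ((K ^ i) y) = if i + 1 = k then c else 0) (v w : Fin k → F) :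
    B (orbMap K k x v) (orbMap K k y w) = gam k c v w := by
  have e : B.comp (orbMap K k x) (orbMap K k y) = gam k c := by
    refine bilin_ext_single fun a b => ?_
    rw [LinearMap.BilinForm.comp_apply, orbMap_single, orbMap_single, S.skew_pow, ← Module.End.mul_apply, ← pow_add,
      gam_single]
    by_cases h : (a : ℕ) + (b : ℕ) < k
    · rw [hxy _ h]; split_ifs <;> ring
    · rw [pow_eq_zero_of_le (by omega) hK, LinearMap.zero_apply, map_zero, mul_zero, if_neg (by omega)]
  exact LinearMap.congr_fun₂ e v w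

theorem self_pairing_even (S : Sys B K) (x : V) {i : ℕ} (hi : Even i) : B x ((K ^ i) x) = 0 := by
  obtain ⟨j, rfl⟩ := hi
  rw [pow_add, Module.End.mul_apply]
  have h := S.skew_pow j x ((K ^ j) x)
  rw [S.alt.self_eq_zero, zero_eq_mul] at h
  exact h.resolve_left (pow_ne_zero _ (neg_ne_zero.2 one_ne_zero))

theorem swap_pow (S : Sys B K) (x y : V) (i : ℕ) : B y ((K ^ i) x) = (-1) ^ (i + 1) * B x ((K ^ i) y) := by
  rw [← S.alt.neg_eq, S.skew_pow, pow_succ]
  ring

theorem pairing_add (S : Sys B K) (u w : V) (j s t : ℕ) :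
    B ((K ^ s) u) ((K ^ j) ((K ^ t) w)) = (-1) ^ s * B u ((K ^ (s + j + t)) w) := by
  rw [S.skew_pow, pow_add, pow_add, Module.End.mul_apply, Module.End.mul_apply]

include h2 in
theorem exists_normal_single (S : Sys B K) {k : ℕ} (hk : Even k) (hk0 : 0 < k) (hK : K ^ k = 0) {x : V} {c : F}
    (hc : c ≠ 0) (hx : B x ((K ^ (k - 1)) x) = c) :
    ∃ z, ∀ i, i < k → B z ((K ^ i) z) = if i + 1 = k then c else 0 := by
  suffices key : ∀ n, ∃ z, B z ((K ^ (k - 1)) z) = c ∧ ∀ i, k ≤ i + n + 1 → i + 1 < k → B z ((K ^ i) z) = 0 by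
    obtain ⟨z, h1, h3⟩ := key k
    refine ⟨z, fun i hi => ?_⟩
    split_ifs with h
    · rw [show i = k - 1 by omega, h1]
    · exact h3 i (by omega) (by omega)
  intro n
  induction n with
  | zero => exact ⟨x, hx, fun i h1 h3 => by omega⟩
  | succ n ih =>
    obtain ⟨z, hz, hzi⟩ := ih
    by_cases hlast : k ≤ n + 1
    · exact ⟨z, hz, fun i _ h3 => hzi i (by omega) h3⟩
    set j := k - (n + 2) with hj
    rcases Nat.even_or_odd j with he | ho
    · refine ⟨z, hz, fun i h1 h3 => ?_⟩
      rcases eq_or_ne i j with rfl | hne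
      · exact self_pairing_even S z he
      · exact hzi i (by omega) h3
    · obtain ⟨a, ha⟩ := ho
      obtain ⟨b, hb⟩ := hk
      set s := k - 1 - j with hs
      have hse : Even s := ⟨b - a - 1, by omega⟩
      set t := -B z ((K ^ j) z) / (2 * c) with ht
      have hexp : ∀ i, j ≤ i → B (z + t • (K ^ s) z) ((K ^ i) (z + t • (K ^ s) z)) =
          B z ((K ^ i) z) + 2 * t * B z ((K ^ (i + s)) z) := by
        intro i hi
        have h0 : B ((K ^ s) z) ((K ^ i) ((K ^ s) z)) = 0 := by
          rw [pairing_add S, pow_eq_zero_of_le (by omega) hK, LinearMap.zero_apply, map_zero, mul_zero]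
        have h1 : B ((K ^ s) z) ((K ^ i) z) = B z ((K ^ (i + s)) z) := by
          rw [S.skew_pow, hse.neg_one_pow, one_mul, ← Module.End.mul_apply, ← pow_add, add_comm]
        have h3 : (K ^ i) ((K ^ s) z) = (K ^ (i + s)) z := by rw [← Module.End.mul_apply, ← pow_add]
        simp only [map_add, map_smul, LinearMap.add_apply, LinearMap.smul_apply, smul_eq_mul, h0, h1]
        rw [h3]
        ring
      refine ⟨z + t • (K ^ s) z, ?_, fun i h1 h3 => ?_⟩
      · rw [hexp _ (by omega), hz, pow_eq_zero_of_le (by omega) hK, LinearMap.zero_apply, map_zero, mul_zero, add_zero]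
      · rw [hexp i (by omega)]
        rcases eq_or_ne i j with rfl | hne
        · rw [show j + s = k - 1 by omega, hz, ht]
          field_simp
          ring
        · rw [hzi i (by omega) h3, pow_eq_zero_of_le (by omega) hK, LinearMap.zero_apply, map_zero, mul_zero, add_zero]

include h2 in
theorem exists_normal_pair (S : Sys B K) {k : ℕ} (hk : Odd k) (hK : K ^ k = 0) {x y : V}
    (hxy : B x ((K ^ (k - 1)) y) = 1) :
    ∃ u w, (∀ i, i < k → B u ((K ^ i) w) = if i + 1 = k then (1 : F) else 0) ∧
      (∀ i, i < k → B u ((K ^ i) u) = 0) ∧ ∀ i, i < k → B w ((K ^ i) w) = 0 := by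
  obtain ⟨b, hb⟩ := hk
  suffices key : ∀ n, ∃ u w, B u ((K ^ (k - 1)) w) = 1 ∧ ∀ i, k ≤ i + n + 1 →
      (i + 1 < k → B u ((K ^ i) w) = 0) ∧ (i < k → B u ((K ^ i) u) = 0 ∧ B w ((K ^ i) w) = 0) by
    obtain ⟨u, w, h1, h3⟩ := key k
    refine ⟨u, w, fun i hi => ?_, fun i hi => ((h3 i (by omega)).2 hi).1, fun i hi => ((h3 i (by omega)).2 hi).2⟩
    split_ifs with h
    · rw [show i = k - 1 by omega, h1]
    · exact (h3 i (by omega)).1 (by omega)
  intro n
  induction n with
  | zero =>
    refine ⟨x, y, hxy, fun i h1 => ⟨fun h => by omega, fun h => ?_⟩⟩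
    have he : Even i := ⟨b, by omega⟩
    exact ⟨self_pairing_even S x he, self_pairing_even S y he⟩
  | succ n ih =>
    obtain ⟨u, w, huw, hi'⟩ := ih
    by_cases hlast : k ≤ n + 1
    · exact ⟨u, w, huw, fun i _ => hi' i (by omega)⟩
    set j := k - (n + 2) with hj
    set s := n + 1 with hs
    set d := -B u ((K ^ j) w) with hd
    set β := -B u ((K ^ j) u) / 2 with hβ
    set ε := B w ((K ^ j) w) / 2 with hε
    have hz : ∀ v v' : V, ∀ i, k ≤ i → B v ((K ^ i) v') = 0 := fun v v' i hi => by
      rw [pow_eq_zero_of_le hi hK, LinearMap.zero_apply, map_zero]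
    have hmove : ∀ v : V, ∀ i t, (K ^ i) ((K ^ t) v) = (K ^ (i + t)) v := fun v i t => by
      rw [← Module.End.mul_apply, ← pow_add]
    set u' := u + β • (K ^ s) w with hu'
    set w' := w + d • (K ^ s) w + ε • (K ^ s) u with hw'
    have euw : ∀ i, j ≤ i → B u' ((K ^ i) w') = B u ((K ^ i) w) + d * B u ((K ^ (i + s)) w) +
        ε * B u ((K ^ (i + s)) u) + β * ((-1) ^ s * B w ((K ^ (i + s)) w)) := by
      intro i hi
      simp only [hu', hw', map_add, map_smul, LinearMap.add_apply, LinearMap.smul_apply, smul_eq_mul, hmove,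
        S.skew_pow s]
      rw [hz w w (s + (i + s)) (by omega), hz w u (s + (i + s)) (by omega), add_comm s i]
      ring
    have euu : ∀ i, j ≤ i → B u' ((K ^ i) u') = B u ((K ^ i) u) + β * B u ((K ^ (i + s)) w) +
        β * ((-1) ^ s * B w ((K ^ (i + s)) u)) := by
      intro i hi
      simp only [hu', map_add, map_smul, LinearMap.add_apply, LinearMap.smul_apply, smul_eq_mul, hmove, S.skew_pow s]
      rw [hz w w (s + (i + s)) (by omega), add_comm s i]
      ring
    have eww : ∀ i, j ≤ i → B w' ((K ^ i) w') = B w ((K ^ i) w) + (1 + (-1) ^ s) * d * B w ((K ^ (i + s)) w) +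
        ε * B w ((K ^ (i + s)) u) + ε * ((-1) ^ s * B u ((K ^ (i + s)) w)) := by
      intro i hi
      simp only [hw', map_add, map_smul, LinearMap.add_apply, LinearMap.smul_apply, smul_eq_mul, hmove, S.skew_pow s]
      rw [hz w w (s + (i + s)) (by omega), hz w u (s + (i + s)) (by omega), hz u w (s + (i + s)) (by omega),
        hz u u (s + (i + s)) (by omega), add_comm s i]
      ring
    refine ⟨u', w', ?_, fun i h1 => ?_⟩
    · rw [euw _ (by omega), hz u w (k - 1 + s) (by omega), hz u u (k - 1 + s) (by omega),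
        hz w w (k - 1 + s) (by omega), huw]
      ring
    rcases eq_or_ne i j with rfl | hne
    · have hjs : j + s = k - 1 := by omega
      have hev : Even (k - 1) := ⟨b, by omega⟩
      have hwu : B w ((K ^ (k - 1)) u) = -1 := by
        rw [swap_pow S, huw, mul_one, Odd.neg_one_pow ⟨b, by omega⟩]
      refine ⟨fun _ => ?_, fun _ => ?_⟩
      · rw [euw j le_rfl, hjs, huw, self_pairing_even S u hev, self_pairing_even S w hev, hd]
        ring
      · rcases Nat.even_or_odd j with he | ho
        · exact ⟨self_pairing_even S u' he, self_pairing_even S w' he⟩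
        · have hso : Odd s := by
            obtain ⟨a, ha⟩ := ho
            exact ⟨b - a - 1, by omega⟩
          rw [euu j le_rfl, eww j le_rfl, hjs, huw, hwu, hso.neg_one_pow, self_pairing_even S w hev, hβ, hε]
          constructor <;> (field_simp; ring)
    · have hgt : k ≤ i + s := by omega
      obtain ⟨p1, p2⟩ := hi' i (by omega)
      refine ⟨fun h => ?_, fun h => ?_⟩
      · rw [euw i (by omega), hz _ _ _ hgt, hz _ _ _ hgt, hz _ _ _ hgt, p1 h]; ring
      · rw [euu i (by omega), eww i (by omega), hz _ _ _ hgt, hz _ _ _ hgt, hz _ _ _ hgt, (p2 h).1, (p2 h).2]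
        constructor <;> ring

end CfsgLib.ReflectionsSpinor.Wall
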