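import Cfsg.Agent.Lib.ReflectionsSpinor.WallDisc

/-!
Orthogonal sums of skew nilpotent maps of alternating spaces and splitting off a piece.
-/

set_option autoImplicit false
set_option linter.unusedSectionVars false

open Module Matrix
open LinearMap (BilinForm)

namespace CfsgLib.ReflectionsSpinor.Wall

open CfsgLib.Generators.UnipotentTypes (RankType prodMap_pow finrank_submodule_prod)

variable {F : Type*} [Field F]
variable {V W M : Type*} [AddCommGroup V] [Module F V] [AddCommGroup W] [Module F W] [AddCommGroup M] [Module F M]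
variable [FiniteDimensional F V] [FiniteDimensional F W] [FiniteDimensional F M]

/-- The orthogonal sum of two forms. -/
noncomputable def pform (B : BilinForm F V) (C : BilinForm F W) : BilinForm F (V × W) :=
  B.compl₁₂ (LinearMap.fst F V W) (LinearMap.fst F V W) + C.compl₁₂ (LinearMap.snd F V W) (LinearMap.snd F V W)

theorem pform_apply (B : BilinForm F V) (C : BilinForm F W) (x y : V × W) :
    pform B C x y = B x.1 y.1 + C x.2 y.2 := rfl

variable {B : BilinForm F V} {K : End F V} {C : BilinForm F W} {L : End F W}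

theorem prod_pow_apply (i : ℕ) (x : V × W) :
    ((LinearMap.prodMap K L : End F (V × W)) ^ i) x = ((K ^ i) x.1, (L ^ i) x.2) := by
  rw [prodMap_pow]; rfl

theorem Sys.prod (S : Sys B K) (T : Sys C L) : Sys (pform B C) (LinearMap.prodMap K L) where
  nd := ⟨fun x hx => Prod.ext (S.nd.1 _ fun y => by simpa [pform_apply] using hx (y, 0))
      (T.nd.1 _ fun y => by simpa [pform_apply] using hx (0, y)),
    fun x hx => Prod.ext (S.nd.2 _ fun y => by simpa [pform_apply] using hx (y, 0))
      (T.nd.2 _ fun y => by simpa [pform_apply] using hx (0, y))⟩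
  alt := fun x => by rw [pform_apply, S.alt.self_eq_zero, T.alt.self_eq_zero, add_zero]
  skew := fun x y => by
    simp only [pform_apply, LinearMap.prodMap_apply, S.skew, T.skew]
    ring
  nil := by
    obtain ⟨a, ha⟩ := S.nil
    obtain ⟨b, hb⟩ := T.nil
    refine ⟨a + b, ?_⟩
    rw [prodMap_pow, pow_add, ha, zero_mul, pow_add, hb, mul_zero]
    exact LinearMap.ext fun x => rfl

theorem rank_prod (K : End F V) (L : End F W) (i : ℕ) :
    finrank F (LinearMap.range ((LinearMap.prodMap K L : End F (V × W)) ^ i)) =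
      finrank F (LinearMap.range (K ^ i)) + finrank F (LinearMap.range (L ^ i)) := by
  rw [prodMap_pow, LinearMap.range_prodMap, finrank_submodule_prod]

theorem rankType_prod {μ ν : Multiset ℕ} (hK : RankType K μ) (hL : RankType L ν) :
    RankType (LinearMap.prodMap K L : End F (V × W)) (μ + ν) := fun i => by
  rw [rank_prod, hK, hL, Multiset.map_add, Multiset.sum_add]

theorem le_of_rankType_prod {μ ν : Multiset ℕ} (h0 : 0 ∉ μ) (hK : RankType K μ)
    (h : RankType (LinearMap.prodMap K L : End F (V × W)) ν) : μ ≤ ν ∧ RankType L (ν - μ) := by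
  have hle : μ ≤ ν := by
    refine Multiset.le_iff_count.2 fun a => ?_
    rcases a with _ | i
    · rw [Multiset.count_eq_zero_of_notMem h0]; exact Nat.zero_le _
    · have h1 := h.count i
      rw [rank_prod, rank_prod, rank_prod] at h1
      have h2 := hK.count i
      have h3 := CfsgLib.Omega.rankSeq_convex (N := L) (D := ⊤) le_top i
      simp only [CfsgLib.Omega.rankSeq] at h3
      rw [Submodule.map_top, Submodule.map_top, Submodule.map_top] at h3
      omega
  refine ⟨hle, fun i => ?_⟩
  have h1 := h i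
  rw [rank_prod, hK, ← Multiset.sub_add_cancel hle, Multiset.map_add, Multiset.sum_add] at h1
  omega

theorem disc_prod [Fintype F] [DecidableEq F] (S : Sys B K) (T : Sys C L) (i : ℕ) :
    disc (pform B C) (LinearMap.prodMap K L) i = disc B K i * disc C L i := by
  set y : Fin (finrank F (LinearMap.range (K ^ i))) ⊕ Fin (finrank F (LinearMap.range (L ^ i))) → V × W :=
    Sum.elim (fun a => (frame K i a, 0)) fun a => (0, frame L i a)
  have hg : gram (pform B C) (LinearMap.prodMap K L) i y =
      Matrix.fromBlocks (gram B K i (frame K i)) 0 0 (gram C L i (frame L i)) := by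
    ext (a | a) (b | b) <;> simp [y, gram_apply, pform_apply, prod_pow_apply]
  have hd : (gram (pform B C) (LinearMap.prodMap K L) i y).det =
      (gram B K i (frame K i)).det * (gram C L i (frame L i)).det := by
    rw [hg, Matrix.det_fromBlocks_zero₂₁]
  rw [disc_eq_of (S.prod T) i y (by rw [Fintype.card_sum, Fintype.card_fin, Fintype.card_fin, rank_prod])
    (by rw [hd]; exact mul_ne_zero (det_gram_frame S i) (det_gram_frame T i)), hd, map_mul]
  rfl

/-- An embedded piece splits off. -/
theorem exists_split {A : BilinForm F M} {N : End F M} (S : Sys B K) (T : Sys A N) (φ : M →ₗ[F] V)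
    (hB : ∀ x y, B (φ x) (φ y) = A x y) (hK : ∀ x, φ (N x) = K (φ x)) :
    ∃ (U : Submodule F V) (C : BilinForm F U) (L : End F U) (e : (M × U) ≃ₗ[F] V), Sys C L ∧
      (∀ x y, B (e x) (e y) = pform A C x y) ∧ ∀ x, e ((LinearMap.prodMap N L : End F (M × U)) x) = K (e x) := by
  have hφ : ∀ x, φ x = 0 → x = 0 := fun x hx => T.nd.1 x fun y => by
    rw [← hB, hx, map_zero, LinearMap.zero_apply]
  set R := LinearMap.range φ
  have hR : (B.restrict R).Nondegenerate := by
    have key : ∀ x ∈ R, (∀ y ∈ R, B x y = 0) → x = 0 := by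
      rintro _ ⟨x, rfl⟩ h
      rw [T.nd.1 x fun y => by rw [← hB]; exact h _ (LinearMap.mem_range_self φ y), map_zero]
    exact ⟨fun x hx => Subtype.ext (key x x.2 fun y hy => hx ⟨y, hy⟩),
      fun x hx => Subtype.ext (key x x.2 fun y hy => by
        have h : B y (x : V) = 0 := hx ⟨y, hy⟩
        rw [← S.alt.neg_eq, h, neg_zero])⟩
  have hc := LinearMap.BilinForm.isCompl_orthogonal_of_restrict_nondegenerate S.alt.isRefl hR
  set U := B.orthogonal R
  have hU : ∀ x ∈ U, K x ∈ U := fun x hx z hz => by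
    obtain ⟨w, rfl⟩ := hz
    show B (φ w) (K x) = 0
    rw [← neg_eq_zero, ← S.skew, ← hK]
    exact hx _ (LinearMap.mem_range_self φ _)
  have hφU : ∀ (x : M) (u : U), B (φ x) (u : V) = 0 := fun x u => u.2 _ (LinearMap.mem_range_self φ x)
  have hUφ : ∀ (x : M) (u : U), B (u : V) (φ x) = 0 := fun x u => by rw [← S.alt.neg_eq, hφU, neg_zero]
  let f : (M × U) →ₗ[F] V := φ.coprod U.subtype
  have hinj : Function.Injective f := (injective_iff_map_eq_zero f).2 fun x hx => by
    have h1 : φ x.1 + (x.2 : V) = 0 := hx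
    have h2 : φ x.1 ∈ R ⊓ U := ⟨LinearMap.mem_range_self φ _, by rw [eq_neg_of_add_eq_zero_left h1]; exact neg_mem x.2.2⟩
    rw [hc.inf_eq_bot, Submodule.mem_bot] at h2
    rw [h2, zero_add] at h1
    exact Prod.ext (hφ _ h2) (Subtype.ext h1)
  have hsurj : Function.Surjective f := fun v => by
    obtain ⟨_, ⟨x, rfl⟩, u, hu, rfl⟩ := Submodule.mem_sup.1 (show v ∈ R ⊔ U by rw [hc.sup_eq_top]; exact Submodule.mem_top)
    exact ⟨(x, ⟨u, hu⟩), rfl⟩
  refine ⟨U, B.restrict U, K.restrict hU, LinearEquiv.ofBijective f ⟨hinj, hsurj⟩,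
    ⟨?_, fun x => S.alt _, fun x y => S.skew _ _, ?_⟩, fun x y => ?_, fun x => ?_⟩
  · refine ⟨fun x hx => Subtype.ext (S.nd.1 _ fun v => ?_), fun x hx => Subtype.ext (S.nd.2 _ fun v => ?_)⟩
    · obtain ⟨⟨m, u⟩, rfl⟩ := hsurj v
      show B (x : V) (φ m + (u : V)) = 0
      rw [map_add, hUφ, zero_add]; exact hx u
    · obtain ⟨⟨m, u⟩, rfl⟩ := hsurj v
      show B (φ m + (u : V)) (x : V) = 0
      rw [map_add, LinearMap.add_apply, hφU, zero_add]; exact hx u
  · obtain ⟨a, ha⟩ := S.nil
    exact ⟨a, LinearMap.ext fun x => Subtype.ext (by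
      rw [Module.End.pow_restrict a hU]
      show (K ^ a) (x : V) = 0
      rw [ha]; rfl)⟩
  · show B (φ x.1 + (x.2 : V)) (φ y.1 + (y.2 : V)) = _
    rw [map_add, map_add, LinearMap.add_apply, LinearMap.add_apply,
      hB, hφU, hUφ, pform_apply, add_zero, zero_add]
    rfl
  · show φ (N x.1) + ((K.restrict hU x.2 : U) : V) = K (φ x.1 + (x.2 : V))
    rw [map_add, hK]; rfl

end CfsgLib.ReflectionsSpinor.Wall
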